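import Mathlib

/-!
Common vocabulary for the overgroups of `3^(1+2).Q₈` in three dimensions, over any field `L`.

`Local p M` holds for the finite subgroups of `SL₃(L)` we study (no transvections, Sylow
`p`-subgroups of order at most `p`); `Extra p M ω` adds the standard generators of `3^(1+2).Q₈`:
the diagonal matrix `X = diag(1, ω, ω²)`, the cycle `Y` and the two elements `A`, `B` of order four
with `A² = B² = -J`.
-/

set_option autoImplicit false

namespace CfsgLib.SLThree90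

open Matrix

variable {L : Type*} [Field L]

local notation "GL3" => GL (Fin 3) L
local notation "Mat3" => Matrix (Fin 3) (Fin 3) L

/-- The scalar matrices in the general linear group. -/
def sc3 : Lˣ →* GL3 := Units.map (Matrix.scalar (Fin 3) : L →+* Mat3).toMonoidHom

/-- A transvection: `1 + v φ` with `v ≠ 0`, `φ ≠ 0` and `φ v = 0`. -/
def IsTransv (g : GL3) : Prop :=
  ∃ v φ : Fin 3 → L, v ≠ 0 ∧ φ ≠ 0 ∧ φ ⬝ᵥ v = 0 ∧ (g : Mat3) = 1 + vecMulVec v φ

/-- A finite subgroup of `SL₃` without transvections, with small `p`-part. -/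
structure Local (p : ℕ) (M : Subgroup GL3) : Prop where
  p_prime : p.Prime
  seven_le : 7 ≤ p
  char : CharP L p
  finite : Finite M
  det_one : ∀ g ∈ M, (g : Mat3).det = 1
  no_transv : ∀ g ∈ M, ¬ IsTransv g
  not_p_sq : ¬ p ^ 2 ∣ Nat.card M

/-- `diag(1, ω, ω²)`. -/
def xMat (ω : L) : Mat3 := !![1, 0, 0; 0, ω, 0; 0, 0, ω ^ 2]

/-- The cyclic permutation matrix. -/
def yMat : Mat3 := !![0, 0, 1; 1, 0, 0; 0, 1, 0]

/-- The Fourier matrix, scaled to determinant one. -/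
def aMat (ω : L) : Mat3 :=
  (ω - ω ^ 2)⁻¹ • !![1, 1, 1; 1, ω, ω ^ 2; 1, ω ^ 2, ω]

/-- The Fourier matrix conjugated by `diag(1, ω, ω)`. -/
def bMat (ω : L) : Mat3 :=
  (ω - ω ^ 2)⁻¹ • !![1, ω ^ 2, ω ^ 2; ω, ω, ω ^ 2; ω, ω ^ 2, ω]

/-- `-J`, the common square of `aMat` and `bMat`. -/
def tMat : Mat3 := !![-1, 0, 0; 0, 0, -1; 0, -1, 0]

/-- An overgroup of the standard `3^(1+2).Q₈`. -/
structure Extra (p : ℕ) (M : Subgroup GL3) (ω : Lˣ) : Prop extends Local p M where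
  omega : IsPrimitiveRoot ω 3
  scalar_mem : sc3 ω ∈ M
  x_mem : ∃ g ∈ M, (g : Mat3) = xMat (ω : L)
  y_mem : ∃ g ∈ M, (g : Mat3) = yMat
  a_mem : ∃ g ∈ M, (g : Mat3) = aMat (ω : L)
  b_mem : ∃ g ∈ M, (g : Mat3) = bMat (ω : L)

/-- The subgroup `⟨X, Y⟩ · ⟨ω⟩` as a predicate on matrices: `ω^k X^i Y^j`. -/
def InR (ω : L) (g : GL3) : Prop :=
  ∃ k i j : Fin 3, (g : Mat3) = ω ^ (k : ℕ) • (xMat ω ^ (i : ℕ) * yMat ^ (j : ℕ))

/-- The group `M` normalises `R`. -/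
def NormalisesR (ω : L) (M : Subgroup GL3) : Prop :=
  ∀ g ∈ M, ∀ r : GL3, InR ω r → InR ω (g * r * g⁻¹)

end CfsgLib.SLThree90
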