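import Mathlib

/-!
Elementary facts about `2 × 2` matrices used for the projective image of a centraliser.
-/

set_option autoImplicit false

namespace CfsgLib.SLThree90

open Matrix

variable {L : Type*} [Field L]

local notation "Mat2" => Matrix (Fin 2) (Fin 2) L

/-- A scalar `2 × 2` matrix, through its entries. -/
def IsScalarTwo (A : Mat2) : Prop := A 0 1 = 0 ∧ A 1 0 = 0 ∧ A 0 0 = A 1 1

theorem IsScalarTwo.eq {A : Mat2} (h : IsScalarTwo A) : A = A 0 0 • (1 : Mat2) := by
  obtain ⟨h1, h2, h3⟩ := h
  ext i j
  fin_cases i <;> fin_cases j <;> simp [h1, h2, h3]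

theorem isScalarTwo_smul_one (c : L) : IsScalarTwo (c • (1 : Mat2)) := by
  simp [IsScalarTwo]

theorem cayley_two (A : Mat2) : A * A = A.trace • A - A.det • (1 : Mat2) := by
  ext i j
  fin_cases i <;> fin_cases j <;>
    simp [Matrix.mul_apply, Fin.sum_univ_two, Matrix.trace_fin_two, Matrix.det_fin_two] <;> ring

theorem trace_zero_of_sq {A : Mat2} (hA : ¬ IsScalarTwo A) {c : L} (h : A * A = c • (1 : Mat2)) :
    A.trace = 0 := by
  by_contra ht
  apply hA
  rw [cayley_two] at h
  have e : ∀ i j, A.trace * A i j = (c + A.det) * (1 : Mat2) i j := fun i j => by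
    have := congrFun (congrFun h i) j
    simp only [Matrix.sub_apply, Matrix.smul_apply, smul_eq_mul] at this
    linear_combination this
  refine ⟨(mul_eq_zero.1 (by simpa using e 0 1)).resolve_left ht,
    (mul_eq_zero.1 (by simpa using e 1 0)).resolve_left ht,
    mul_left_cancel₀ ht (by rw [e 0 0, e 1 1]; simp)⟩

theorem sq_of_trace_zero {A : Mat2} (h : A.trace = 0) : A * A = (-A.det) • (1 : Mat2) := by
  rw [cayley_two, h, zero_smul, zero_sub, neg_smul]

/-- Two matrices of trace zero that commute are proportional. -/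
theorem eq_smul_of_commute {A B : Mat2} (hA : A.trace = 0) (hB : B.trace = 0) (hA0 : A ≠ 0)
    (h2 : (2 : L) ≠ 0) (h : A * B = B * A) : ∃ k : L, B = k • A := by
  rw [Matrix.trace_fin_two] at hA hB
  have e := fun i j => congrFun (congrFun h i) j
  simp only [Matrix.mul_apply, Fin.sum_univ_two] at e
  have ea : A 1 1 = -A 0 0 := by linear_combination hA
  have eb : B 1 1 = -B 0 0 := by linear_combination hB
  have q1 : A 0 1 * B 1 0 = B 0 1 * A 1 0 := by linear_combination e 0 0
  have q2 : A 0 0 * B 0 1 = B 0 0 * A 0 1 := by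
    refine mul_left_cancel₀ h2 ?_
    have := e 0 1
    rw [ea, eb] at this
    linear_combination this
  have q3 : A 0 0 * B 1 0 = B 0 0 * A 1 0 := by
    refine mul_left_cancel₀ h2 ?_
    have := e 1 0
    rw [ea, eb] at this
    linear_combination -this
  by_cases h00 : A 0 0 = 0
  · rw [h00, zero_mul] at q2 q3
    by_cases h01 : A 0 1 = 0
    · have h10 : A 1 0 ≠ 0 := fun h10 => hA0 (by
        ext i j
        fin_cases i <;> fin_cases j <;> simp [h00, h01, h10, ea])
      refine ⟨B 1 0 / A 1 0, ?_⟩
      rw [h01, zero_mul] at q1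
      have b01 : B 0 1 = 0 := (mul_eq_zero.1 q1.symm).resolve_right h10
      have b00 : B 0 0 = 0 := (mul_eq_zero.1 q3.symm).resolve_right h10
      ext i j
      fin_cases i <;> fin_cases j <;> simp [h00, h01, ea, eb, b00, b01, h10]
    · refine ⟨B 0 1 / A 0 1, ?_⟩
      have b00 : B 0 0 = 0 := (mul_eq_zero.1 q2.symm).resolve_right h01
      ext i j
      fin_cases i <;> fin_cases j <;> simp [h00, ea, eb, b00, h01]
      field_simp
      linear_combination q1
  · refine ⟨B 0 0 / A 0 0, ?_⟩
    ext i j
    fin_cases i <;> fin_cases j <;> simp [ea, eb, h00]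
    · field_simp
      linear_combination q2
    · field_simp
      linear_combination q3

/-- An invertible matrix anticommuting with another one has trace zero. -/
theorem trace_zero_of_anti {A : Mat2} {B : GL (Fin 2) L} (h2 : (2 : L) ≠ 0)
    (h : A * (B : Mat2) = -((B : Mat2) * A)) : A.trace = 0 := by
  have hc : (B : Mat2) * A * ((B⁻¹ : GL (Fin 2) L) : Mat2) = -A := by
    rw [show (B : Mat2) * A = -(A * (B : Mat2)) by rw [h, neg_neg], neg_mul, mul_assoc,
      ← Units.val_mul, mul_inv_cancel, Units.val_one, mul_one]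
  have := congrArg Matrix.trace hc
  rw [Matrix.trace_units_conj, Matrix.trace_neg] at this
  exact (mul_eq_zero.1 (show (2 : L) * A.trace = 0 by linear_combination this)).resolve_left h2

/-- A matrix of determinant one with scalar cube, not scalar. -/
theorem trace_neg_one_of_cube {A : Mat2} (hA : ¬ IsScalarTwo A) (hd : A.det = 1)
    (h : A * A * A = 1) : A.trace = -1 ∧ A * A = -1 - A := by
  have hc := cayley_two A
  rw [hd, one_smul] at hc
  have h3 : (A.trace ^ 2 - 1) • A = (A.trace + 1) • (1 : Mat2) := by
    rw [hc, sub_mul, smul_mul_assoc, one_mul, hc] at h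
    rw [sub_smul, add_smul, one_smul, one_smul, sq, mul_smul]
    calc A.trace • A.trace • A - A
        = (A.trace • (A.trace • A - 1) - A) + A.trace • (1 : Mat2) := by
          rw [smul_sub]; abel
      _ = A.trace • 1 + 1 := by rw [h, add_comm]
  by_cases ht : A.trace ^ 2 - 1 = 0
  · rw [ht, zero_smul] at h3
    have h4 := congrFun (congrFun h3 0) 0
    simp at h4
    have ht' : A.trace = -1 := eq_neg_of_add_eq_zero_left h4.symm
    refine ⟨ht', ?_⟩
    rw [hc, ht', neg_smul, one_smul]
    abel
  · exfalso
    apply hA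
    have : A = ((A.trace ^ 2 - 1)⁻¹ * (A.trace + 1)) • (1 : Mat2) := by
      rw [mul_smul, ← h3, smul_smul, inv_mul_cancel₀ ht, one_smul]
    rw [this]
    exact isScalarTwo_smul_one _

end CfsgLib.SLThree90
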