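import Mathlib

/-!
The three possible shapes of the image in `PGL₂` of the centraliser of an involution: dihedral,
`A₄`, or one of `S₄`, `A₅` (recorded through the single property that is used).
-/

set_option autoImplicit false

namespace CfsgLib.SLThree90

open scoped commutatorElement

variable {H H' : Type*} [Group H] [Group H']

/-- The dihedral group of order `2 n`, through its cyclic subgroup of rotations. -/
structure IsDihShape (R : Subgroup H) (n : ℕ) : Prop where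
  two_le : 2 ≤ n
  card_R : Nat.card R = n
  cyclic : IsCyclic R
  index : R.index = 2
  sq : ∀ x, x ∉ R → x * x = 1
  inv : ∀ x, x ∉ R → ∀ y ∈ R, x * y * x⁻¹ = y⁻¹

/-- The properties of `A₄` that are used. -/
structure IsAltFourShape (H : Type*) [Group H] : Prop where
  exp : ∀ x : H, x ^ 2 = 1 ∨ x ^ 3 = 1
  invol : ∀ x : H, x ^ 2 = 1 → ∃ a b : H, ⁅a, b⁆ = x
  four : ∃ a b : H, a ^ 2 = 1 ∧ b ^ 2 = 1 ∧ a * b = b * a ∧ a ≠ 1 ∧ b ≠ 1 ∧ a ≠ b
  solvable : Group.IsSolvable H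

/-- The property of `S₄` and `A₅` that is used: there is a commutator of order three commuting with
no involution. -/
structure IsBadShape (H : Type*) [Group H] : Prop where
  bad : ∃ a b : H, ⁅a, b⁆ ≠ 1 ∧ ⁅a, b⁆ ^ 3 = 1 ∧
    ∀ r : H, r ^ 2 = 1 → r * ⁅a, b⁆ = ⁅a, b⁆ * r → r = 1
  four : ∃ a b : H, a ^ 2 = 1 ∧ b ^ 2 = 1 ∧ a * b = b * a ∧ a ≠ 1 ∧ b ≠ 1 ∧ a ≠ b

theorem dihShape_of_iso {n : ℕ} (hn : 2 ≤ n) (e : H ≃* DihedralGroup n) :
    ∃ R : Subgroup H, IsDihShape R n := by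
  haveI : NeZero n := ⟨by omega⟩
  set R : Subgroup H := (Subgroup.zpowers (DihedralGroup.r (1 : ZMod n))).comap e.toMonoidHom with hR
  have hmem : ∀ x, x ∈ R ↔ ∃ i : ZMod n, e x = DihedralGroup.r i := by
    intro x
    rw [hR, Subgroup.mem_comap, Subgroup.mem_zpowers_iff]
    change (∃ k : ℤ, _ = e x) ↔ _
    constructor
    · rintro ⟨k, hk⟩
      exact ⟨k, by rw [← hk, DihedralGroup.r_one_zpow]⟩
    · rintro ⟨i, hi⟩
      refine ⟨i.cast, ?_⟩
      rw [hi, DihedralGroup.r_one_zpow, ZMod.intCast_zmod_cast]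
  have hout : ∀ x, x ∉ R → ∃ i : ZMod n, e x = DihedralGroup.sr i := by
    intro x hx
    rcases h : e x with i | i
    · exact absurd ((hmem x).2 ⟨i, h⟩) hx
    · exact ⟨i, rfl⟩
  have hcard : Nat.card R = n := by
    have e' : R ≃* Subgroup.zpowers (DihedralGroup.r (1 : ZMod n)) :=
      { toFun := fun x => ⟨e x, x.2⟩
        invFun := fun y => ⟨e.symm y, by rw [hR, Subgroup.mem_comap]; simpa using y.2⟩
        left_inv := fun x => by simp
        right_inv := fun y => by simp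
        map_mul' := fun x y => Subtype.ext (map_mul e _ _) }
    rw [Nat.card_congr e'.toEquiv, Nat.card_zpowers, DihedralGroup.orderOf_r_one]
  refine ⟨R, hn, hcard, ?_, ?_, ?_, ?_⟩
  · refine ⟨⟨⟨e.symm (DihedralGroup.r 1), (hmem _).2 ⟨1, by simp⟩⟩, fun x => ?_⟩⟩
    obtain ⟨i, hi⟩ := (hmem x).1 x.2
    refine ⟨i.cast, Subtype.ext (e.injective ?_)⟩
    simp only [SubgroupClass.coe_zpow, map_zpow, MulEquiv.apply_symm_apply, hi,
      DihedralGroup.r_one_zpow, ZMod.intCast_zmod_cast]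
  · have h1 := R.card_mul_index
    rw [hcard, Nat.card_congr e.toEquiv, DihedralGroup.nat_card, mul_comm] at h1
    exact Nat.eq_of_mul_eq_mul_right (show 0 < n by omega) h1
  · intro x hx
    obtain ⟨i, hi⟩ := hout x hx
    exact e.injective (by rw [map_mul, hi, DihedralGroup.sr_mul_sr, sub_self, map_one, DihedralGroup.r_zero])
  · intro x hx y hy
    obtain ⟨i, hi⟩ := hout x hx
    obtain ⟨j, hj⟩ := (hmem y).1 hy
    refine e.injective ?_
    rw [map_mul, map_mul, map_inv, map_inv, hi, hj, DihedralGroup.inv_sr, DihedralGroup.inv_r,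
      DihedralGroup.sr_mul_r, DihedralGroup.sr_mul_sr, show i - (i + j) = -j by ring]

theorem solvable_of_commutators_commute
    (h : ∀ a b c d : H, ⁅a, b⁆ * ⁅c, d⁆ = ⁅c, d⁆ * ⁅a, b⁆) : Group.IsSolvable H := by
  refine ⟨2, ?_⟩
  rw [derivedSeries_succ, derivedSeries_one, Subgroup.commutator_eq_bot_iff_le_centralizer,
    commutator_eq_closure, Subgroup.centralizer_closure, Subgroup.closure_le]
  intro x hx
  rw [SetLike.mem_coe, Subgroup.mem_centralizer_iff]
  intro y hy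
  obtain ⟨a, b, rfl⟩ := hx
  obtain ⟨c, d, rfl⟩ := hy
  exact h c d a b

theorem altFourShape_of_iso (e : H ≃* alternatingGroup (Fin 4)) : IsAltFourShape H := by
  have hexp : ∀ x : alternatingGroup (Fin 4), x ^ 2 = 1 ∨ x ^ 3 = 1 := by decide +kernel
  have hinv : ∀ x : alternatingGroup (Fin 4), x ^ 2 = 1 → ∃ a b, a * b * a⁻¹ * b⁻¹ = x := by decide +kernel
  have hfour : ∃ a b : alternatingGroup (Fin 4),
      a ^ 2 = 1 ∧ b ^ 2 = 1 ∧ a * b = b * a ∧ a ≠ 1 ∧ b ≠ 1 ∧ a ≠ b := by decide +kernel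
  have hsq : ∀ a b : alternatingGroup (Fin 4), (a * b * a⁻¹ * b⁻¹) ^ 2 = 1 := by decide +kernel
  have hcomm : ∀ x y : alternatingGroup (Fin 4), x ^ 2 = 1 → y ^ 2 = 1 → x * y = y * x := by decide +kernel
  refine ⟨fun x => ?_, fun x hx => ?_, ?_, ?_⟩
  · rcases hexp (e x) with h | h
    · exact Or.inl (e.injective (by rw [map_pow, h, map_one]))
    · exact Or.inr (e.injective (by rw [map_pow, h, map_one]))
  · obtain ⟨a, b, hab⟩ := hinv (e x) (by rw [← map_pow, hx, map_one])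
    exact ⟨e.symm a, e.symm b, e.injective (by simp [commutatorElement_def, hab])⟩
  · obtain ⟨a, b, ha, hb, hab, ha1, hb1, hne⟩ := hfour
    refine ⟨e.symm a, e.symm b, ?_, ?_, ?_, ?_, ?_, fun h => hne (e.symm.injective h)⟩
    · rw [← map_pow, ha, map_one]
    · rw [← map_pow, hb, map_one]
    · rw [← map_mul, hab, map_mul]
    · simpa using ha1
    · simpa using hb1
  · refine solvable_of_commutators_commute fun a b c d => e.injective ?_
    simp only [map_mul, map_commutatorElement, commutatorElement_def, map_inv]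
    exact hcomm _ _ (hsq _ _) (hsq _ _)

theorem badShape_of_iso {K : Type*} [Group K] (e : H ≃* K)
    (hbad : ∃ a b : K, a * b * a⁻¹ * b⁻¹ ≠ 1 ∧ (a * b * a⁻¹ * b⁻¹) ^ 3 = 1 ∧
      ∀ r : K, r ^ 2 = 1 → r * (a * b * a⁻¹ * b⁻¹) = a * b * a⁻¹ * b⁻¹ * r → r = 1)
    (hfour : ∃ a b : K, a ^ 2 = 1 ∧ b ^ 2 = 1 ∧ a * b = b * a ∧ a ≠ 1 ∧ b ≠ 1 ∧ a ≠ b) :
    IsBadShape H := by
  refine ⟨?_, ?_⟩
  · obtain ⟨a, b, h1, h3, hr⟩ := hbad
    have he : e ⁅e.symm a, e.symm b⁆ = a * b * a⁻¹ * b⁻¹ := by simp [commutatorElement_def]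
    refine ⟨e.symm a, e.symm b, fun h => h1 (by rw [← he, h, map_one]),
      e.injective (by rw [map_pow, he, h3, map_one]), fun r hr2 hrc => e.injective ?_⟩
    rw [map_one]
    exact hr _ (by rw [← map_pow, hr2, map_one]) (by rw [← he, ← map_mul, hrc, map_mul])
  · obtain ⟨a, b, ha, hb, hab, ha1, hb1, hne⟩ := hfour
    refine ⟨e.symm a, e.symm b, ?_, ?_, ?_, ?_, ?_, fun h => hne (e.symm.injective h)⟩
    · rw [← map_pow, ha, map_one]
    · rw [← map_pow, hb, map_one]
    · rw [← map_mul, hab, map_mul]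
    · simpa using ha1
    · simpa using hb1

theorem badShape_perm (e : H ≃* Equiv.Perm (Fin 4)) : IsBadShape H := by
  refine badShape_of_iso e ⟨Equiv.swap 0 1, Equiv.swap 1 2, by decide, by decide, by decide⟩
    ⟨Equiv.swap 0 1, Equiv.swap 2 3, by decide, by decide, by decide, by decide, by decide,
      by decide⟩

theorem badShape_alt_five (e : H ≃* alternatingGroup (Fin 5)) : IsBadShape H := by
  refine badShape_of_iso e
    ⟨⟨Equiv.swap 0 1 * Equiv.swap 1 3, Equiv.Perm.mem_alternatingGroup.2 (by decide)⟩, ⟨Equiv.swap 1 2 * Equiv.swap 2 4, Equiv.Perm.mem_alternatingGroup.2 (by decide)⟩,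
      by decide +kernel, by decide +kernel, by decide +kernel⟩
    ⟨⟨Equiv.swap 0 1 * Equiv.swap 2 3, Equiv.Perm.mem_alternatingGroup.2 (by decide)⟩, ⟨Equiv.swap 0 2 * Equiv.swap 1 3, Equiv.Perm.mem_alternatingGroup.2 (by decide)⟩,
      by decide, by decide, by decide, by decide, by decide, by decide⟩

end CfsgLib.SLThree90
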