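import Cfsg.Agent.SLThree90.Centraliser
import Cfsg.Agent.SLThree90.Shape
import Cfsg.Agent.SLThree90.PlaneLemmas
import Cfsg.Agent.Dickson.Line

/-!
The image in `PGL₂` of the centraliser of `diag(1, -1, -1)`: it is abelian, dihedral, `A₄`, or one
of `S₄`, `A₅`, and the last case does not occur.
-/

set_option autoImplicit false

namespace CfsgLib.SLThree90

open Matrix
open scoped MatrixGroups commutatorElement

variable {L : Type*} [Field L] {p : ℕ} {M : Subgroup (GL (Fin 3) L)}

local notation "GL3" => GL (Fin 3) L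
local notation "Mat3" => Matrix (Fin 3) (Fin 3) L
local notation "Mat2" => Matrix (Fin 2) (Fin 2) L

/-- The projection of the centraliser to `PGL₂`. -/
noncomputable def Local.proj (h : Local p M) : cent M →* PGL(2, L) :=
  ProjGenLinGroup.mk.comp h.blk

theorem Local.proj_eq_one (h : Local p M) {a : cent M} :
    h.proj a = 1 ↔ IsScalarTwo (h.blk a : Mat2) :=
  Dickson.mk_eq_one_iff

theorem Local.corner_mul (h : Local p M) (a b : cent M) :
    ((a * b : cent M) : GL3) 0 0 = (a : GL3) 0 0 * (b : GL3) 0 0 := by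
  obtain ⟨a01, a02, a10, a20⟩ := h.zeros a.2
  simp [Matrix.mul_apply, Fin.sum_univ_three, a01, a02]

theorem Local.corner_comm (h : Local p M) (a b : cent M) :
    ((⁅a, b⁆ : cent M) : GL3) 0 0 = 1 := by
  have h1 : ⁅a, b⁆ * (b * a) = a * b := by rw [commutatorElement_def]; group
  have h2 := h.corner_mul ⁅a, b⁆ (b * a)
  rw [h1, h.corner_mul, h.corner_mul] at h2
  have ha := h.corner_ne_zero a.2
  have hb := h.corner_ne_zero b.2
  exact mul_right_cancel₀ (mul_ne_zero hb ha) (by linear_combination -h2)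

/-- An element of the centraliser is determined by its corner and its block. -/
theorem Local.ext_cent (h : Local p M) {a b : cent M} (h0 : (a : GL3) 0 0 = (b : GL3) 0 0)
    (hb : h.blk a = h.blk b) : a = b := by
  obtain ⟨a01, a02, a10, a20⟩ := h.zeros a.2
  obtain ⟨b01, b02, b10, b20⟩ := h.zeros b.2
  obtain ⟨a11, a12, a21, a22⟩ := h.blk_entries a
  obtain ⟨b11, b12, b21, b22⟩ := h.blk_entries b
  refine Subtype.ext (Units.ext ?_)
  ext i j
  fin_cases i <;> fin_cases j <;>
    simp [a01, a02, a10, a20, b01, b02, b10, b20, a11, a12, a21, a22, b11, b12, b21, b22, h0, hb]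

/-- Unipotent images are trivial. -/
theorem Local.eq_one_of_blk_sq (h : Local p M) {c : cent M} (h0 : (c : GL3) 0 0 = 1)
    (hN : ((h.blk c : Mat2) - 1) * ((h.blk c : Mat2) - 1) = 0) : c = 1 := by
  obtain ⟨c01, c02, c10, c20⟩ := h.zeros c.2
  obtain ⟨c11, c12, c21, c22⟩ := h.blk_entries c
  rw [h0, one_mul] at c11 c12 c21 c22
  have e := fun i j => congrFun (congrFun hN i) j
  simp only [Matrix.mul_apply, Fin.sum_univ_two, Matrix.sub_apply, Matrix.zero_apply] at e
  refine Subtype.ext (h.eq_one_of_sq_zero (cent_le M c.2) ?_)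
  have e00 := e 0 0
  have e01 := e 0 1
  have e10 := e 1 0
  have e11 := e 1 1
  simp at e00 e01 e10 e11
  ext i j
  fin_cases i <;> fin_cases j <;>
    simp [Matrix.mul_apply, Fin.sum_univ_three, h0, c01, c02, c10, c20, c11, c12, c21, c22,
      e00, e01, e10, e11]

theorem Local.not_dvd_cent (h : Local p M) : ¬ p ∣ Nat.card (cent M) := by
  intro hd
  haveI := h.finite
  haveI := Fact.mk h.p_prime
  haveI : Finite (cent M) :=
    Finite.of_injective _ (Subgroup.inclusion_injective (cent_le M))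
  obtain ⟨c, hc⟩ := exists_prime_orderOf_dvd_card' p hd
  have hcp : (c : GL3) ^ p ^ 1 = 1 := by
    rw [pow_one, ← Subgroup.coe_pow, show c ^ p = 1 by rw [← hc]; exact pow_orderOf_eq_one c,
      Subgroup.coe_one]
  have h3 := h.cube_zero hcp
  obtain ⟨c01, c02, c10, c20⟩ := h.zeros c.2
  obtain ⟨c11, c12, c21, c22⟩ := h.blk_entries c
  have e := fun i j => congrFun (congrFun h3 i) j
  simp only [pow_succ, pow_zero, one_mul, Matrix.mul_apply, Fin.sum_univ_three, Matrix.sub_apply,
    Matrix.zero_apply] at e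
  have e00 := e 0 0
  simp [c01, c02, c10, c20] at e00
  have h0 : (c : GL3) 0 0 = 1 := sub_eq_zero.1 e00
  rw [h0, one_mul] at c11 c12 c21 c22
  set N : Mat2 := (h.blk c : Mat2) - 1 with hN
  have hN3 : N * N * N = 0 := by
    have f11 := e 1 1
    have f12 := e 1 2
    have f21 := e 2 1
    have f22 := e 2 2
    simp [c10, c20, c11, c12, c21, c22] at f11 f12 f21 f22
    ext i j
    fin_cases i <;> fin_cases j <;> simp [hN, Matrix.mul_apply, Fin.sum_univ_two] <;> assumption
  have hdet : N.det = 0 := by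
    have := congrArg Matrix.det hN3
    rw [Matrix.det_mul, Matrix.det_mul, Matrix.det_zero] at this
    simpa using this
  have hN2 : N * N = N.trace • N := by rw [cayley_two, hdet, zero_smul, sub_zero]
  have hsq : N * N = 0 := by
    rw [hN2]
    rw [hN2, smul_mul_assoc, hN2, smul_smul] at hN3
    rcases smul_eq_zero.1 hN3 with ht | h0N
    · rw [mul_self_eq_zero.1 ht, zero_smul]
    · rw [h0N, smul_zero]
  have : c = 1 := h.eq_one_of_blk_sq h0 hsq
  rw [this, orderOf_one] at hc
  exact h.p_prime.ne_one hc.symm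

/-- A fixed point on the line makes the centraliser commutative. -/
theorem Local.comm_of_fixed [DecidableEq L] (h : Local p M) {x : OnePoint L}
    (hx : ∀ a : cent M, h.proj a • x = x) (a b : cent M) : a * b = b * a := by
  obtain ⟨g, hg⟩ := Dickson.exists_smul_infty x
  set T : cent M →* GL (Fin 2) L := (MulAut.conj g⁻¹).toMonoidHom.comp h.blk with hT
  have hlow : ∀ c, T c 1 0 = 0 := by
    intro c
    have h1 : h.blk c • x = x := hx c
    rw [← OnePoint.smul_infty_eq_self_iff, hT]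
    simp only [MonoidHom.coe_comp, MulEquiv.coe_toMonoidHom, Function.comp_apply,
      MulAut.conj_apply, inv_inv, mul_smul]
    rw [hg, h1, ← hg, inv_smul_smul]
  have hmul : ∀ c d, T (c * d) 0 0 = T c 0 0 * T d 0 0 ∧ T (c * d) 1 1 = T c 1 1 * T d 1 1 := by
    intro c d
    simp [map_mul, Matrix.mul_apply, Fin.sum_univ_two, hlow c, hlow d]
  set c := ⁅a, b⁆ with hc
  have h1 : c * (b * a) = a * b := by rw [hc, commutatorElement_def]; group
  have hd0 : ∀ c, T c 0 0 ≠ 0 ∧ T c 1 1 ≠ 0 := fun c => Dickson.diag_ne_zero (hlow c)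
  have h00 : T c 0 0 = 1 := by
    have := (hmul c (b * a)).1
    rw [h1, (hmul a b).1, (hmul b a).1] at this
    exact mul_right_cancel₀ (mul_ne_zero (hd0 b).1 (hd0 a).1) (by linear_combination -this)
  have h11 : T c 1 1 = 1 := by
    have := (hmul c (b * a)).2
    rw [h1, (hmul a b).2, (hmul b a).2] at this
    exact mul_right_cancel₀ (mul_ne_zero (hd0 b).2 (hd0 a).2) (by linear_combination -this)
  have hsq : ((T c : Mat2) - 1) * ((T c : Mat2) - 1) = 0 := by
    ext i j
    fin_cases i <;> fin_cases j <;>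
      simp [Matrix.mul_apply, Fin.sum_univ_two, hlow c, h00, h11]
  have hblk : ((h.blk c : Mat2) - 1) * ((h.blk c : Mat2) - 1) = 0 := by
    have hv : (h.blk c : Mat2) = (g : Mat2) * (T c : Mat2) * ((g⁻¹ : GL (Fin 2) L) : Mat2) := by
      rw [← Units.val_mul, ← Units.val_mul]
      congr 1
      simp [hT, mul_assoc]
    have hone : (g : Mat2) * ((g⁻¹ : GL (Fin 2) L) : Mat2) = 1 := by
      rw [← Units.val_mul, mul_inv_cancel, Units.val_one]
    have hone' : ((g⁻¹ : GL (Fin 2) L) : Mat2) * (g : Mat2) = 1 := by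
      rw [← Units.val_mul, inv_mul_cancel, Units.val_one]
    have e : (h.blk c : Mat2) - 1 = (g : Mat2) * ((T c : Mat2) - 1) * ((g⁻¹ : GL (Fin 2) L) : Mat2) := by
      rw [hv, mul_sub, sub_mul, mul_one, hone]
    rw [e, show ∀ N : Mat2, (g : Mat2) * N * ((g⁻¹ : GL (Fin 2) L) : Mat2) *
        ((g : Mat2) * N * ((g⁻¹ : GL (Fin 2) L) : Mat2)) =
        (g : Mat2) * (N * N) * ((g⁻¹ : GL (Fin 2) L) : Mat2) from fun N => by
          rw [mul_assoc, ← mul_assoc _ ((g : Mat2) * N), ← mul_assoc _ (g : Mat2), hone', one_mul]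
          simp only [mul_assoc],
      hsq, mul_zero, zero_mul]
  have h2 := h.eq_one_of_blk_sq (h.corner_comm a b) hblk
  rwa [commutatorElement_eq_one_iff_mul_comm] at h2

theorem Local.finite_cent (h : Local p M) : Finite (cent M) :=
  haveI := h.finite
  Finite.of_injective _ (Subgroup.inclusion_injective (cent_le M))

theorem Local.finite_range (h : Local p M) : Finite h.proj.range :=
  haveI := h.finite_cent
  Finite.of_surjective _ h.proj.rangeRestrict_surjective

/-- The possible shapes of the image in `PGL₂`. -/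
theorem Local.classify [IsAlgClosed L] (h : Local p M) :
    (∀ a b : cent M, a * b = b * a) ∨
      (∃ (n : ℕ) (R : Subgroup h.proj.range), IsDihShape R n) ∨
      IsAltFourShape h.proj.range ∨ IsBadShape h.proj.range := by
  classical
  haveI := h.char
  haveI := Fact.mk h.p_prime
  haveI := h.finite_range
  haveI := h.finite_cent
  have hp : ¬ p ∣ Nat.card h.proj.range :=
    fun hd => h.not_dvd_cent (hd.trans (Subgroup.card_range_dvd h.proj))
  rcases (Dickson.isDicksonAction (p := p) h.proj.range).classify_semisimple hp with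
    ⟨x, hx⟩ | ⟨n, hn, -, ⟨e⟩⟩ | ⟨-, ⟨e⟩⟩ | ⟨-, ⟨e⟩⟩ | ⟨-, ⟨e⟩⟩
  · exact Or.inl (h.comm_of_fixed fun a => hx ⟨h.proj a, a, rfl⟩)
  · exact Or.inr (Or.inl ⟨n, dihShape_of_iso hn e⟩)
  · exact Or.inr (Or.inr (Or.inl (altFourShape_of_iso e)))
  · exact Or.inr (Or.inr (Or.inr (badShape_perm e)))
  · exact Or.inr (Or.inr (Or.inr (badShape_alt_five e)))

/-- Distinct commuting involutions in `PGL₂` lift to anticommuting matrices. -/
theorem Local.anti_of_invols (h : Local p M) {a b : cent M} (ha : h.proj a ^ 2 = 1)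
    (hb : h.proj b ^ 2 = 1) (ha1 : h.proj a ≠ 1) (hb1 : h.proj b ≠ 1) (hab : h.proj a ≠ h.proj b)
    (hc : h.proj a * h.proj b = h.proj b * h.proj a) :
    (h.blk a : Mat2) * h.blk b = -((h.blk b : Mat2) * h.blk a) := by
  have key : ∀ a : cent M, h.proj a ^ 2 = 1 → h.proj a ≠ 1 → (h.blk a : Mat2).trace = 0 := by
    intro a ha ha1
    rw [← map_pow, h.proj_eq_one, pow_two, map_mul, Units.val_mul] at ha
    exact trace_zero_of_sq (fun hs => ha1 (h.proj_eq_one.2 hs)) ha.eq
  have hc' : h.proj (a * b) = h.proj (b * a) := by rw [map_mul, map_mul, hc]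
  obtain ⟨u, hu⟩ := ProjGenLinGroup.mk_eq_mk_iff.mp hc'
  have hv : (h.blk b : Mat2) * h.blk a = (u : L) • ((h.blk a : Mat2) * h.blk b) := by
    have h1 := congrArg (Units.val (α := Mat2)) hu
    simp only [MonoidHom.coe_comp, Function.comp_apply, map_mul, Units.val_mul] at h1
    rw [← h1]
    simp [← Matrix.smul_one_eq_diagonal]
  have hd := congrArg Matrix.det hv
  rw [Matrix.det_smul, Fintype.card_fin, Matrix.det_mul, Matrix.det_mul] at hd
  have hne : (h.blk a : Mat2).det * (h.blk b : Mat2).det ≠ 0 :=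
    mul_ne_zero (h.blk a).det_ne_zero (h.blk b).det_ne_zero
  have hu2 : (u : L) * u = 1 := mul_right_cancel₀ hne (by linear_combination -hd)
  rcases mul_self_eq_one_iff.1 hu2 with hu1 | hu1
  · exfalso
    rw [hu1, one_smul] at hv
    obtain ⟨k, hk⟩ := eq_smul_of_commute (key a ha ha1) (key b hb hb1) (h.blk a).ne_zero
      h.two_ne_zero hv.symm
    apply hab
    have hk0 : k ≠ 0 := fun h0 => (h.blk b).ne_zero (by rw [hk, h0, zero_smul])
    refine ProjGenLinGroup.mk_eq_mk_iff.mpr ⟨Units.mk0 k hk0, ?_⟩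
    refine Units.ext ?_
    simp [hk, ← Matrix.smul_one_eq_diagonal]
  · rw [hv, hu1, neg_smul, one_smul, neg_neg]

theorem Local.t0_mem_of_four (h : Local p M)
    (hf : ∃ a b : h.proj.range, a ^ 2 = 1 ∧ b ^ 2 = 1 ∧ a * b = b * a ∧ a ≠ 1 ∧ b ≠ 1 ∧ a ≠ b) :
    t0 ∈ M := by
  obtain ⟨⟨_, a, rfl⟩, ⟨_, b, rfl⟩, ha, hb, hab, ha1, hb1, hne⟩ := hf
  refine (h.t0_mem (a := a) (b := b) (h.anti_of_invols ?_ ?_ ?_ ?_ ?_ ?_)).1
  · simpa [Subtype.ext_iff] using ha
  · simpa [Subtype.ext_iff] using hb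
  · simpa [Subtype.ext_iff] using ha1
  · simpa [Subtype.ext_iff] using hb1
  · simpa [Subtype.ext_iff] using hne
  · simpa [Subtype.ext_iff] using hab

variable {ω : Lˣ}

theorem two_le_rank_of_minor {A : Mat3} (r c : Fin 2 → Fin 3) (h : (A.submatrix r c).det ≠ 0) :
    2 ≤ A.rank := by
  have h1 := Matrix.rank_submatrix_le A r c
  rwa [Matrix.rank_of_isUnit _ ((Matrix.isUnit_iff_isUnit_det _).2 (isUnit_iff_ne_zero.2 h)),
    Fintype.card_fin] at h1

/-- A commutator of order three modulo scalars commutes with an involution of determinant `-1`. -/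
theorem Ambient.exists_commuting_invol (ha : Ambient p ω M) (ht : t0 ∈ M) {a b : cent M}
    (h1 : ha.proj ⁅a, b⁆ ≠ 1) (h3 : ha.proj ⁅a, b⁆ ^ 3 = 1) :
    ∃ r : cent M, r * r = 1 ∧ (r : GL3) 0 0 = -1 ∧ ha.proj r ≠ 1 ∧
      ha.proj r * ha.proj ⁅a, b⁆ = ha.proj ⁅a, b⁆ * ha.proj r := by
  set c := ⁅a, b⁆ with hc
  have hc0 := ha.corner_comm a b
  rw [← hc] at hc0
  have hdet : (ha.blk c : Mat2).det = 1 := by rw [ha.det_blk, hc0, inv_one, one_pow]
  have hc3 : IsScalarTwo (ha.blk (c ^ 3) : Mat2) := ha.proj_eq_one.1 (by rw [map_pow, h3])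
  set z := c ^ 4 with hz
  have hzp : ha.proj z = ha.proj c := by rw [hz, pow_succ, map_mul, map_pow, h3, one_mul]
  set l := (ha.blk (c ^ 3) : Mat2) 0 0 with hl
  have hl2 : l * l = 1 := by
    have e := congrArg Matrix.det hc3.eq
    rw [← hl, Matrix.det_smul, Matrix.det_one, mul_one, Fintype.card_fin, map_pow,
      Units.val_pow_eq_pow_val, Matrix.det_pow, hdet, one_pow, pow_two] at e
    exact e.symm
  have hB3' : (ha.blk c : Mat2) ^ 3 = l • 1 := by
    rw [← Units.val_pow_eq_pow_val, ← map_pow]; exact hc3.eq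
  set B := (ha.blk z : Mat2) with hB
  have hBc : B = (ha.blk c : Mat2) ^ 4 := by rw [hB, hz, map_pow, Units.val_pow_eq_pow_val]
  have hB3 : B * B * B = 1 := by
    rw [hBc, ← pow_add, ← pow_add, show 4 + 4 + 4 = 3 * 4 from rfl, pow_mul, hB3', smul_pow,
      one_pow, show l ^ 4 = (l * l) * (l * l) by ring, hl2, one_mul, one_smul]
  have hBd : B.det = 1 := by rw [hBc, Matrix.det_pow, hdet, one_pow]
  have hBn : ¬ IsScalarTwo B := fun hs => h1 (by rw [← hzp]; exact ha.proj_eq_one.2 hs)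
  obtain ⟨htr, hBB⟩ := trace_neg_one_of_cube hBn hBd hB3
  have hz0 : (z : GL3) 0 0 = 1 := by
    have hm : ∀ u v : cent M, (u : GL3) 0 0 = 1 → (v : GL3) 0 0 = 1 →
        ((u * v : cent M) : GL3) 0 0 = 1 := fun u v hu hv => by
      rw [ha.corner_mul, hu, hv, one_mul]
    rw [hz, pow_succ, pow_succ, pow_succ, pow_one]
    exact hm _ _ (hm _ _ (hm _ _ hc0 hc0) hc0) hc0
  obtain ⟨z01, z02, z10, z20⟩ := ha.zeros z.2
  obtain ⟨z11, z12, z21, z22⟩ := ha.blk_entries z
  rw [hz0, one_mul, ← hB] at z11 z12 z21 z22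
  rw [Matrix.trace_fin_two] at htr
  rw [Matrix.det_fin_two] at hBd
  have eB := fun i j => congrFun (congrFun hBB i) j
  simp only [Matrix.mul_apply, Fin.sum_univ_two, Matrix.sub_apply, Matrix.neg_apply] at eB
  have hz3 : ((z : GL3) : Mat3) ^ 3 = (1 : L) • 1 := by
    rw [one_smul, ← Units.val_pow_eq_pow_val, ← Subgroup.coe_pow,
      show z ^ 3 = 1 from ha.ext_cent (by
        rw [pow_succ, pow_two, ha.corner_mul, ha.corner_mul, hz0]; simp) (by
        refine Units.ext ?_
        rw [map_pow, Units.val_pow_eq_pow_val, ← hB, map_one, Units.val_one, pow_succ, pow_two,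
          hB3]), Subgroup.coe_one, Units.val_one]
  have hrank : ∀ x : L, 2 ≤ (((z : GL3) : Mat3) - x • 1).rank := by
    intro x
    by_cases hx : x = 1
    · refine two_le_rank_of_minor ![1, 2] ![1, 2] ?_
      have e : ((((z : GL3) : Mat3) - x • 1).submatrix ![1, 2] ![1, 2]).det = 3 := by
        rw [Matrix.det_fin_two]; simp [hx, z11, z12, z21, z22]
        linear_combination hBd - htr
      rw [e]
      exact ha.three_ne_zero
    · have hx' : (1 : L) - x ≠ 0 := sub_ne_zero.2 (Ne.symm hx)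
      by_cases hb : B 0 1 = 0
      · by_cases hb' : B 1 0 = 0
        · by_cases hb0 : B 0 0 = x
          · refine two_le_rank_of_minor ![0, 2] ![0, 2] ?_
            have hne : B 1 1 - x ≠ 0 := fun h0 => hBn ⟨hb, hb', by linear_combination hb0 - h0⟩
            rw [Matrix.det_fin_two]; simp [hz0, z02, z20, z22, hx', hne]
          · refine two_le_rank_of_minor ![0, 1] ![0, 1] ?_
            rw [Matrix.det_fin_two]; simp [hz0, z01, z10, z11, hx', sub_ne_zero.2 hb0]
        · refine two_le_rank_of_minor ![0, 2] ![0, 1] ?_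
          rw [Matrix.det_fin_two]; simp [hz0, z01, z20, z21, hx', hb']
      · refine two_le_rank_of_minor ![0, 1] ![0, 2] ?_
        rw [Matrix.det_fin_two]; simp [hz0, z02, z10, z12, hx', hb]
  obtain ⟨s, hs, k, hk, hsz⟩ := ha.cycle _ (cent_le M z.2) ⟨1, hz3⟩ hrank
  set ν := (ω : L) ^ k with hν
  have hν3 : ν ^ 3 = 1 := by
    rw [hν, ← pow_mul, mul_comm, pow_mul, ← Units.val_pow_eq_pow_val, ha.omega.pow_eq_one,
      Units.val_one, one_pow]
  have hν0 : ν ≠ 0 := fun h0 => by rw [h0] at hν3; simp at hν3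
  -- `t₀` is a polynomial in `z`, so its conjugate by `s` is one as well
  set R : Mat3 := (2 / 3 : L) •
    (1 + ν • ((z : GL3) : Mat3) + ν ^ 2 • (((z : GL3) : Mat3) * ((z : GL3) : Mat3))) - 1 with hR
  have h3' := ha.three_ne_zero
  have ht0 : (t0Mat : Mat3) = (2 / 3 : L) •
      (1 + ((z : GL3) : Mat3) + ((z : GL3) : Mat3) * ((z : GL3) : Mat3)) - 1 := by
    ext i j
    fin_cases i <;> fin_cases j <;>
      simp [t0Mat, Matrix.mul_apply, Fin.sum_univ_three, z01, z02, z10, z20, hz0, z11, z12, z21,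
        z22]
    · field_simp; ring
    · have := eB 0 0
      simp at this
      linear_combination (-(2 / 3) : L) * this
    · have := eB 0 1
      simp at this
      linear_combination (-(2 / 3) : L) * this
    · have := eB 1 0
      simp at this
      linear_combination (-(2 / 3) : L) * this
    · have := eB 1 1
      simp at this
      linear_combination (-(2 / 3) : L) * this
  set rg : GL3 := s * t0 * s⁻¹ with hrg
  have hsv : (s : Mat3) * ((s⁻¹ : GL3) : Mat3) = 1 := by
    rw [← Units.val_mul, mul_inv_cancel, Units.val_one]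
  have hrv : (rg : Mat3) = R := by
    rw [hrg, Units.val_mul, Units.val_mul]
    change (s : Mat3) * t0Mat * _ = R
    rw [ht0, hR]
    simp only [mul_add, add_mul, mul_sub, sub_mul, mul_smul_comm, smul_mul_assoc, mul_one, hsv]
    have e1 : (s : Mat3) * ((z : GL3) : Mat3) * ((s⁻¹ : GL3) : Mat3) = ν • ((z : GL3) : Mat3) := by
      rw [← Units.val_mul, ← Units.val_mul, hsz]
    have e2 : (s : Mat3) * (((z : GL3) : Mat3) * ((z : GL3) : Mat3)) * ((s⁻¹ : GL3) : Mat3) =
        ν ^ 2 • (((z : GL3) : Mat3) * ((z : GL3) : Mat3)) := by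
      rw [show (s : Mat3) * (((z : GL3) : Mat3) * ((z : GL3) : Mat3)) * ((s⁻¹ : GL3) : Mat3) =
        ((s : Mat3) * ((z : GL3) : Mat3) * ((s⁻¹ : GL3) : Mat3)) *
          ((s : Mat3) * ((z : GL3) : Mat3) * ((s⁻¹ : GL3) : Mat3)) by
        rw [← Units.val_mul, ← Units.val_mul, ← Units.val_mul, ← Units.val_mul, ← Units.val_mul,
          ← Units.val_mul]
        congr 1
        group, e1, smul_mul_assoc, mul_smul_comm, smul_smul, pow_two]
    rw [e1, e2]
  have hrc : rg ∈ cent M := by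
    refine (mem_cent_iff ha.two_ne_zero).2 ⟨M.mul_mem (M.mul_mem hs ht) (M.inv_mem hs), ?_⟩
    rw [hrv, hR]
    simp [Matrix.mul_apply, Fin.sum_univ_three, z01, z02, z10, z20]
  refine ⟨⟨rg, hrc⟩, Subtype.ext ?_, ?_, ?_, ?_⟩
  · change rg * rg = 1
    rw [hrg, show s * t0 * s⁻¹ * (s * t0 * s⁻¹) = s * (t0 * t0) * s⁻¹ by group,
      show (t0 : GL3) * t0 = 1 from Units.ext t0Mat_mul_self, mul_one, mul_inv_cancel]
  · change rg 0 0 = -1
    rw [hrv, hR]
    simp [Matrix.mul_apply, Fin.sum_univ_three, z01, z02, hz0]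
    linear_combination (2 / 3 : L) * (mul_eq_zero.1 (show (ν - 1) * (1 + ν + ν ^ 2) = 0 by linear_combination hν3)).resolve_left
      (sub_ne_zero.2 hk)
  · intro hp
    obtain ⟨p01, p10, p00⟩ := ha.proj_eq_one.1 hp
    obtain ⟨r11, r12, r21, r22⟩ := ha.blk_entries ⟨rg, hrc⟩
    simp only [p01, p10, mul_zero] at r12 r21
    rw [← p00] at r22
    have r0 : rg 1 1 = rg 2 2 := r11.trans r22.symm
    rw [hrv, hR] at r0 r12 r21
    simp [Matrix.mul_apply, Fin.sum_univ_three, z10, z20, z11, z12, z21, z22] at r0 r12 r21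
    have hcoef : ν - ν ^ 2 ≠ 0 := by
      intro h0
      have : ν * (1 - ν) = 0 := by linear_combination h0
      exact hk ((sub_eq_zero.1 ((mul_eq_zero.1 this).resolve_left hν0)).symm)
    have h23 : (2 / 3 : L) ≠ 0 := div_ne_zero ha.two_ne_zero h3'
    have e01 := eB 0 1
    have e10 := eB 1 0
    have e00 := eB 0 0
    have e11 := eB 1 1
    simp at e01 e10 e00 e11
    refine hBn ⟨?_, ?_, ?_⟩
    · refine (mul_eq_zero.1 (show (ν - ν ^ 2) * B 0 1 = 0 from ?_)).resolve_left hcoef
      refine mul_left_cancel₀ h23 ?_; linear_combination r12 - (2 / 3 : L) * ν ^ 2 * e01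
    · refine (mul_eq_zero.1 (show (ν - ν ^ 2) * B 1 0 = 0 from ?_)).resolve_left hcoef
      refine mul_left_cancel₀ h23 ?_; linear_combination r21 - (2 / 3 : L) * ν ^ 2 * e10
    · refine mul_left_cancel₀ (mul_ne_zero h23 hcoef) ?_
      linear_combination r0 - (2 / 3 : L) * ν ^ 2 * e00 + (2 / 3 : L) * ν ^ 2 * e11
  · rw [← hzp, ← map_mul, ← map_mul]
    congr 1
    refine Subtype.ext (Units.ext ?_)
    change ((rg : Mat3) * ((z : GL3) : Mat3)) = ((z : GL3) : Mat3) * (rg : Mat3)
    rw [hrv, hR]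
    simp only [mul_add, add_mul, mul_sub, sub_mul, mul_smul_comm, smul_mul_assoc, mul_one, one_mul,
      mul_assoc]

/-- `S₄` and `A₅` do not occur. -/
theorem Ambient.not_bad (ha : Ambient p ω M) : ¬ IsBadShape ha.proj.range := by
  rintro ⟨⟨⟨_, a, rfl⟩, ⟨_, b, rfl⟩, h1, h3, hr⟩, hf⟩
  have ht := ha.t0_mem_of_four hf
  have e : ((⁅(⟨ha.proj a, a, rfl⟩ : ha.proj.range), ⟨ha.proj b, b, rfl⟩⁆ : ha.proj.range) :
      PGL(2, L)) = ha.proj ⁅a, b⁆ := by
    simp [commutatorElement_def]
  obtain ⟨r, hr2, -, hr1, hrc⟩ := ha.exists_commuting_invol ht (a := a) (b := b)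
    (fun h => h1 (Subtype.ext (e.trans h))) (by rw [← e, ← Subgroup.coe_pow, h3]; rfl)
  refine hr1 (congrArg Subtype.val (hr ⟨ha.proj r, r, rfl⟩ (Subtype.ext ?_) (Subtype.ext ?_)))
  · simp only [Subgroup.coe_pow, Subgroup.coe_one]
    rw [← map_pow, pow_two, hr2, map_one]
  · simp only [Subgroup.coe_mul, e]
    exact hrc

end CfsgLib.SLThree90
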