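import Cfsg.Agent.SLThree90.Homology

/-!
The centraliser of `diag(1, -1, -1)` and its projection to `GL₂`, together with the hypotheses on
the whole group that the local analysis needs.
-/

set_option autoImplicit false

namespace CfsgLib.SLThree90

open Matrix

variable {L : Type*} [Field L]

local notation "GL3" => GL (Fin 3) L
local notation "Mat3" => Matrix (Fin 3) (Fin 3) L
local notation "GL2" => GL (Fin 2) L
local notation "Mat2" => Matrix (Fin 2) (Fin 2) L

theorem Local.natCast_ne_zero {p : ℕ} {M : Subgroup GL3} (h : Local p M) {n : ℕ} (hn : ¬ p ∣ n) :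
    (n : L) ≠ 0 := fun h0 => hn ((@CharP.cast_eq_zero_iff L _ p h.char n).1 h0)

theorem Local.two_ne_zero {p : ℕ} {M : Subgroup GL3} (h : Local p M) : (2 : L) ≠ 0 := by
  have h1 := h.natCast_ne_zero (n := 2) (fun hd => by
    have := Nat.le_of_dvd (by norm_num) hd
    have := h.seven_le
    omega)
  exact_mod_cast h1

theorem Local.three_ne_zero {p : ℕ} {M : Subgroup GL3} (h : Local p M) : (3 : L) ≠ 0 := by
  have h1 := h.natCast_ne_zero (n := 3) (fun hd => by
    have := Nat.le_of_dvd (by norm_num) hd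
    have := h.seven_le
    omega)
  exact_mod_cast h1

/-- The elements of `M` commuting with `diag(1, -1, -1)` (which need not lie in `M`). -/
def cent (M : Subgroup GL3) : Subgroup GL3 := M ⊓ Subgroup.centralizer ({t0} : Set GL3)

theorem mem_cent_iff {M : Subgroup GL3} (h2 : (2 : L) ≠ 0) {g : GL3} :
    g ∈ cent M ↔ g ∈ M ∧ g 0 1 = 0 ∧ g 0 2 = 0 ∧ g 1 0 = 0 ∧ g 2 0 = 0 := by
  have key : g * t0 = t0 * g ↔ g 0 1 = 0 ∧ g 0 2 = 0 ∧ g 1 0 = 0 ∧ g 2 0 = 0 := by
    rw [Units.ext_iff]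
    change (g : Mat3) * t0Mat = t0Mat * (g : Mat3) ↔ _
    constructor
    · intro he
      have e : ∀ i j, g i j * (![1, -1, -1] : Fin 3 → L) j = (![1, -1, -1] : Fin 3 → L) i * g i j :=
        fun i j => by
          have h1 := congrFun (congrFun he i) j
          rwa [t0Mat, Matrix.mul_diagonal, Matrix.diagonal_mul] at h1
      have hz : ∀ x : L, -x = x → x = 0 := fun x hx =>
        (mul_eq_zero.1 (show (2 : L) * x = 0 by linear_combination -hx)).resolve_left h2
      refine ⟨hz _ ?_, hz _ ?_, hz _ ?_, hz _ ?_⟩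
      · simpa using e 0 1
      · simpa using e 0 2
      · simpa using (e 1 0).symm
      · simpa using (e 2 0).symm
    · rintro ⟨h01, h02, h10, h20⟩
      rw [t0Mat]
      ext i j
      rw [Matrix.mul_diagonal, Matrix.diagonal_mul]
      fin_cases i <;> fin_cases j <;> simp [h01, h02, h10, h20]
  rw [cent, Subgroup.mem_inf, Subgroup.mem_centralizer_iff, ← key]
  simp [eq_comm]

theorem cent_le (M : Subgroup GL3) : cent M ≤ M := inf_le_left

variable {p : ℕ} {M : Subgroup (GL (Fin 3) L)}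

theorem Local.zeros (h : Local p M) {g : GL3} (hg : g ∈ cent M) :
    g 0 1 = 0 ∧ g 0 2 = 0 ∧ g 1 0 = 0 ∧ g 2 0 = 0 := ((mem_cent_iff h.two_ne_zero).1 hg).2

theorem Local.det_cent (h : Local p M) {g : GL3} (hg : g ∈ cent M) :
    g 0 0 * (g 1 1 * g 2 2 - g 1 2 * g 2 1) = 1 := by
  obtain ⟨h01, h02, h10, h20⟩ := h.zeros hg
  have h1 := h.det_one g (cent_le M hg)
  rw [Matrix.det_fin_three, h01, h02, h10, h20] at h1
  linear_combination h1

theorem Local.corner_ne_zero (h : Local p M) {g : GL3} (hg : g ∈ cent M) : g 0 0 ≠ 0 := by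
  intro h0
  have h1 := h.det_cent hg
  rw [h0, zero_mul] at h1
  exact zero_ne_one h1

/-- The action on the plane, scaled by the eigenvalue on the line. -/
def blkMat (g : GL3) : Mat2 := (g 0 0)⁻¹ • !![g 1 1, g 1 2; g 2 1, g 2 2]

/-- `blkMat` as a homomorphism. -/
def Local.blkHom (h : Local p M) : cent M →* Mat2 where
  toFun g := blkMat (g : GL3)
  map_one' := by
    ext i j
    fin_cases i <;> fin_cases j <;> simp [blkMat]
  map_mul' a b := by
    obtain ⟨a01, a02, a10, a20⟩ := h.zeros a.2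
    obtain ⟨b01, b02, b10, b20⟩ := h.zeros b.2
    have ha := h.corner_ne_zero a.2
    have hb := h.corner_ne_zero b.2
    ext i j
    fin_cases i <;> fin_cases j <;>
      simp [blkMat, Matrix.mul_apply, Fin.sum_univ_three, Fin.sum_univ_two, a01, a02, a10, a20,
        b01, b02, b10, b20] <;> field_simp

/-- The projection of the centraliser to `GL₂`. -/
def Local.blk (h : Local p M) : cent M →* GL2 := h.blkHom.toHomUnits

theorem Local.blk_val (h : Local p M) (g : cent M) : (h.blk g : Mat2) = blkMat (g : GL3) := rfl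

theorem Local.blk_entries (h : Local p M) (g : cent M) :
    (g : GL3) 1 1 = (g : GL3) 0 0 * h.blk g 0 0 ∧ (g : GL3) 1 2 = (g : GL3) 0 0 * h.blk g 0 1 ∧
      (g : GL3) 2 1 = (g : GL3) 0 0 * h.blk g 1 0 ∧ (g : GL3) 2 2 = (g : GL3) 0 0 * h.blk g 1 1 := by
  have ha := h.corner_ne_zero g.2
  simp [h.blk_val, blkMat, mul_inv_cancel_left₀ ha]

theorem Local.det_blk (h : Local p M) (g : cent M) :
    (h.blk g : Mat2).det = (((g : GL3) 0 0)⁻¹) ^ 3 := by
  have h1 := h.det_cent g.2
  have ha := h.corner_ne_zero g.2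
  rw [h.blk_val, blkMat, Matrix.det_smul, Fintype.card_fin, Matrix.det_fin_two_of]
  field_simp
  linear_combination h1

/-- The kernel of `blk` consists of scalar matrices. -/
theorem Local.scalar_of_blk_eq_one (h : Local p M) {g : cent M} (hg : h.blk g = 1) :
    ((g : GL3) : Mat3) = (g : GL3) 0 0 • (1 : Mat3) ∧ ((g : GL3) 0 0) ^ 3 = 1 := by
  obtain ⟨h01, h02, h10, h20⟩ := h.zeros g.2
  obtain ⟨e11, e12, e21, e22⟩ := h.blk_entries g
  simp only [hg, Units.val_one, Matrix.one_apply_eq, mul_one,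
    Matrix.one_apply_ne (zero_ne_one' (Fin 2)), Matrix.one_apply_ne (zero_ne_one' (Fin 2)).symm,
    mul_zero] at e11 e12 e21 e22
  refine ⟨?_, ?_⟩
  · ext i j
    fin_cases i <;> fin_cases j <;> simp [h01, h02, h10, h20, e11, e12, e21, e22]
  · have h1 := h.det_blk g
    rw [hg, Units.val_one, Matrix.det_one, inv_pow] at h1
    rw [← inv_eq_one, ← h1]

theorem Local.commute_of_blk (h : Local p M) {a b : cent M} (hc : Commute (h.blk a) (h.blk b)) :
    a * b = b * a := by
  obtain ⟨a01, a02, a10, a20⟩ := h.zeros a.2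
  obtain ⟨b01, b02, b10, b20⟩ := h.zeros b.2
  obtain ⟨a11, a12, a21, a22⟩ := h.blk_entries a
  obtain ⟨b11, b12, b21, b22⟩ := h.blk_entries b
  have hc' := congrArg (Units.val (α := Mat2)) hc.eq
  rw [Units.val_mul, Units.val_mul] at hc'
  have e := fun i j => congrFun (congrFun hc' i) j
  simp only [Matrix.mul_apply, Fin.sum_univ_two] at e
  refine Subtype.ext (Units.ext ?_)
  rw [Subgroup.coe_mul, Subgroup.coe_mul, Units.val_mul, Units.val_mul]
  ext i j
  rw [Matrix.mul_apply, Matrix.mul_apply, Fin.sum_univ_three, Fin.sum_univ_three]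
  fin_cases i <;> fin_cases j <;>
    simp [a01, a02, a10, a20, b01, b02, b10, b20, a11, a12, a21, a22, b11, b12, b21, b22]
  · ring
  · linear_combination ((a : GL3) 0 0 * (b : GL3) 0 0) * e 0 0
  · linear_combination ((a : GL3) 0 0 * (b : GL3) 0 0) * e 0 1
  · linear_combination ((a : GL3) 0 0 * (b : GL3) 0 0) * e 1 0
  · linear_combination ((a : GL3) 0 0 * (b : GL3) 0 0) * e 1 1

/-- Anticommuting images in `GL₂` put `diag(1, -1, -1)` into `M`. -/
theorem Local.t0_mem (h : Local p M) {a b : cent M}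
    (hab : (h.blk a : Mat2) * h.blk b = -((h.blk b : Mat2) * h.blk a)) :
    t0 ∈ M ∧ ∃ c : cent M, (c : GL3) = t0 ∧ (h.blk c : Mat2) = -1 := by
  set c := a * b * a⁻¹ * b⁻¹ with hc
  have hblk : (h.blk c : Mat2) = -1 := by
    have h1 : (h.blk c : Mat2) * ((h.blk b : Mat2) * h.blk a) = h.blk a * h.blk b := by
      rw [← Units.val_mul, ← Units.val_mul, ← Units.val_mul, hc]
      congr 1
      simp only [map_mul, map_inv]
      group
    have h2 : ((h.blk c : Mat2) + 1) * ((h.blk b : Mat2) * h.blk a) = 0 := by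
      rw [add_mul, h1, hab, one_mul, neg_add_cancel]
    have h3 : (h.blk c : Mat2) + 1 = 0 := by
      rw [← Units.val_mul (h.blk b)] at h2
      exact (h.blk b * h.blk a).mul_left_eq_zero.1 h2
    exact eq_neg_of_add_eq_zero_left h3
  obtain ⟨c01, c02, c10, c20⟩ := h.zeros c.2
  obtain ⟨c11, c12, c21, c22⟩ := h.blk_entries c
  simp only [hblk, Matrix.neg_apply, Matrix.one_apply_eq, mul_neg, mul_one,
    Matrix.one_apply_ne (zero_ne_one' (Fin 2)), Matrix.one_apply_ne (zero_ne_one' (Fin 2)).symm,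
    neg_zero, mul_zero] at c11 c12 c21 c22
  have hd := h.det_cent c.2
  rw [c11, c12, c21, c22] at hd
  set α := (c : GL3) 0 0 with hα
  have hval : ((c : GL3) : Mat3) = α • t0Mat := by
    ext i j
    fin_cases i <;> fin_cases j <;> simp [t0Mat, c01, c02, c10, c20, c11, c12, c21, c22, ← hα]
  have hpow : ((c ^ 3 : cent M) : GL3) = t0 := by
    refine Units.ext ?_
    rw [Subgroup.coe_pow, Units.val_pow_eq_pow_val, hval, smul_pow,
      show α ^ 3 = 1 by linear_combination hd, one_smul, pow_succ, pow_two, t0Mat_mul_self, one_mul]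
    rfl
  refine ⟨hpow ▸ cent_le M (c ^ 3).2, c ^ 3, hpow, ?_⟩
  rw [map_pow, Units.val_pow_eq_pow_val, hblk]
  simp [pow_succ]

/-- Every element `z ∈ M` with scalar cube and simple spectrum is moved to a multiple of itself. -/
def HasCycle (ω : L) (M : Subgroup GL3) : Prop :=
  ∀ z ∈ M, (∃ c : L, ((z : Mat3)) ^ 3 = c • (1 : Mat3)) →
    (∀ a : L, 2 ≤ ((z : Mat3) - a • 1).rank) →
    ∃ s ∈ M, ∃ k : ℕ, ω ^ k ≠ 1 ∧ ((s * z * s⁻¹ : GL3) : Mat3) = ω ^ k • (z : Mat3)

/-- Commutative normal subgroups consist of scalar matrices. -/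
def NoAbNormal (M : Subgroup GL3) : Prop :=
  ∀ N : Subgroup GL3, N ≤ M → (∀ g ∈ M, ∀ x ∈ N, g * x * g⁻¹ ∈ N) →
    (∀ x ∈ N, ∀ y ∈ N, x * y = y * x) → ∀ x ∈ N, ∃ c : L, (x : Mat3) = c • 1

/-- The global hypotheses of the local analysis; they are invariant under conjugation. -/
structure Ambient (p : ℕ) (ω : Lˣ) (M : Subgroup GL3) : Prop extends Local p M where
  omega : IsPrimitiveRoot ω 3
  scalar_mem : sc3 ω ∈ M
  cycle : HasCycle (ω : L) M
  no_ab : NoAbNormal M

theorem conj_smul_one (P : GL3) (c : L) :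
    (P : Mat3) * (c • 1) * ((P⁻¹ : GL3) : Mat3) = c • 1 := by
  rw [mul_smul_comm, mul_one, smul_mul_assoc, ← Units.val_mul, mul_inv_cancel, Units.val_one]

theorem rank_conj (P : GL3) (A : Mat3) :
    ((P : Mat3) * A * ((P⁻¹ : GL3) : Mat3)).rank = A.rank := by
  rw [Matrix.rank_mul_eq_left_of_isUnit_det _ _ ((Matrix.isUnit_iff_isUnit_det _).1 (P⁻¹).isUnit),
    Matrix.rank_mul_eq_right_of_isUnit_det _ _ ((Matrix.isUnit_iff_isUnit_det _).1 P.isUnit)]

theorem Ambient.cnj {ω : Lˣ} (h : Ambient p ω M) (P : GL3) : Ambient p ω (cnj P M) := by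
  refine ⟨h.toLocal.cnj P, h.omega, ?_, ?_, ?_⟩
  · rw [mem_cnj, mul_assoc, sc3_comm, inv_mul_cancel_left]
    exact h.scalar_mem
  · intro z hz hz3 hrk
    have hzv : ((P⁻¹ * z * P : GL3) : Mat3) = ((P⁻¹ : GL3) : Mat3) * (z : Mat3) * (P : Mat3) := by
      rw [Units.val_mul, Units.val_mul]
    obtain ⟨c, hc⟩ := hz3
    have hc' : ((P⁻¹ * z * P : GL3) : Mat3) ^ 3 = c • 1 := by
      have e : (P⁻¹ * z * P) ^ 3 = P⁻¹ * z ^ 3 * P := by simp [pow_succ, mul_assoc]
      have := conj_smul_one P⁻¹ c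
      rw [inv_inv] at this
      rw [← Units.val_pow_eq_pow_val, e, Units.val_mul, Units.val_mul, Units.val_pow_eq_pow_val, hc,
        this]
    have hrk' : ∀ a : L, 2 ≤ (((P⁻¹ * z * P : GL3) : Mat3) - a • 1).rank := fun a => by
      have h1 := rank_conj P⁻¹ ((z : Mat3) - a • 1)
      have h2 := conj_smul_one P⁻¹ a
      rw [inv_inv] at h1 h2
      rw [mul_sub, sub_mul, h2, ← hzv] at h1
      rw [h1]
      exact hrk a
    obtain ⟨s, hs, k, hk, he⟩ := h.cycle _ (mem_cnj.1 hz) ⟨c, hc'⟩ hrk'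
    refine ⟨P * s * P⁻¹, conj_mem_cnj hs, k, hk, ?_⟩
    have e : P * s * P⁻¹ * z * (P * s * P⁻¹)⁻¹ = P * (s * (P⁻¹ * z * P) * s⁻¹) * P⁻¹ := by group
    rw [e, Units.val_mul, Units.val_mul, he, hzv]
    simp only [mul_smul_comm, smul_mul_assoc]
    congr 1
    rw [← Units.val_mul, ← Units.val_mul, ← Units.val_mul, ← Units.val_mul]
    congr 1
    group
  · intro N hN hnorm hcomm x hx
    obtain ⟨c, hc⟩ := h.no_ab (SLThree90.cnj P⁻¹ N) (fun y hy => by
        obtain ⟨y, hy, rfl⟩ := hy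
        simpa [inv_inv] using mem_cnj.1 (hN hy))
      (fun g hg y hy => by
        rw [mem_cnj, inv_inv] at hy ⊢
        have := hnorm _ (conj_mem_cnj (P := P) hg) _ hy
        simpa [mul_assoc] using this)
      (fun y hy z hz => by
        rw [mem_cnj, inv_inv] at hy hz
        have := congrArg (fun w => P⁻¹ * w * P) (hcomm _ hy _ hz)
        simpa [mul_assoc] using this)
      (P⁻¹ * x * P) (mem_cnj.2 (by simpa [mul_assoc] using hx))
    refine ⟨c, ?_⟩
    have h1 := conj_smul_one P c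
    rw [← hc, ← Units.val_mul, ← Units.val_mul, show P * (P⁻¹ * x * P) * P⁻¹ = x by group] at h1
    rw [h1]
    exact hc

end CfsgLib.SLThree90
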