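import Mathlib

/-!
Interface between the geometry and the counting in the proof that the normaliser of an
extraspecial group of order 27 is maximal in `SL₃(p)` and `SU₃(p)`.

`G` is the overgroup, `Z` its group of scalars (order three), `t` the involution of the normaliser
and `R` the extraspecial group.  The class equation of `G` is inconsistent with these facts:
with `|G| = 3g` one has

  `1 = 1/g + (3/4 - 1/(4n)) + 1/9 + (tori) + (p - 1)/(p e)`,

where a torus would contribute at least `4/15` and `e` is the index of `Z × P` in the normaliser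
of a Sylow `p`-subgroup `P`.
-/

set_option autoImplicit false

namespace CfsgLib.SLThree90

variable {G : Type*} [Group G]

/-- Facts about an overgroup of `3^(1+2).Q₈` without transvections having one class of involutions
with centralisers of shape `Z × (semidihedral type of order 4n)`. -/
structure CountHyp (G : Type*) [Group G] (Z R : Subgroup G) (t : G) (p n : ℕ) : Prop where
  p_prime : p.Prime
  seven_le : 7 ≤ p
  not_p_sq : ¬ p ^ 2 ∣ Nat.card G
  not_eightyone : ¬ 81 ∣ Nat.card G
  Z_le : Z ≤ Subgroup.center G
  card_Z : Nat.card Z = 3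
  four_dvd : 4 ∣ n
  three_not_dvd : ¬ 3 ∣ n
  /-- `t` is an involution and all involutions are conjugate to it -/
  order_t : orderOf t = 2
  conj_t : ∀ s : G, orderOf s = 2 → IsConj t s
  card_cent : Nat.card (Subgroup.centralizer ({t} : Set G)) = 12 * n
  card_refl : Nat.card {u : G // orderOf u = 2 ∧ u ≠ t ∧ u * t = t * u} = n
  /-- the common centraliser of two commuting involutions -/
  pair : ∀ s u g : G, orderOf s = 2 → orderOf u = 2 → s ≠ u → s * u = u * s →
    g * s = s * g → g * u = u * g →
    g ∈ Z ∨ g * s ∈ Z ∨ g * u ∈ Z ∨ g * (s * u) ∈ Z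
  /-- elements outside the cosets of involutions and of order prime to `p` have abelian centraliser -/
  abelian : ∀ g : G, g ∉ Z → ¬ p ∣ orderOf g → (∀ s : G, orderOf s = 2 → g * s ∉ Z) →
    ∀ x y : G, x * g = g * x → y * g = g * y → x * y = y * x
  card_R : Nat.card R = 27
  Z_le_R : Z ≤ R
  card_normalizer_R : Nat.card (Subgroup.normalizer (R : Set G)) = 216
  /-- an element moving a non-central element of `R` by a scalar lies in `R` -/
  R_self : ∀ y : G, y ∈ R → y ∉ Z → ∀ g : G, g * y * g⁻¹ * y⁻¹ ∈ Z → g ∈ R
  /-- the Weyl group of a torus free of involutions and of elements of order three modulo `Z` has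
  order at most three (it is six for the elements of `R`) -/
  torus : ∀ g : G, g ^ 3 ∉ Z → ¬ p ∣ orderOf g → (∀ s : G, orderOf s = 2 → g * s ≠ s * g) →
    Nat.card (Subgroup.normalizer (Subgroup.centralizer ({g} : Set G) : Set G)) ≤
      3 * Nat.card (Subgroup.centralizer ({g} : Set G))
  /-- elements of order `p` -/
  cent_p : ∀ u : G, orderOf u = p → Subgroup.centralizer ({u} : Set G) = Z ⊔ Subgroup.zpowers u
  /-- the normaliser of a subgroup of order `p` is cyclic modulo `Z × P` -/
  cyclic_p : ∀ u : G, orderOf u = p →
    ∃ c ∈ Subgroup.normalizer (Subgroup.zpowers u : Set G),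
      Subgroup.normalizer (Subgroup.zpowers u : Set G) = Z ⊔ Subgroup.zpowers u ⊔ Subgroup.zpowers c
  /-- an element of such a normaliser commuting with some involution does so with one inside it -/
  invol_p : ∀ u z s : G, orderOf u = p → z ∈ Subgroup.normalizer (Subgroup.zpowers u : Set G) →
    z * u ≠ u * z → z * z * u ≠ u * (z * z) → orderOf s = 2 → z * s = s * z →
    ∃ s' ∈ Subgroup.normalizer (Subgroup.zpowers u : Set G), orderOf s' = 2

end CfsgLib.SLThree90
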