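import Mathlib
import Cfsg.Agent.SLThree90.CountHyp

/-!
The class equation of an overgroup of `3^(1+2).Q₈` is inconsistent: `CountHyp.false`.
-/

set_option autoImplicit false
set_option linter.unusedSectionVars false
set_option linter.style.haveILetI false

namespace CfsgLib.SLThree90

variable {G : Type*} [Group G] [Finite G]

/-- The conjugates of a set whose intersecting conjugates are given by a subgroup. -/
theorem ncard_conjUnion (B : Set G) (N : Subgroup G)
    (hN : ∀ b ∈ B, ∀ h : G, (h * b * h⁻¹ ∈ B ↔ h ∈ N)) :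
    {x : G | ∃ h : G, h⁻¹ * x * h ∈ B}.ncard * Nat.card N = Nat.card G * B.ncard := by
  classical
  set S : Set G := {x : G | ∃ h : G, h⁻¹ * x * h ∈ B} with hS
  choose r hr using fun x : S => x.2
  rw [← Nat.card_coe_set_eq, ← Nat.card_coe_set_eq, ← Nat.card_prod, ← Nat.card_prod]
  refine Nat.card_eq_of_bijective
    (fun q : S × N => (r q.1 * (q.2 : G),
      (⟨((q.2 : G))⁻¹ * ((r q.1)⁻¹ * (q.1 : G) * r q.1) * (q.2 : G), by
        have := (hN _ (hr q.1) ((q.2 : G))⁻¹).mpr (inv_mem q.2.2)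
        rwa [inv_inv] at this⟩ : B))) ⟨?_, ?_⟩
  · rintro ⟨x, m⟩ ⟨y, k⟩ e
    simp only [Prod.mk.injEq, Subtype.mk.injEq] at e
    obtain ⟨e1, e2⟩ := e
    have hxy : (x : G) = y := by
      have e3 : (r x * (m : G)) * ((m : G)⁻¹ * ((r x)⁻¹ * (x : G) * r x) * (m : G)) *
          (r x * (m : G))⁻¹ = (r y * (k : G)) * ((k : G)⁻¹ * ((r y)⁻¹ * (y : G) * r y) * (k : G)) *
          (r y * (k : G))⁻¹ := by rw [e1, e2]
      calc (x : G) = (r x * (m : G)) * ((m : G)⁻¹ * ((r x)⁻¹ * (x : G) * r x) * (m : G)) *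
            (r x * (m : G))⁻¹ := by group
        _ = _ := e3
        _ = (y : G) := by group
    obtain rfl : x = y := Subtype.ext hxy
    exact Prod.ext rfl (Subtype.ext (mul_left_cancel e1))
  · rintro ⟨h, b⟩
    have hx : h * (b : G) * h⁻¹ ∈ S := ⟨h, by
      rw [show h⁻¹ * (h * (b : G) * h⁻¹) * h = b by group]; exact b.2⟩
    set x : S := ⟨h * (b : G) * h⁻¹, hx⟩ with hxd
    have hm : (r x)⁻¹ * h ∈ N := by
      refine (hN _ b.2 _).mp ?_
      have := hr x
      rw [show (r x)⁻¹ * h * (b : G) * ((r x)⁻¹ * h)⁻¹ = (r x)⁻¹ * (x : G) * r x by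
        simp only [hxd]; group]
      exact this
    refine ⟨(x, ⟨_, hm⟩), Prod.ext (mul_inv_cancel_left (r x) h) (Subtype.ext ?_)⟩
    show ((r x)⁻¹ * h)⁻¹ * ((r x)⁻¹ * (h * (b : G) * h⁻¹) * r x) * ((r x)⁻¹ * h) = b
    group

variable {Z R : Subgroup G} {t : G} {p n : ℕ}

/-- The elements owned by an involution. -/
def ownSet (Z : Subgroup G) (s : G) : Set G :=
  {x | x * s = s * x ∧ x ∉ Z ∧ ∀ u : G, orderOf u = 2 → u ≠ s → x * u ∉ Z}

namespace CountHyp

variable (h : CountHyp G Z R t p n)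
include h

theorem zcomm {z : G} (hz : z ∈ Z) (g : G) : g * z = z * g :=
  Subgroup.mem_center_iff.mp (h.Z_le hz) g

theorem conj_Z_iff (k x : G) : k * x * k⁻¹ ∈ Z ↔ x ∈ Z := by
  constructor
  · intro hx
    have := h.zcomm hx k⁻¹
    have e : x = k * x * k⁻¹ := by
      calc x = k⁻¹ * (k * x * k⁻¹) * k := by group
        _ = k * x * k⁻¹ := by rw [this]; group
    rw [e]; exact hx
  · intro hx
    rw [h.zcomm hx k, mul_inv_cancel_right]
    exact hx

theorem pow_three_eq_one {z : G} (hz : z ∈ Z) : z ^ 3 = 1 := by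
  have := pow_card_eq_one' (x := (⟨z, hz⟩ : Z))
  rw [h.card_Z] at this
  exact congrArg Subtype.val this

theorem not_mem_Z {s : G} (hs : orderOf s = 2) : s ∉ Z := fun hz => by
  have := orderOf_dvd_of_pow_eq_one (h.pow_three_eq_one hz)
  rw [hs] at this
  omega

/-- A coset of `Z` contains at most one involution. -/
theorem eq_of_mul_mem {x s u : G} (hs : orderOf s = 2) (hu : orderOf u = 2) (h1 : x * s ∈ Z)
    (h2 : x * u ∈ Z) : s = u := by
  have hss : s * s = 1 := by rw [← pow_two, ← hs, pow_orderOf_eq_one]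
  have huu : u * u = 1 := by rw [← pow_two, ← hu, pow_orderOf_eq_one]
  have hsu : s⁻¹ * u ∈ Z := by
    have := mul_mem (inv_mem h1) h2
    rwa [show (x * s)⁻¹ * (x * u) = s⁻¹ * u by group] at this
  have h2' : (s⁻¹ * u) ^ 2 = 1 := by
    have e : u = s * (s⁻¹ * u) := by group
    have := huu
    rw [e] at this
    calc (s⁻¹ * u) ^ 2 = (s * s) * ((s⁻¹ * u) * (s⁻¹ * u)) := by rw [hss, one_mul, pow_two]
      _ = s * ((s⁻¹ * u) * s) * (s⁻¹ * u) := by rw [← h.zcomm hsu s]; group
      _ = s * (s⁻¹ * u) * (s * (s⁻¹ * u)) := by group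
      _ = 1 := this
  have h3 := h.pow_three_eq_one hsu
  rw [pow_succ, h2', one_mul] at h3
  exact inv_mul_eq_one.mp h3

omit [Finite G] in
theorem sq_one {w : G} (hw : orderOf w = 2) : w * w = 1 := by
  rw [← pow_two, ← hw, pow_orderOf_eq_one]

theorem comm_of_mul_mem {x s : G} (hxs : x * s ∈ Z) : x * s = s * x := by
  have := h.zcomm hxs s⁻¹
  calc x * s = s * (s⁻¹ * (x * s)) := by group
    _ = s * (x * s * s⁻¹) := by rw [this]
    _ = s * x := by group

theorem p_fact : Fact p.Prime := ⟨h.p_prime⟩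

theorem card_zp {u : G} (hu : orderOf u = p) :
    Nat.card (Z ⊔ Subgroup.zpowers u : Subgroup G) = 3 * p := by
  haveI := h.p_fact
  haveI hn : Z.Normal := ⟨fun z hz g => (h.conj_Z_iff g z).mpr hz⟩
  have hd : Z ⊓ Subgroup.zpowers u = ⊥ := by
    refine disjoint_iff.mp (Subgroup.disjoint_of_coprime_natCard ?_)
    rw [h.card_Z, Nat.card_zpowers, hu]
    exact (Nat.coprime_primes Nat.prime_three h.p_prime).mpr (by have := h.seven_le; omega)
  have hc : Nat.card (Z ⊔ Subgroup.zpowers u : Subgroup G) = Nat.card (Z × Subgroup.zpowers u) := by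
    symm
    refine Nat.card_eq_of_bijective
      (fun q => ⟨(q.1 : G) * q.2, mul_mem (Subgroup.mem_sup_left q.1.2)
        (Subgroup.mem_sup_right q.2.2)⟩) ⟨?_, ?_⟩
    · rintro ⟨a, b⟩ ⟨c, d⟩ e
      have e' : (a : G) * b = c * d := congrArg Subtype.val e
      have hm : (c : G)⁻¹ * a = (d : G) * (b : G)⁻¹ := by
        calc (c : G)⁻¹ * a = (c : G)⁻¹ * (a * b) * (b : G)⁻¹ := by group
          _ = (c : G)⁻¹ * (c * d) * (b : G)⁻¹ := by rw [e']
          _ = d * (b : G)⁻¹ := by group
      have : (c : G)⁻¹ * a ∈ Z ⊓ Subgroup.zpowers u :=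
        Subgroup.mem_inf.mpr ⟨mul_mem (inv_mem c.2) a.2, hm ▸ mul_mem d.2 (inv_mem b.2)⟩
      rw [hd, Subgroup.mem_bot] at this
      have ha : a = c := Subtype.ext (inv_mul_eq_one.mp this).symm
      subst ha
      exact Prod.ext rfl (Subtype.ext (mul_left_cancel e'))
    · rintro ⟨x, hx⟩
      obtain ⟨a, ha, b, hb, rfl⟩ := Subgroup.mem_sup_of_normal_left.mp hx
      exact ⟨(⟨a, ha⟩, ⟨b, hb⟩), rfl⟩
  rw [hc, Nat.card_prod, h.card_Z, Nat.card_zpowers, hu]

/-- The centralizer of an element of order `p` has odd order. -/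
theorem no_involution_cent_p {u s : G} (hu : orderOf u = p) (hs : orderOf s = 2) :
    u * s ≠ s * u := by
  intro e
  have : s ∈ Subgroup.centralizer ({u} : Set G) := Subgroup.mem_centralizer_singleton_iff.mpr e.symm
  rw [h.cent_p u hu] at this
  have hd := Subgroup.orderOf_dvd_natCard _ this
  rw [hs, h.card_zp hu] at hd
  rcases Nat.prime_two.dvd_mul.mp hd with h2 | h2
  · omega
  · have := (Nat.prime_dvd_prime_iff_eq Nat.prime_two h.p_prime).mp h2
    have := h.seven_le
    omega

theorem not_dvd_orderOf {x s : G} (hs : orderOf s = 2) (hx : x * s = s * x) : ¬ p ∣ orderOf x := by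
  intro hd
  have hu : orderOf (x ^ (orderOf x / p)) = p :=
    orderOf_pow_orderOf_div (orderOf_pos x).ne' hd
  exact h.no_involution_cent_p hu hs (Commute.pow_left hx _)

theorem own_disjoint {x s u : G} (hs : orderOf s = 2) (hu : orderOf u = 2) (hxs : x ∈ ownSet Z s)
    (hxu : x ∈ ownSet Z u) : s = u := by
  by_contra hne
  by_cases hxsZ : x * s ∈ Z
  · exact hxu.2.2 s hs hne hxsZ
  by_cases hxuZ : x * u ∈ Z
  · exact hxs.2.2 u hu (Ne.symm hne) hxuZ
  have hno : ∀ v : G, orderOf v = 2 → x * v ∉ Z := fun v hv hv' => by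
    by_cases hvs : v = s
    · exact hxsZ (hvs ▸ hv')
    · exact hxs.2.2 v hv hvs hv'
  have hc := h.abelian x hxs.2.1 (h.not_dvd_orderOf hs hxs.1) hno s u hxs.1.symm hxu.1.symm
  rcases h.pair s u x hs hu hne hc hxs.1 hxu.1 with h1 | h1 | h1 | h1
  · exact hxs.2.1 h1
  · exact hxsZ h1
  · exact hxuZ h1
  · have hss : s * s = 1 := by rw [← pow_two, ← hs, pow_orderOf_eq_one]
    have huu : u * u = 1 := by rw [← pow_two, ← hu, pow_orderOf_eq_one]
    refine hno (s * u) (orderOf_eq_prime ?_ ?_) h1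
    · rw [pow_two, show s * u * (s * u) = s * (u * s) * u by group, ← hc,
        show s * (s * u) * u = (s * s) * (u * u) by group, hss, huu, one_mul]
    · intro e
      exact hne (by rw [eq_inv_of_mul_eq_one_left e, inv_eq_of_mul_eq_one_right huu])

theorem ownSet_conj {s x : G} (k : G) (hx : x ∈ ownSet Z s) :
    k * x * k⁻¹ ∈ ownSet Z (k * s * k⁻¹) := by
  refine ⟨?_, fun hz => hx.2.1 ((h.conj_Z_iff k x).mp hz), fun u hu hne hmem => ?_⟩
  · rw [show k * x * k⁻¹ * (k * s * k⁻¹) = k * (x * s) * k⁻¹ by group, hx.1]; group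
  · refine hx.2.2 (k⁻¹ * u * k) ?_ (fun e => hne ?_) ?_
    · rw [← hu]
      simpa using (MulEquiv.orderOf_eq (MulAut.conj k⁻¹) u)
    · rw [← e]; group
    · rw [← h.conj_Z_iff k]
      rwa [show k * (x * (k⁻¹ * u * k)) * k⁻¹ = k * x * k⁻¹ * u by group]

theorem order_conj (k : G) {s : G} (hs : orderOf s = 2) : orderOf (k * s * k⁻¹) = 2 := by
  rw [← hs]
  simpa using (MulEquiv.orderOf_eq (MulAut.conj k) s)

theorem ownSet_iff {b : G} (hb : b ∈ ownSet Z t) (k : G) :
    k * b * k⁻¹ ∈ ownSet Z t ↔ k ∈ Subgroup.centralizer ({t} : Set G) := by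
  rw [Subgroup.mem_centralizer_singleton_iff]
  constructor
  · intro hk
    have e := h.own_disjoint h.order_t (h.order_conj k h.order_t) hk (h.ownSet_conj k hb)
    calc k * t = k * t * k⁻¹ * k := by group
      _ = t * k := by rw [← e]
  · intro hk
    have e : k * t * k⁻¹ = t := by rw [hk, mul_inv_cancel_right]
    have := h.ownSet_conj k hb
    rwa [e] at this

theorem n_ge_four : 4 ≤ n := by
  obtain ⟨m, rfl⟩ := h.four_dvd
  rcases Nat.eq_zero_or_pos m with rfl | hm
  · exact absurd (dvd_zero 3) h.three_not_dvd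
  · omega

theorem ncard_ownSet : (ownSet Z t).ncard + 3 + 3 * n = 12 * n := by
  classical
  set C : Set G := (Subgroup.centralizer ({t} : Set G) : Set G) with hC
  set B : Set G := {x | x ∈ C ∧ ∃ u : G, orderOf u = 2 ∧ u ≠ t ∧ x * u ∈ Z} with hB
  have hunion : C = ownSet Z t ∪ (Z : Set G) ∪ B := by
    ext x
    simp only [Set.mem_union, SetLike.mem_coe, hC, Subgroup.mem_centralizer_singleton_iff]
    constructor
    · intro hx
      by_cases hz : x ∈ Z
      · exact Or.inl (Or.inr hz)
      by_cases hex : ∃ u : G, orderOf u = 2 ∧ u ≠ t ∧ x * u ∈ Z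
      · exact Or.inr ⟨Subgroup.mem_centralizer_singleton_iff.mpr hx, hex⟩
      · exact Or.inl (Or.inl ⟨hx, hz, fun u hu hne hm => hex ⟨u, hu, hne, hm⟩⟩)
    · rintro ((hx | hx) | hx)
      · exact hx.1
      · exact (h.zcomm hx t).symm
      · exact Subgroup.mem_centralizer_singleton_iff.mp hx.1
  have hd1 : Disjoint (ownSet Z t) (Z : Set G) := Set.disjoint_left.mpr fun x hx hz => hx.2.1 hz
  have hd2 : Disjoint (ownSet Z t ∪ (Z : Set G)) B := by
    rw [Set.disjoint_left]
    rintro x (hx | hx) ⟨-, u, hu, hne, hm⟩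
    · exact hx.2.2 u hu hne hm
    · exact h.not_mem_Z hu (by simpa using mul_mem (inv_mem hx) hm)
  have hBcard : B.ncard = 3 * n := by
    rw [← Nat.card_coe_set_eq, ← h.card_Z, ← h.card_refl, ← Nat.card_prod]
    symm
    refine Nat.card_eq_of_bijective
      (fun q : Z × {u : G // orderOf u = 2 ∧ u ≠ t ∧ u * t = t * u} =>
        (⟨(q.1 : G) * q.2, ?_, q.2, q.2.2.1, q.2.2.2.1, ?_⟩ : B)) ⟨?_, ?_⟩
    · rw [hC, SetLike.mem_coe, Subgroup.mem_centralizer_singleton_iff, mul_assoc, q.2.2.2.2,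
        ← mul_assoc, ← h.zcomm q.1.2 t, mul_assoc]
    · rw [mul_assoc, h.sq_one q.2.2.1, mul_one]; exact q.1.2
    · rintro ⟨a, b⟩ ⟨c, d⟩ e
      have e' : (a : G) * b = c * d := congrArg Subtype.val e
      have hbb : ∀ w : {u : G // orderOf u = 2 ∧ u ≠ t ∧ u * t = t * u}, (w : G) * w = 1 :=
        fun w => h.sq_one w.2.1
      have hbd : b = d := Subtype.ext (h.eq_of_mul_mem (x := (a : G) * b) b.2.1 d.2.1
        (by rw [mul_assoc, hbb, mul_one]; exact a.2)
        (by rw [e', mul_assoc, hbb, mul_one]; exact c.2))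
      subst hbd
      exact Prod.ext (Subtype.ext (mul_right_cancel e')) rfl
    · rintro ⟨x, hx, u, hu, hne, hm⟩
      have huu : u * u = 1 := by rw [← pow_two, ← hu, pow_orderOf_eq_one]
      have hcu : u * t = t * u := by
        have hxt := Subgroup.mem_centralizer_singleton_iff.mp hx
        have hmt := h.zcomm hm t
        have : u = x⁻¹ * (x * u) := by group
        rw [this]
        calc x⁻¹ * (x * u) * t = x⁻¹ * (t * (x * u)) := by rw [mul_assoc, hmt]
          _ = x⁻¹ * (t * x) * u := by group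
          _ = t * (x⁻¹ * (x * u)) := by rw [← hxt]; group
      refine ⟨(⟨x * u, hm⟩, ⟨u, hu, hne, hcu⟩), Subtype.ext ?_⟩
      show x * u * u = x
      rw [mul_assoc, huu, mul_one]
  have hC12 : C.ncard = 12 * n := by rw [hC, ← Nat.card_coe_set_eq]; exact h.card_cent
  rw [hunion, Set.ncard_union_eq hd2 (Set.toFinite _) (Set.toFinite _),
    Set.ncard_union_eq hd1 (Set.toFinite _) (Set.toFinite _), hBcard] at hC12
  have hZ : (Z : Set G).ncard = 3 := by rw [← Nat.card_coe_set_eq]; exact h.card_Z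
  omega

theorem comm_R_mem {x y : G} (hx : x ∈ R) (hy : y ∈ R) : x * y * x⁻¹ * y⁻¹ ∈ Z := by
  haveI : Fact (Nat.Prime 3) := ⟨Nat.prime_three⟩
  haveI hn : (Z.subgroupOf R).Normal := ⟨fun a ha g => by
    rw [Subgroup.mem_subgroupOf] at ha ⊢
    exact (h.conj_Z_iff (g : G) (a : G)).mpr ha⟩
  have h9 : Nat.card (R ⧸ Z.subgroupOf R) = 3 ^ 2 := by
    have := Subgroup.card_eq_card_quotient_mul_card_subgroup (Z.subgroupOf R)
    rw [h.card_R, Nat.card_congr (Subgroup.subgroupOfEquivOfLe h.Z_le_R).toEquiv, h.card_Z] at this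
    omega
  have hcomm := IsPGroup.commutative_of_card_eq_prime_sq h9
  have hz := (QuotientGroup.eq_one_iff (N := Z.subgroupOf R)
    ((⟨x, hx⟩ : R) * ⟨y, hy⟩ * (⟨x, hx⟩ : R)⁻¹ * (⟨y, hy⟩ : R)⁻¹)).mp (by
      simp only [QuotientGroup.mk_mul, QuotientGroup.mk_inv]
      rw [hcomm ((⟨x, hx⟩ : R) : R ⧸ Z.subgroupOf R) _, mul_inv_cancel_right]
      exact mul_inv_cancel _)
  exact Subgroup.mem_subgroupOf.mp hz

theorem rSet_iff {b : G} (hb : b ∈ R ∧ b ∉ Z) (k : G) :
    (k * b * k⁻¹ ∈ R ∧ k * b * k⁻¹ ∉ Z) ↔ k ∈ Subgroup.normalizer (R : Set G) := by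
  constructor
  · rintro ⟨hk, -⟩
    rw [Subgroup.mem_normalizer_iff]
    -- the conjugate of `R` by `k` lies in `R`
    have hsub : ∀ r ∈ R, k * r * k⁻¹ ∈ R := by
      intro r hr
      refine h.R_self _ hk (fun hz => hb.2 ((h.conj_Z_iff k b).mp hz)) _ ?_
      have hz := (h.conj_Z_iff k _).mpr (h.comm_R_mem hr hb.1)
      rwa [show k * r * k⁻¹ * (k * b * k⁻¹) * (k * r * k⁻¹)⁻¹ * (k * b * k⁻¹)⁻¹ =
        k * (r * b * r⁻¹ * b⁻¹) * k⁻¹ by group]
    have hmap : R.map (MulAut.conj k).toMonoidHom = R := by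
      refine Subgroup.eq_of_le_of_card_ge ?_ ?_
      · rintro _ ⟨r, hr, rfl⟩
        exact hsub r hr
      · exact le_of_eq (Subgroup.card_map_of_injective (MulAut.conj k).injective).symm
    intro r
    refine ⟨hsub r, fun hr => ?_⟩
    rw [← hmap] at hr
    obtain ⟨r', hr', e⟩ := hr
    have : r' = r := by
      have e' : k * r' * k⁻¹ = k * r * k⁻¹ := e
      simpa using e'
    exact this ▸ hr'
  · intro hk
    exact ⟨(Subgroup.mem_normalizer_iff.mp hk b).mp hb.1, fun hz => hb.2 ((h.conj_Z_iff k b).mp hz)⟩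

/-- An element outside `Z` of order a power of three modulo `Z` is conjugate into `R`. -/
theorem exists_conj_mem_R {x : G} (hx : x ^ 9 = 1) : ∃ k : G, k⁻¹ * x * k ∈ R := by
  haveI : Fact (Nat.Prime 3) := ⟨Nat.prime_three⟩
  have hfac : (Nat.card G).factorization 3 = 3 := by
    have h1 : 3 ^ 3 ∣ Nat.card G := by
      have := Subgroup.card_subgroup_dvd_card R
      rw [h.card_R] at this
      exact this
    have h2 := (Nat.Prime.pow_dvd_iff_le_factorization Nat.prime_three Nat.card_pos.ne').mp h1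
    by_contra hne
    exact h.not_eightyone ((Nat.Prime.pow_dvd_iff_le_factorization (k := 4) Nat.prime_three
      Nat.card_pos.ne').mpr (by omega))
  let S : Sylow 3 G := Sylow.ofCard R (by rw [h.card_R, hfac]; norm_num)
  obtain ⟨T, hT⟩ := (show IsPGroup 3 (Subgroup.zpowers x) from fun y => ⟨2, by
    obtain ⟨y, i, rfl⟩ := y
    refine Subtype.ext ?_
    show (x ^ i) ^ (3 ^ 2) = 1
    rw [← zpow_natCast, ← zpow_mul, mul_comm, zpow_mul, zpow_natCast,
      show (3 : ℕ) ^ 2 = 9 by norm_num, hx, one_zpow]⟩).exists_le_sylow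
  obtain ⟨k, hk⟩ := MulAction.exists_smul_eq G S T
  refine ⟨k, ?_⟩
  have hxT : x ∈ ((k • S : Sylow 3 G) : Subgroup G) := hk ▸ hT (Subgroup.mem_zpowers x)
  rw [Sylow.coe_subgroup_smul, Subgroup.mem_pointwise_smul_iff_inv_smul_mem] at hxT
  simpa [MulAut.smul_def, Subgroup.coe_mk, S] using hxT

end CountHyp

open CountHyp in
/-- The class equation is inconsistent. -/
theorem CountHyp.false (h : CountHyp G Z R t p n) : False := by
  classical
  haveI := h.p_fact
  haveI : Fact (Nat.Prime 2) := ⟨Nat.prime_two⟩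
  have hp7 := h.seven_le
  have hn4 := h.n_ge_four
  set M := Nat.card G with hM
  have hMpos : 0 < M := Nat.card_pos
  -- the three known parts
  set So : Set G := {x | ∃ k : G, k⁻¹ * x * k ∈ ownSet Z t} with hSo
  set SR : Set G := {x | ∃ k : G, k⁻¹ * x * k ∈ {y : G | y ∈ R ∧ y ∉ Z}} with hSR
  have hcardo : So.ncard * (12 * n) = M * (ownSet Z t).ncard := by
    rw [← h.card_cent]
    exact ncard_conjUnion _ _ fun b hb k => h.ownSet_iff hb k
  have hR24 : {y : G | y ∈ R ∧ y ∉ Z}.ncard = 24 := by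
    rw [show {y : G | y ∈ R ∧ y ∉ Z} = (R : Set G) \ (Z : Set G) from rfl,
      Set.ncard_sdiff h.Z_le_R (Set.toFinite _), ← Nat.card_coe_set_eq, ← Nat.card_coe_set_eq]
    show Nat.card R - Nat.card Z = 24
    rw [h.card_R, h.card_Z]
  have hcardR : SR.ncard * 216 = M * 24 := by
    rw [← h.card_normalizer_R, ← hR24]
    exact ncard_conjUnion _ _ fun b hb k => h.rSet_iff hb k
  -- membership in the first part
  have hSo_mem : ∀ x s : G, orderOf s = 2 → x * s = s * x → x ∉ Z → x ∈ So := by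
    intro x s hs hxs hxZ
    obtain ⟨u, hu, hxu⟩ : ∃ u : G, orderOf u = 2 ∧ x ∈ ownSet Z u := by
      by_cases hex : ∃ u : G, orderOf u = 2 ∧ u ≠ s ∧ x * u ∈ Z
      · obtain ⟨u, hu, -, hm⟩ := hex
        exact ⟨u, hu, h.comm_of_mul_mem hm, hxZ, fun v hv hne hv' =>
          hne (h.eq_of_mul_mem hv hu hv' hm)⟩
      · exact ⟨s, hs, hxs, hxZ, fun v hv hne hv' => hex ⟨v, hv, hne, hv'⟩⟩
    obtain ⟨k, hk⟩ := isConj_iff.mp (h.conj_t u hu)
    refine ⟨k, ?_⟩
    have := h.ownSet_conj k⁻¹ hxu
    rw [show k⁻¹ * u * k⁻¹⁻¹ = t by rw [← hk]; group, inv_inv] at this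
    exact this
  have hSo_not : ∀ x ∈ So, x ∉ Z ∧ ∃ s : G, orderOf s = 2 ∧ x * s = s * x := by
    rintro x ⟨k, hk⟩
    have := h.ownSet_conj k hk
    rw [show k * (k⁻¹ * x * k) * k⁻¹ = x by group] at this
    exact ⟨this.2.1, _, h.order_conj k h.order_t, this.1⟩
  have hSR_not : ∀ x ∈ SR, x ∉ Z ∧ (∀ s : G, orderOf s = 2 → x * s ≠ s * x) ∧ x ^ 9 = 1 := by
    rintro x ⟨k, hkR, hkZ⟩
    have hxZ : x ∉ Z := fun hz => hkZ (by
      have := (h.conj_Z_iff k⁻¹ x).mpr hz
      rwa [inv_inv] at this)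
    refine ⟨hxZ, fun s hs e => ?_, ?_⟩
    · have hs' : orderOf (k⁻¹ * s * k) = 2 := by simpa using h.order_conj k⁻¹ hs
      have hmem := h.R_self _ hkR hkZ (k⁻¹ * s * k) (by
        rw [show k⁻¹ * s * k * (k⁻¹ * x * k) * (k⁻¹ * s * k)⁻¹ * (k⁻¹ * x * k)⁻¹ =
          k⁻¹ * (s * x) * s⁻¹ * x⁻¹ * k by group, ← e,
          show k⁻¹ * (x * s) * s⁻¹ * x⁻¹ * k = 1 by group]
        exact one_mem Z)
      have := Subgroup.orderOf_dvd_natCard _ hmem
      rw [hs', h.card_R] at this
      omega
    · -- the ninth power of an element of `R` is trivial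
      have h9 : (k⁻¹ * x * k) ^ 9 = 1 := by
        set y := k⁻¹ * x * k
        haveI hn : (Z.subgroupOf R).Normal := ⟨fun a ha g => by
          rw [Subgroup.mem_subgroupOf] at ha ⊢
          exact (h.conj_Z_iff (g : G) (a : G)).mpr ha⟩
        have hcard : Nat.card (R ⧸ Z.subgroupOf R) = 9 := by
          have := Subgroup.card_eq_card_quotient_mul_card_subgroup (Z.subgroupOf R)
          rw [h.card_R, Nat.card_congr (Subgroup.subgroupOfEquivOfLe h.Z_le_R).toEquiv,
            h.card_Z] at this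
          omega
        have h27 : orderOf y ∣ 27 := h.card_R ▸ Subgroup.orderOf_dvd_natCard _ hkR
        rw [← orderOf_dvd_iff_pow_eq_one]
        obtain ⟨j, hj, hj'⟩ := (Nat.dvd_prime_pow Nat.prime_three).mp (show orderOf y ∣ 3 ^ 3 from h27)
        rw [hj']
        rcases j with _ | _ | _ | _ | j
        · norm_num
        · norm_num
        · norm_num
        · exfalso
          -- a cyclic group of order 27 is abelian, so every element of it centralises `y`
          have hgen : Subgroup.zpowers y = R := Subgroup.eq_of_le_of_card_ge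
            (Subgroup.zpowers_le.mpr hkR) (by rw [Nat.card_zpowers, hj', h.card_R]; norm_num)
          have hy3 : y ^ 3 ∈ R ∧ y ^ 3 ∉ Z := by
            refine ⟨pow_mem hkR 3, fun hz => ?_⟩
            have := orderOf_dvd_of_pow_eq_one (h.pow_three_eq_one hz)
            rw [orderOf_pow' y (by norm_num : (3 : ℕ) ≠ 0), hj'] at this
            norm_num at this
          have hn : Subgroup.normalizer (R : Set G) ≤ R := by
            intro g hg
            have hgy : g * y ^ 3 * g⁻¹ ∈ R := (Subgroup.mem_normalizer_iff.mp hg _).mp hy3.1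
            obtain ⟨i, hi⟩ := Subgroup.mem_zpowers_iff.mp
              (hgen ▸ (Subgroup.mem_normalizer_iff.mp hg y).mp hkR :
                g * y * g⁻¹ ∈ Subgroup.zpowers y)
            refine h.R_self _ hy3.1 hy3.2 g ?_
            have e : g * y ^ 3 * g⁻¹ * (y ^ 3)⁻¹ = y ^ (3 * (i - 1)) := by
              rw [← conj_pow, ← hi, ← zpow_natCast, ← zpow_mul, ← zpow_natCast, ← zpow_neg,
                ← zpow_add]
              congr 1
              push_cast
              ring
            rw [e]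
            -- the conjugation fixes `Z`, so it is trivial modulo three
            have hy9 : y ^ 9 ∈ Z := by
              obtain ⟨z, hz, hz1⟩ : ∃ z ∈ Z, z ≠ 1 := by
                by_contra hcon
                push Not at hcon
                have := h.card_Z
                rw [(Subgroup.eq_bot_iff_forall Z).mpr hcon, Subgroup.card_bot] at this
                omega
              obtain ⟨m, hm⟩ := (mem_powers_iff_mem_zpowers).mpr
                (hgen.symm ▸ h.Z_le_R hz : z ∈ Subgroup.zpowers y)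
              simp only at hm
              have h3 := h.pow_three_eq_one hz
              rw [← hm, ← pow_mul, ← orderOf_dvd_iff_pow_eq_one, hj'] at h3
              norm_num at h3
              obtain ⟨m', rfl⟩ : 9 ∣ m := by omega
              have hm3 : ¬ 3 ∣ m' := by
                rintro ⟨m'', rfl⟩
                refine hz1 ?_
                rw [← hm, show 9 * (3 * m'') = orderOf y * m'' by rw [hj']; ring, pow_mul,
                  pow_orderOf_eq_one, one_pow]
              have h27' : (y ^ 9) ^ 3 = 1 := by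
                rw [← pow_mul, show 9 * 3 = orderOf y by rw [hj']; norm_num, pow_orderOf_eq_one]
              have hcases : y ^ 9 = z ∨ y ^ 9 = z ^ 2 := by
                rw [← hm, pow_mul]
                rw [pow_eq_pow_mod m' h27']
                rcases (show m' % 3 = 1 ∨ m' % 3 = 2 by omega) with e1 | e1 <;> rw [e1]
                · exact Or.inl (pow_one _).symm
                · refine Or.inr ?_
                  rw [← pow_mul, pow_eq_pow_mod (2 * 2) h27', pow_one]
              rcases hcases with e1 | e1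
              · rw [e1]; exact hz
              · rw [e1]; exact pow_mem hz 2
            have hfix : (y ^ i) ^ 9 = y ^ 9 := by
              have := h.zcomm hy9 g
              calc (y ^ i) ^ 9 = g * y ^ 9 * g⁻¹ := by rw [hi, conj_pow]
                _ = y ^ 9 := by rw [this, mul_inv_cancel_right]
            have hdvd : (orderOf y : ℤ) ∣ 9 * (i - 1) := by
              rw [orderOf_dvd_iff_zpow_eq_one, mul_sub, mul_one, zpow_sub, mul_comm, zpow_mul,
                show (9 : ℤ) = ((9 : ℕ) : ℤ) by norm_num, zpow_natCast, zpow_natCast, hfix,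
                mul_inv_cancel]
            rw [hj'] at hdvd
            obtain ⟨q, hq⟩ : (3 : ℤ) ∣ i - 1 := by
              obtain ⟨q, hq⟩ := hdvd
              exact ⟨q, by push_cast at hq; omega⟩
            rw [hq, show (3 : ℤ) * (3 * q) = ((9 : ℕ) : ℤ) * q by push_cast; ring, zpow_mul,
              zpow_natCast]
            exact zpow_mem hy9 q
          have := Subgroup.card_dvd_of_le hn
          rw [h.card_normalizer_R, h.card_R] at this
          omega
        · omega
      calc x ^ 9 = (k * (k⁻¹ * x * k) * k⁻¹) ^ 9 := by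
            congr 1; group
        _ = k * (k⁻¹ * x * k) ^ 9 * k⁻¹ := conj_pow
        _ = 1 := by rw [h9, mul_one, mul_inv_cancel]
  -- the rest
  set L : Set G := {x | x ∉ Z ∧ x ∉ So ∧ x ∉ SR} with hL
  have htotal : L.ncard + 3 + So.ncard + SR.ncard = M := by
    have hU : (Set.univ : Set G) = L ∪ (Z : Set G) ∪ So ∪ SR := by
      ext x
      simp only [Set.mem_univ, Set.mem_union, SetLike.mem_coe, true_iff]
      by_cases h1 : x ∈ Z
      · tauto
      by_cases h2 : x ∈ So
      · tauto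
      by_cases h3 : x ∈ SR
      · tauto
      · exact Or.inl (Or.inl (Or.inl ⟨h1, h2, h3⟩))
    have d1 : Disjoint L (Z : Set G) := Set.disjoint_left.mpr fun x hx hz => hx.1 hz
    have d2 : Disjoint (L ∪ (Z : Set G)) So := by
      rw [Set.disjoint_left]
      rintro x (hx | hx) hx'
      · exact hx.2.1 hx'
      · exact (hSo_not x hx').1 hx
    have d3 : Disjoint (L ∪ (Z : Set G) ∪ So) SR := by
      rw [Set.disjoint_left]
      rintro x ((hx | hx) | hx) hx'
      · exact hx.2.2 hx'
      · exact (hSR_not x hx').1 hx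
      · obtain ⟨-, s, hs, e⟩ := hSo_not x hx
        exact (hSR_not x hx').2.1 s hs e
    have := congrArg Set.ncard hU
    rw [Set.ncard_univ, Set.ncard_union_eq d3 (Set.toFinite _) (Set.toFinite _),
      Set.ncard_union_eq d2 (Set.toFinite _) (Set.toFinite _),
      Set.ncard_union_eq d1 (Set.toFinite _) (Set.toFinite _)] at this
    have hZ : (Z : Set G).ncard = 3 := by rw [← Nat.card_coe_set_eq]; exact h.card_Z
    omega
  have hown := h.ncard_ownSet
  have hL36 : 36 * n * L.ncard + 108 * n = M * (5 * n + 9) := by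
    have e1 : (ownSet Z t).ncard + 3 = 9 * n := by omega
    have e2 : 36 * n * So.ncard + 9 * M = 27 * n * M := by
      have e2' : M * ((ownSet Z t).ncard + 3) = M * (9 * n) := by rw [e1]
      linarith [hcardo, e2', mul_add M (ownSet Z t).ncard 3]
    have e3 : 9 * SR.ncard = M := by omega
    have e4 := congrArg (fun x => 36 * n * x) htotal
    simp only [mul_add] at e4
    have e5 : 36 * n * SR.ncard = 4 * n * M := by rw [← e3]; ring
    linarith
  have hLmem : ∀ x ∈ L, ∀ s : G, orderOf s = 2 → x * s ≠ s * x :=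
    fun x hx s hs e => hx.2.1 (hSo_mem x s hs e hx.1)
  have hLcube : ∀ x ∈ L, x ^ 3 ∉ Z := by
    intro x hx hz
    have h9 : x ^ 9 = 1 := by rw [show 9 = 3 * 3 from rfl, pow_mul, h.pow_three_eq_one hz]
    obtain ⟨k, hk⟩ := h.exists_conj_mem_R h9
    exact hx.2.2 ⟨k, hk, fun hz' => hx.1 (by
      have := (h.conj_Z_iff k _).mpr hz'
      rwa [show k * (k⁻¹ * x * k) * k⁻¹ = x by group] at this)⟩
  by_cases hA : ∃ x ∈ L, ¬ p ∣ orderOf x
  · -- a torus
    obtain ⟨x, hx, hxp⟩ := hA
    have hnox : ∀ s : G, orderOf s = 2 → x * s ∉ Z :=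
      fun s hs e => hLmem x hx s hs (h.comm_of_mul_mem e)
    set A := Subgroup.centralizer ({x} : Set G) with hAdef
    have hmemA : ∀ {y : G}, y ∈ A ↔ y * x = x * y := Subgroup.mem_centralizer_singleton_iff
    have hnoinvA : ∀ s ∈ A, orderOf s ≠ 2 := fun s hs hs2 => hLmem x hx s hs2 (hmemA.mp hs).symm
    have hpA : ¬ p ∣ Nat.card A := by
      intro hd
      obtain ⟨u, hu⟩ := exists_prime_orderOf_dvd_card' p hd
      rw [← Subgroup.orderOf_coe] at hu
      have hxC : x ∈ Subgroup.centralizer ({(u : G)} : Set G) :=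
        Subgroup.mem_centralizer_singleton_iff.mpr (hmemA.mp u.2).symm
      rw [h.cent_p _ hu] at hxC
      haveI hn : Z.Normal := ⟨fun z hz g => (h.conj_Z_iff g z).mpr hz⟩
      obtain ⟨z, hz, w, hw, hzw⟩ := Subgroup.mem_sup_of_normal_left.mp hxC
      have hw' : w = z⁻¹ * x := by rw [← hzw]; group
      have hpow : w ^ (3 * orderOf x) = 1 := by
        have hc : Commute z⁻¹ x := (h.zcomm (inv_mem hz) x).symm
        rw [hw', hc.mul_pow, pow_mul, inv_pow, h.pow_three_eq_one hz, inv_one, one_pow, one_mul,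
          mul_comm, pow_mul, pow_orderOf_eq_one, one_pow]
      have h1 := orderOf_dvd_of_pow_eq_one hpow
      have h2 : orderOf w ∣ p := by
        have := Subgroup.orderOf_dvd_natCard _ hw
        rwa [Nat.card_zpowers, hu] at this
      rcases (Nat.dvd_prime h.p_prime).mp h2 with e | e
      · rw [orderOf_eq_one_iff] at e
        rw [e, mul_one] at hzw
        exact hx.1 (hzw ▸ hz)
      · rw [e] at h1
        rcases h.p_prime.dvd_mul.mp h1 with e' | e'
        · have := Nat.le_of_dvd (by norm_num) e'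
          omega
        · exact hxp e'
    have hp_of : ∀ y ∈ A, ¬ p ∣ orderOf y :=
      fun y hy hd => hpA (hd.trans (Subgroup.orderOf_dvd_natCard _ hy))
    have hnine : ∀ y ∈ A, y ^ 9 = 1 → y ∈ Z := by
      intro y hy h9
      by_contra hyZ
      obtain ⟨k, hk⟩ := h.exists_conj_mem_R h9
      have hkZ : k⁻¹ * y * k ∉ Z := fun hz => hyZ (by
        have := (h.conj_Z_iff k _).mpr hz
        rwa [show k * (k⁻¹ * y * k) * k⁻¹ = y by group] at this)
      have hcomm := hmemA.mp hy
      have hxR := h.R_self _ hk hkZ (k⁻¹ * x * k) (by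
        rw [show k⁻¹ * x * k * (k⁻¹ * y * k) * (k⁻¹ * x * k)⁻¹ * (k⁻¹ * y * k)⁻¹ =
          k⁻¹ * (x * y) * x⁻¹ * y⁻¹ * k by group, ← hcomm,
          show k⁻¹ * (y * x) * x⁻¹ * y⁻¹ * k = 1 by group]
        exact one_mem Z)
      exact hx.2.2 ⟨k, hxR, fun hz => hx.1 (by
        have := (h.conj_Z_iff k _).mpr hz
        rwa [show k * (k⁻¹ * x * k) * k⁻¹ = x by group] at this)⟩
    -- the points of the torus
    have hpt : ∀ y ∈ A, y ∉ Z → y ∈ L ∧ Subgroup.centralizer ({y} : Set G) = A := by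
      intro y hy hyZ
      have hno : ∀ s : G, orderOf s = 2 → y * s ∉ Z := by
        intro s hs e
        refine hnoinvA s ?_ hs
        rw [show s = y⁻¹ * (y * s) by group]
        exact mul_mem (inv_mem hy) (hmemA.mpr (h.zcomm e x).symm)
      have hab := h.abelian y hyZ (hp_of y hy) hno
      have hxy : x * y = y * x := (hmemA.mp hy).symm
      have hnoc : ∀ s : G, orderOf s = 2 → y * s ≠ s * y :=
        fun s hs e => hLmem x hx s hs (hab x s hxy e.symm)
      refine ⟨⟨hyZ, fun hS => ?_, fun hS => ?_⟩, ?_⟩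
      · obtain ⟨-, s, hs, e⟩ := hSo_not y hS
        exact hnoc s hs e
      · exact hyZ (hnine y hy (hSR_not y hS).2.2)
      · refine le_antisymm (fun w hw => ?_) (fun w hw => ?_)
        · exact hmemA.mpr (hab w x (Subgroup.mem_centralizer_singleton_iff.mp hw) hxy)
        · rw [Subgroup.mem_centralizer_singleton_iff]
          exact h.abelian x hx.1 hxp hnox w y (hmemA.mp hw) (hmemA.mp hy)
    have hN := ncard_conjUnion {y : G | y ∈ A ∧ y ∉ Z} (Subgroup.normalizer (A : Set G))
      (fun b hb k => by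
        constructor
        · rintro ⟨hk1, hk2⟩
          rw [Subgroup.mem_normalizer_iff]
          intro w
          rw [← (hpt _ hk1 hk2).2]
          conv_lhs => rw [(hpt _ hk1 hk2).2, ← (hpt b hb.1 hb.2).2]
          simp only [Subgroup.mem_centralizer_singleton_iff]
          constructor
          · intro e
            rw [show k * w * k⁻¹ * (k * b * k⁻¹) = k * (w * b) * k⁻¹ by group, e]; group
          · intro e
            calc w * b = k⁻¹ * (k * w * k⁻¹ * (k * b * k⁻¹)) * k := by group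
              _ = b * w := by rw [e]; group
        · intro hk
          exact ⟨(Subgroup.mem_normalizer_iff.mp hk b).mp hb.1,
            fun hz => hb.2 ((h.conj_Z_iff k b).mp hz)⟩)
    set SA : Set G := {y | ∃ k : G, k⁻¹ * y * k ∈ {y : G | y ∈ A ∧ y ∉ Z}}
    have hsub : SA ⊆ L := by
      rintro y ⟨k, hk1, hk2⟩
      obtain ⟨⟨hl1, hl2, hl3⟩, -⟩ := hpt _ hk1 hk2
      have conjinv : ∀ (B : Set G), y ∈ {z : G | ∃ j : G, j⁻¹ * z * j ∈ B} →
          k⁻¹ * y * k ∈ {z : G | ∃ j : G, j⁻¹ * z * j ∈ B} := by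
        rintro B ⟨j, hj⟩
        exact ⟨k⁻¹ * j, by
          show (k⁻¹ * j)⁻¹ * (k⁻¹ * y * k) * (k⁻¹ * j) ∈ B
          rwa [show (k⁻¹ * j)⁻¹ * (k⁻¹ * y * k) * (k⁻¹ * j) = j⁻¹ * y * j by group]⟩
      exact ⟨fun hz => hl1 (by
        have := (h.conj_Z_iff k⁻¹ y).mpr hz
        rwa [inv_inv] at this), fun hS => hl2 (conjinv _ hS), fun hS => hl3 (conjinv _ hS)⟩
    have hSAle := Set.ncard_le_ncard hsub (Set.toFinite _)
    have hZA : (Z : Set G) ⊆ A := fun z hz => hmemA.mpr (h.zcomm hz x).symm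
    have hAZ : {y : G | y ∈ A ∧ y ∉ Z}.ncard = Nat.card A - 3 := by
      rw [show {y : G | y ∈ A ∧ y ∉ Z} = (A : Set G) \ (Z : Set G) from rfl,
        Set.ncard_sdiff hZA (Set.toFinite _), ← Nat.card_coe_set_eq, ← Nat.card_coe_set_eq]
      show Nat.card A - Nat.card Z = _
      rw [h.card_Z]
    rw [hAZ] at hN
    have htor := h.torus x (hLcube x hx) hxp (hLmem x hx)
    obtain ⟨a, ha⟩ : 3 ∣ Nat.card A := h.card_Z ▸ Subgroup.card_dvd_of_le hZA
    have ha3 : ¬ 3 ∣ a := by
      rintro ⟨b, rfl⟩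
      haveI : Fact (Nat.Prime 3) := ⟨Nat.prime_three⟩
      obtain ⟨S, hS⟩ := Sylow.exists_subgroup_card_pow_prime 3 (G := A) (n := 2) ⟨b, by rw [ha]; ring⟩
      have hle : S.map A.subtype ≤ Z := by
        rintro _ ⟨w, hw, rfl⟩
        refine hnine _ w.2 ?_
        have := Subgroup.orderOf_dvd_natCard _ hw
        rw [hS, orderOf_dvd_iff_pow_eq_one] at this
        exact congrArg Subtype.val this
      have := Subgroup.card_dvd_of_le hle
      rw [Subgroup.card_map_of_injective A.subtype_injective, hS, h.card_Z] at this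
      norm_num at this
    have ha2 : ¬ 2 ∣ a := by
      intro hd
      obtain ⟨s, hs⟩ := exists_prime_orderOf_dvd_card' 2 (ha ▸ dvd_mul_of_dvd_right hd 3)
      exact hnoinvA s s.2 (by rw [Subgroup.orderOf_coe, hs])
    have ha5 : 5 ≤ a := by
      by_contra hlt
      interval_cases a
      · rw [mul_zero] at ha
        exact absurd ha (Nat.card_pos (α := A)).ne'
      · have : (A : Subgroup G) = Z :=
          (Subgroup.eq_of_le_of_card_ge hZA (by rw [ha, h.card_Z])).symm
        exact hx.1 (this ▸ hmemA.mpr rfl)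
      · omega
      · omega
      · omega
    rw [ha] at hN htor
    have h9a : Nat.card (Subgroup.normalizer (A : Set G)) ≤ 3 * (3 * a) := by
      have := htor
      rw [← hAdef] at this
      exact this
    have h16 : 144 * L.ncard ≤ 29 * M := by
      have e1 : 36 * n * L.ncard ≤ M * (5 * n + 9) := by omega
      have e2 : 4 * (5 * n + 9) ≤ 29 * n := by omega
      have e3 : (144 * L.ncard) * n ≤ (29 * M) * n :=
        calc (144 * L.ncard) * n = 4 * (36 * n * L.ncard) := by ring
          _ ≤ 4 * (M * (5 * n + 9)) := by omega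
          _ = M * (4 * (5 * n + 9)) := by ring
          _ ≤ M * (29 * n) := Nat.mul_le_mul_left _ e2
          _ = (29 * M) * n := by ring
      exact Nat.le_of_mul_le_mul_right e3 (by omega)
    have e4 : M * (3 * a - 3) ≤ L.ncard * (3 * (3 * a)) :=
      calc M * (3 * a - 3) = SA.ncard * Nat.card (Subgroup.normalizer (A : Set G)) := hN.symm
        _ ≤ L.ncard * (3 * (3 * a)) := Nat.mul_le_mul hSAle h9a
    have e5 : M * (144 * (3 * a - 3)) ≤ M * (261 * a) :=
      calc M * (144 * (3 * a - 3)) = 144 * (M * (3 * a - 3)) := by ring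
        _ ≤ 144 * (L.ncard * (3 * (3 * a))) := Nat.mul_le_mul_left _ e4
        _ = (144 * L.ncard) * (9 * a) := by ring
        _ ≤ (29 * M) * (9 * a) := Nat.mul_le_mul_right _ h16
        _ = M * (261 * a) := by ring
    have := Nat.le_of_mul_le_mul_left e5 hMpos
    omega
  -- only the `p`-part is left
  push Not at hA
  have hM12 : 12 * n < M := by
    rw [← h.card_cent]
    refine lt_of_le_of_ne (Subgroup.card_le_card_group _) fun e => ?_
    have htop : Subgroup.centralizer ({t} : Set G) = ⊤ := Subgroup.eq_top_of_card_eq _ e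
    obtain ⟨u, hu, hne, -⟩ : Nonempty {u : G // orderOf u = 2 ∧ u ≠ t ∧ u * t = t * u} :=
      (Nat.card_pos_iff.mp (by rw [h.card_refl]; omega)).1
    obtain ⟨k, hk⟩ := isConj_iff.mp (h.conj_t u hu)
    have hkt : k * t = t * k := Subgroup.mem_centralizer_singleton_iff.mp (htop ▸ Subgroup.mem_top k)
    exact hne (by rw [← hk, hkt, mul_inv_cancel_right])
  by_cases hLe : L = ∅
  · rw [hLe, Set.ncard_empty] at hL36
    have h1 : 216 ≤ M := h.card_normalizer_R ▸ Subgroup.card_le_card_group _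
    have h2 := Nat.mul_le_mul_right (5 * n + 9) h1
    omega
  obtain ⟨x, hx⟩ := Set.nonempty_iff_ne_empty.mpr hLe
  obtain ⟨u, hu⟩ : ∃ u : G, orderOf u = p :=
    ⟨_, orderOf_pow_orderOf_div (orderOf_pos x).ne' (hA x hx)⟩
  set P := Subgroup.zpowers u with hPdef
  have hcardP : Nat.card P = p := by rw [hPdef, Nat.card_zpowers, hu]
  set N := Subgroup.normalizer (P : Set G) with hNdef
  set ZP := Z ⊔ P with hZP
  have hcentP : Subgroup.centralizer ({u} : Set G) = ZP := h.cent_p u hu
  have hZPle : ∀ v : G, v ∈ ZP ↔ v * u = u * v := fun v => by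
    rw [← hcentP, Subgroup.mem_centralizer_singleton_iff]
  have hpfac : (Nat.card G).factorization p = 1 := by
    have h1 := (Nat.Prime.pow_dvd_iff_le_factorization (k := 1) h.p_prime Nat.card_pos.ne').mp
      (by rw [pow_one, ← hu]; exact orderOf_dvd_natCard u)
    by_contra hne
    exact h.not_p_sq ((Nat.Prime.pow_dvd_iff_le_factorization (k := 2) h.p_prime
      Nat.card_pos.ne').mpr (by omega))
  let SP : Sylow p G := Sylow.ofCard P (by rw [hcardP, hpfac, pow_one])
  -- elements of `ZP` outside `Z`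
  have hZPp : ∀ y : G, y ∈ ZP → y ∉ Z → p ∣ orderOf y := by
    intro y hy hyZ
    haveI hn : Z.Normal := ⟨fun z hz g => (h.conj_Z_iff g z).mpr hz⟩
    obtain ⟨z, hz, w, hw, rfl⟩ := Subgroup.mem_sup_of_normal_left.mp hy
    have hw1 : w ≠ 1 := fun e => hyZ (by rw [e, mul_one]; exact hz)
    have hwp : orderOf w = p := by
      have := Subgroup.orderOf_dvd_natCard _ hw
      rw [hcardP] at this
      exact ((Nat.dvd_prime h.p_prime).mp this).resolve_left fun e => hw1 (orderOf_eq_one_iff.mp e)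
    have hc : Commute z w := (h.zcomm hz w).symm
    have h1 := orderOf_dvd_of_pow_eq_one (x := w) (n := 3 * orderOf (z * w)) (by
      have := pow_orderOf_eq_one (z * w)
      rw [hc.mul_pow] at this
      rw [mul_comm, pow_mul, eq_inv_of_mul_eq_one_right this, inv_pow, ← pow_mul, mul_comm, pow_mul,
        h.pow_three_eq_one hz, one_pow, inv_one])
    rw [hwp] at h1
    rcases h.p_prime.dvd_mul.mp h1 with e | e
    · have := Nat.le_of_dvd (by norm_num) e
      omega
    · exact e
  have hnoP : ∀ y : G, y ∈ ZP → y ∉ Z → y ∈ L := by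
    intro y hy hyZ
    refine ⟨hyZ, fun hS => ?_, fun hS => ?_⟩
    · obtain ⟨-, s, hs, e⟩ := hSo_not y hS
      exact h.not_dvd_orderOf hs e (hZPp y hy hyZ)
    · have := (hZPp y hy hyZ).trans (orderOf_dvd_of_pow_eq_one (hSR_not y hS).2.2)
      rcases (Nat.dvd_prime_pow Nat.prime_three).mp (show p ∣ 3 ^ 2 from this) with ⟨j, hj, e⟩
      have hp3 := h.p_prime
      interval_cases j <;> simp at e <;> first | omega | (rw [e] at hp3; norm_num at hp3)
  -- the normaliser of `P` permutes the elements outside `Z`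
  have hBN : ∀ b ∈ {y : G | y ∈ ZP ∧ y ∉ Z}, ∀ k : G,
      (k * b * k⁻¹ ∈ {y : G | y ∈ ZP ∧ y ∉ Z} ↔ k ∈ N) := by
    rintro b ⟨hb, hbZ⟩ k
    have hd := hZPp b hb hbZ
    have hu' : orderOf (b ^ (orderOf b / p)) = p := orderOf_pow_orderOf_div (orderOf_pos b).ne' hd
    have hpow : ∀ v : G, v ∈ ZP → orderOf v = p → v ∈ P := by
      intro v hv hvo
      haveI hn : Z.Normal := ⟨fun z hz g => (h.conj_Z_iff g z).mpr hz⟩
      obtain ⟨z, hz, w, hw, rfl⟩ := Subgroup.mem_sup_of_normal_left.mp hv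
      have hc : Commute z w := (h.zcomm hz w).symm
      have hwp : w ^ p = 1 := by
        have := pow_card_eq_one' (x := (⟨w, hw⟩ : P))
        rw [hcardP] at this
        exact congrArg Subtype.val this
      have h1 := pow_orderOf_eq_one (z * w)
      rw [hvo, hc.mul_pow, hwp, mul_one] at h1
      have h2 := orderOf_dvd_of_pow_eq_one h1
      have h3 := orderOf_dvd_of_pow_eq_one (h.pow_three_eq_one hz)
      have hz1 : orderOf z = 1 := by
        rcases (Nat.dvd_prime Nat.prime_three).mp h3 with e | e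
        · exact e
        · rw [e] at h2
          have := (Nat.prime_dvd_prime_iff_eq Nat.prime_three h.p_prime).mp h2
          omega
      rw [orderOf_eq_one_iff.mp hz1, one_mul]
      exact hw
    constructor
    · rintro ⟨hk, -⟩
      have hbP := hpow _ (pow_mem hb (orderOf b / p)) hu'
      have hkP : k * b ^ (orderOf b / p) * k⁻¹ ∈ P := by
        refine hpow _ (by rw [← conj_pow]; exact pow_mem hk _) ?_
        exact (MulEquiv.orderOf_eq (MulAut.conj k) (b ^ (orderOf b / p))).trans hu'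
      have hgen : Subgroup.zpowers (b ^ (orderOf b / p)) = P :=
        Subgroup.eq_of_le_of_card_ge (Subgroup.zpowers_le.mpr hbP)
          (by rw [hcardP, Nat.card_zpowers, hu'])
      have hmap : P.map (MulAut.conj k).toMonoidHom = P := by
        refine Subgroup.eq_of_le_of_card_ge ?_ ?_
        · rw [← hgen, MonoidHom.map_zpowers, Subgroup.zpowers_le, hgen]
          exact hkP
        · exact le_of_eq (Subgroup.card_map_of_injective (MulAut.conj k).injective).symm
      rw [hNdef, Subgroup.mem_normalizer_iff]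
      intro w
      refine ⟨fun hw => hmap ▸ Subgroup.mem_map_of_mem _ hw, fun hw => ?_⟩
      rw [← hmap] at hw
      obtain ⟨w', hw', e⟩ := hw
      have e' : k * w' * k⁻¹ = k * w * k⁻¹ := e
      have : w' = w := by simpa using e'
      exact this ▸ hw'
    · intro hk
      refine ⟨?_, fun hz => hbZ ((h.conj_Z_iff k b).mp hz)⟩
      rw [hZPle]
      have hbu := (hZPle b).mp hb
      -- `k u k⁻¹` generates `P`
      have hku : u ∈ Subgroup.zpowers (k * u * k⁻¹) := by
        have hmem : k * u * k⁻¹ ∈ P :=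
          (Subgroup.mem_normalizer_iff.mp hk u).mp (Subgroup.mem_zpowers u)
        have hgen : Subgroup.zpowers (k * u * k⁻¹) = P :=
          Subgroup.eq_of_le_of_card_ge (Subgroup.zpowers_le.mpr hmem) (by
            rw [hcardP, Nat.card_zpowers,
              show orderOf (k * u * k⁻¹) = p by
                rw [← hu]; simpa using MulEquiv.orderOf_eq (MulAut.conj k) u])
        rw [hgen]; exact Subgroup.mem_zpowers u
      obtain ⟨i, hi⟩ := Subgroup.mem_zpowers_iff.mp hku
      have hc : Commute (k * b * k⁻¹) (k * u * k⁻¹) := by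
        show k * b * k⁻¹ * (k * u * k⁻¹) = k * u * k⁻¹ * (k * b * k⁻¹)
        rw [show k * b * k⁻¹ * (k * u * k⁻¹) = k * (b * u) * k⁻¹ by group, hbu]; group
      have := hc.zpow_right i
      rw [hi] at this
      exact this
  have hcount := ncard_conjUnion _ N hBN
  have hSP : {y : G | ∃ k : G, k⁻¹ * y * k ∈ {y : G | y ∈ ZP ∧ y ∉ Z}} = L := by
    ext y
    constructor
    · rintro ⟨k, hk1, hk2⟩
      obtain ⟨hl1, hl2, hl3⟩ := hnoP _ hk1 hk2
      have conjinv : ∀ (B : Set G), y ∈ {z : G | ∃ j : G, j⁻¹ * z * j ∈ B} →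
          k⁻¹ * y * k ∈ {z : G | ∃ j : G, j⁻¹ * z * j ∈ B} := by
        rintro B ⟨j, hj⟩
        exact ⟨k⁻¹ * j, by
          show (k⁻¹ * j)⁻¹ * (k⁻¹ * y * k) * (k⁻¹ * j) ∈ B
          rwa [show (k⁻¹ * j)⁻¹ * (k⁻¹ * y * k) * (k⁻¹ * j) = j⁻¹ * y * j by group]⟩
      exact ⟨fun hz => hl1 (by
        have := (h.conj_Z_iff k⁻¹ y).mpr hz
        rwa [inv_inv] at this), fun hS => hl2 (conjinv _ hS), fun hS => hl3 (conjinv _ hS)⟩
    · intro hy
      have hv : orderOf (y ^ (orderOf y / p)) = p :=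
        orderOf_pow_orderOf_div (orderOf_pos y).ne' (hA y hy)
      set v := y ^ (orderOf y / p)
      obtain ⟨T, hT⟩ := (show IsPGroup p (Subgroup.zpowers v) from
        IsPGroup.of_card (n := 1) (by rw [Nat.card_zpowers, hv, pow_one])).exists_le_sylow
      obtain ⟨k, hk⟩ := MulAction.exists_smul_eq G SP T
      have hvT : v ∈ ((k • SP : Sylow p G) : Subgroup G) := hk ▸ hT (Subgroup.mem_zpowers v)
      rw [Sylow.coe_subgroup_smul, Subgroup.mem_pointwise_smul_iff_inv_smul_mem] at hvT
      have hvP : k⁻¹ * v * k ∈ P := by simpa [MulAut.smul_def, SP] using hvT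
      refine ⟨k, ?_, fun hz => hy.1 (by
        have := (h.conj_Z_iff k _).mpr hz
        rwa [show k * (k⁻¹ * y * k) * k⁻¹ = y by group] at this)⟩
      have hgen : u ∈ Subgroup.zpowers (k⁻¹ * v * k) := by
        have : Subgroup.zpowers (k⁻¹ * v * k) = P :=
          Subgroup.eq_of_le_of_card_ge (Subgroup.zpowers_le.mpr hvP) (by
            rw [hcardP, Nat.card_zpowers,
              show orderOf (k⁻¹ * v * k) = p by
                rw [← hv]; simpa using MulEquiv.orderOf_eq (MulAut.conj k⁻¹) v])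
        rw [this]; exact Subgroup.mem_zpowers u
      obtain ⟨i, hi⟩ := Subgroup.mem_zpowers_iff.mp hgen
      rw [hZPle]
      have hc : Commute (k⁻¹ * y * k) (k⁻¹ * v * k) := by
        have hyv : Commute y v := Commute.self_pow y _
        show k⁻¹ * y * k * (k⁻¹ * v * k) = k⁻¹ * v * k * (k⁻¹ * y * k)
        rw [show k⁻¹ * y * k * (k⁻¹ * v * k) = k⁻¹ * (y * v) * k by group, hyv.eq]; group
      have := hc.zpow_right i
      rw [hi] at this
      exact this
  have hZPcard : Nat.card ZP = 3 * p := h.card_zp hu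
  have hBcard : {y : G | y ∈ ZP ∧ y ∉ Z}.ncard = 3 * p - 3 := by
    rw [show {y : G | y ∈ ZP ∧ y ∉ Z} = (ZP : Set G) \ (Z : Set G) from rfl,
      Set.ncard_sdiff (show (Z : Set G) ⊆ ZP from fun z hz => Subgroup.mem_sup_left hz)
        (Set.toFinite _), ← Nat.card_coe_set_eq, ← Nat.card_coe_set_eq]
    show Nat.card ZP - Nat.card Z = _
    rw [hZPcard, h.card_Z]
  -- the action of the normaliser on `P`
  set φ := Subgroup.normalizerMonoidHom (P : Subgroup G) with hφ
  set e := Nat.card φ.range with he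
  have hker : φ.ker = ZP.subgroupOf N := by
    rw [Subgroup.normalizerMonoidHom_ker]
    congr 1
    rw [hPdef, Subgroup.zpowers_eq_closure, Subgroup.centralizer_closure]
    exact hcentP
  have hZPN : ZP ≤ N := by
    intro v hv
    refine Subgroup.centralizer_le_normalizer _ ?_
    rw [hPdef, Subgroup.zpowers_eq_closure, Subgroup.centralizer_closure, hcentP]
    exact hv
  have hNcard : Nat.card N = 3 * p * e := by
    have h1 := Subgroup.card_eq_card_quotient_mul_card_subgroup φ.ker
    have h2 : Nat.card φ.ker = 3 * p := by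
      rw [hker, Nat.card_congr (Subgroup.subgroupOfEquivOfLe hZPN).toEquiv, hZPcard]
    rw [h2, Nat.card_congr (QuotientGroup.quotientKerEquivRange φ).toEquiv] at h1
    rw [he, mul_comm (3 * p)]
    exact h1
  have hcnt : L.ncard * (p * e) = M * (p - 1) := by
    rw [hSP, hBcard, hNcard, ← hM] at hcount
    have e1 : 3 * (L.ncard * (p * e)) = 3 * (M * (p - 1)) := by
      rw [show 3 * p - 3 = 3 * (p - 1) by omega] at hcount
      calc 3 * (L.ncard * (p * e)) = L.ncard * (3 * p * e) := by ring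
        _ = M * (3 * (p - 1)) := hcount
        _ = 3 * (M * (p - 1)) := by ring
    omega
  -- bounds on `e`
  have hepos : 0 < e := Nat.card_pos
  have hrel : (p * e) * (M * (5 * n + 9)) = M * (36 * n * (p - 1)) + (p * e) * (108 * n) := by
    rw [← hL36, mul_add]
    congr 1
    calc p * e * (36 * n * L.ncard) = 36 * n * (L.ncard * (p * e)) := by ring
      _ = M * (36 * n * (p - 1)) := by rw [hcnt]; ring
  have he7 : e ≤ 7 := by
    by_contra hlt
    have hp1 : 36 * (p - 1) < 5 * (p * e) := by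
      have : p * 8 ≤ p * e := Nat.mul_le_mul_left _ (by omega)
      omega
    have h1 : M * (36 * n * (p - 1)) < M * (5 * n * (p * e)) := by
      refine Nat.mul_lt_mul_of_pos_left ?_ hMpos
      calc 36 * n * (p - 1) = n * (36 * (p - 1)) := by ring
        _ < n * (5 * (p * e)) := Nat.mul_lt_mul_of_pos_left hp1 (by omega)
        _ = 5 * n * (p * e) := by ring
    have h2 : (p * e) * (12 * n * 9) ≤ (p * e) * (M * 9) :=
      Nat.mul_le_mul_left _ (Nat.mul_le_mul_right _ hM12.le)
    linarith [hrel]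
  have he5 : 5 ≤ e := by
    by_contra hlt
    have hp1 : 29 * (p * e) < 144 * (p - 1) := by
      have : p * e ≤ p * 4 := Nat.mul_le_mul_left _ (by omega)
      omega
    have h1 : (p * e) * (4 * (5 * n + 9)) ≤ (p * e) * (29 * n) :=
      Nat.mul_le_mul_left _ (by omega)
    have h2 : M * ((p * e) * (4 * (5 * n + 9))) ≤ M * ((p * e) * (29 * n)) :=
      Nat.mul_le_mul_left _ h1
    have h3 : M * (29 * (p * e) * n) < M * (144 * (p - 1) * n) :=
      Nat.mul_lt_mul_of_pos_left (Nat.mul_lt_mul_of_pos_right hp1 (by omega)) hMpos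
    linarith [hrel]
  have hedvd : e ∣ p - 1 := by
    have h1 := Subgroup.card_subgroup_dvd_card φ.range
    haveI : IsCyclic P := isCyclic_of_prime_card hcardP
    rwa [IsCyclic.card_mulAut, hcardP, Nat.totient_prime h.p_prime, ← he] at h1
  -- a generator
  obtain ⟨c, hcN, hcgen⟩ := h.cyclic_p u hu
  set γ : N := ⟨c, hcN⟩ with hγ
  have hrange : φ.range = Subgroup.zpowers (φ γ) := by
    refine le_antisymm ?_ (Subgroup.zpowers_le.mpr ⟨γ, rfl⟩)
    have hle : N ≤ ((Subgroup.zpowers (φ γ)).comap φ).map N.subtype := by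
      have hN' : N = Z ⊔ P ⊔ Subgroup.zpowers c := hcgen
      conv_lhs => rw [hN']
      refine sup_le ?_ ?_
      · intro v hv
        refine ⟨⟨v, hZPN hv⟩, ?_, rfl⟩
        rw [SetLike.mem_coe, Subgroup.mem_comap]
        have : (⟨v, hZPN hv⟩ : N) ∈ φ.ker := by rw [hker]; exact hv
        rw [MonoidHom.mem_ker.mp this]
        exact one_mem _
      · rw [Subgroup.zpowers_le]
        exact ⟨γ, Subgroup.mem_zpowers _, rfl⟩
    rintro _ ⟨w, rfl⟩
    obtain ⟨w', hw', hww⟩ := hle w.2
    rw [← show w' = w from Subtype.ext hww]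
    exact hw'
  have hce : ∀ j : ℕ, c ^ j ∈ ZP ↔ e ∣ j := by
    intro j
    have : e = orderOf (φ γ) := by rw [he, hrange, Nat.card_zpowers]
    rw [this, orderOf_dvd_iff_pow_eq_one, ← map_pow, ← MonoidHom.mem_ker, hker]
    rfl
  have hcp : ¬ e ∣ p := by
    intro hd
    rcases (Nat.dvd_prime h.p_prime).mp hd with e' | e'
    · omega
    · have := Nat.le_of_dvd (by omega) hedvd
      omega
  set z := c ^ p with hz
  have hZPexp : ∀ v ∈ ZP, v ^ p ∈ Z := by
    intro v hv
    haveI hn : Z.Normal := ⟨fun z hz g => (h.conj_Z_iff g z).mpr hz⟩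
    obtain ⟨a, ha, w, hw, rfl⟩ := Subgroup.mem_sup_of_normal_left.mp hv
    have hc : Commute a w := (h.zcomm ha w).symm
    have hwp : w ^ p = 1 := by
      have := pow_card_eq_one' (x := (⟨w, hw⟩ : P))
      rw [hcardP] at this
      exact congrArg Subtype.val this
    rw [hc.mul_pow, hwp, mul_one]
    exact pow_mem ha p
  have hze : z ^ e ∈ Z := by
    rw [hz, ← pow_mul, mul_comm, pow_mul]
    exact hZPexp _ ((hce e).mpr dvd_rfl)
  have hzN : z ∈ N := pow_mem hcN p
  have hzj : ∀ j : ℕ, z ^ j ∈ ZP → e ∣ p * j := fun j hj => (hce _).mp (by rwa [pow_mul])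
  have hecop : Nat.Coprime e p :=
    ((Nat.Prime.coprime_iff_not_dvd h.p_prime).mpr fun hd => by
      have := Nat.le_of_dvd (by omega) hd
      have := Nat.le_of_dvd (by omega) hedvd
      omega).symm
  have hzj' : ∀ j : ℕ, z ^ j ∈ ZP → e ∣ j := fun j hj => hecop.dvd_of_dvd_mul_left (hzj j hj)
  have hZZP : ∀ v ∈ Z, v ∈ ZP := fun v hv => Subgroup.mem_sup_left hv
  by_cases he6 : e = 6
  · -- an involution of the normaliser centralises an element of order three modulo `Z`
    rw [he6] at hze hzj'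
    set s := z ^ 9 with hs
    have hs2 : orderOf s = 2 := by
      refine orderOf_eq_prime ?_ fun h1 => ?_
      · rw [hs, ← pow_mul, show 9 * 2 = 6 * 3 from rfl, pow_mul]
        exact h.pow_three_eq_one hze
      · have := hzj' 9 (by rw [← hs, h1]; exact one_mem _)
        omega
    set y := z ^ 2 with hy
    have hys : y * s = s * y := (Commute.refl z).pow_pow 2 9
    have hy3 : y ^ 3 ∈ Z := by rw [hy, ← pow_mul]; exact hze
    have hyZ : y ∉ Z := fun hmem => by
      have := hzj' 2 (hZZP _ hmem)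
      omega
    haveI hn : Z.Normal := ⟨fun z hz g => (h.conj_Z_iff g z).mpr hz⟩
    set D := Z ⊔ Subgroup.zpowers y with hD
    have hDle : D ≤ Subgroup.centralizer ({s} : Set G) := by
      refine sup_le (fun v hv => ?_) (Subgroup.zpowers_le.mpr ?_)
      · exact Subgroup.mem_centralizer_singleton_iff.mpr (h.zcomm hv s).symm
      · exact Subgroup.mem_centralizer_singleton_iff.mpr hys
    haveI : Fact (Nat.Prime 3) := ⟨Nat.prime_three⟩
    have hD3 : IsPGroup 3 D := by
      rintro ⟨d, hd⟩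
      obtain ⟨a, ha, w, hw, rfl⟩ := Subgroup.mem_sup_of_normal_left.mp hd
      obtain ⟨i, rfl⟩ := Subgroup.mem_zpowers_iff.mp hw
      refine ⟨2, Subtype.ext ?_⟩
      show (a * y ^ i) ^ (3 ^ 2) = 1
      have hc : Commute a (y ^ i) := (h.zcomm ha _).symm
      rw [hc.mul_pow, show (3 : ℕ) ^ 2 = 3 * 3 by norm_num, pow_mul, h.pow_three_eq_one ha,
        one_pow, one_mul, ← zpow_natCast, ← zpow_mul, mul_comm, zpow_mul, zpow_natCast, pow_mul,
        h.pow_three_eq_one hy3, one_zpow]
    obtain ⟨j, hj⟩ := IsPGroup.iff_card.mp hD3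
    have hj2 : 2 ≤ j := by
      by_contra hlt
      have hle : Nat.card D ≤ Nat.card Z := by
        rw [hj, h.card_Z]
        calc 3 ^ j ≤ 3 ^ 1 := Nat.pow_le_pow_right (by norm_num) (by omega)
          _ = 3 := pow_one 3
      have := Subgroup.eq_of_le_of_card_ge (show Z ≤ D from le_sup_left) hle
      exact hyZ (this ▸ Subgroup.mem_sup_right (Subgroup.mem_zpowers y))
    have hd : 3 ^ 2 ∣ Nat.card (Subgroup.centralizer ({s} : Set G)) :=
      (pow_dvd_pow 3 hj2).trans (hj ▸ Subgroup.card_dvd_of_le hDle)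
    obtain ⟨k, hk⟩ := isConj_iff.mp (h.conj_t s hs2)
    have hcs : Nat.card (Subgroup.centralizer ({s} : Set G)) = 12 * n := by
      rw [← h.card_cent]
      refine Nat.card_congr ((MulAut.conj k).toEquiv.subtypeEquiv fun v => ?_).symm
      simp only [Subgroup.mem_centralizer_singleton_iff]
      show v * t = t * v ↔ k * v * k⁻¹ * s = s * (k * v * k⁻¹)
      rw [← hk, show k * v * k⁻¹ * (k * t * k⁻¹) = k * (v * t) * k⁻¹ by group,
        show k * t * k⁻¹ * (k * v * k⁻¹) = k * (t * v) * k⁻¹ by group]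
      simp
    rw [hcs] at hd
    have := h.three_not_dvd
    omega
  -- `e` is five or seven
  have hzZ : z ∉ Z := fun hmem => by
    have := hzj' 1 (by rw [pow_one]; exact hZZP _ hmem)
    have := Nat.le_of_dvd one_pos this
    omega
  have hz3 : z ^ (3 * e) = 1 := by rw [mul_comm, pow_mul]; exact h.pow_three_eq_one hze
  have hzp : ¬ p ∣ orderOf z := by
    intro hd
    have := hd.trans (orderOf_dvd_of_pow_eq_one hz3)
    rcases h.p_prime.dvd_mul.mp this with e' | e'
    · have := Nat.le_of_dvd (by norm_num) e'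
      omega
    · have := Nat.le_of_dvd (by omega) e'
      have := Nat.le_of_dvd (by omega) hedvd
      omega
  obtain ⟨s, hs, hzs⟩ : ∃ s : G, orderOf s = 2 ∧ z * s = s * z := by
    by_contra hcon
    push Not at hcon
    refine hzp (hA z ⟨hzZ, fun hS => ?_, fun hS => ?_⟩)
    · obtain ⟨-, s, hs, e'⟩ := hSo_not z hS
      exact hcon s hs e'
    · have h9 := (hSR_not z hS).2.2
      have h9' : z ^ 9 ∈ ZP := by rw [h9]; exact one_mem _
      have := hzj' 9 h9'
      rcases (show e = 5 ∨ e = 7 by omega) with e' | e' <;> rw [e'] at this <;> omega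
  obtain ⟨s', hs'N, hs'⟩ := h.invol_p u z s hu hzN (fun e' => by
      have := hzj' 1 (by rw [pow_one]; exact (hZPle z).mpr e')
      have := Nat.le_of_dvd one_pos this
      omega) (fun e' => by
      have := hzj' 2 (by rw [pow_two]; exact (hZPle _).mpr e')
      have := Nat.le_of_dvd two_pos this
      omega) hs hzs
  have h2 : 2 ∣ Nat.card N := hs' ▸ Subgroup.orderOf_dvd_natCard _ hs'N
  rw [hNcard] at h2
  rcases Nat.prime_two.dvd_mul.mp h2 with e' | e'
  · rcases Nat.prime_two.dvd_mul.mp e' with e'' | e''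
    · omega
    · have := (Nat.prime_dvd_prime_iff_eq Nat.prime_two h.p_prime).mp e''
      omega
  · omega

end CfsgLib.SLThree90
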