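import Cfsg.Agent.SLThree90.DihedralCent

/-!
Either an isolated involution with solvable centraliser, or the data of the dihedral case.
-/

set_option autoImplicit false

namespace CfsgLib.SLThree90

open Matrix
open scoped MatrixGroups

variable {L : Type*} [Field L] {p : ℕ} {M : Subgroup (GL (Fin 3) L)} {ω : Lˣ}

local notation "GL3" => GL (Fin 3) L
local notation "Mat2" => Matrix (Fin 2) (Fin 2) L

theorem orderOf_eq_two_iff_mul {G : Type*} [Monoid G] {x : G} :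
    orderOf x = 2 ↔ x * x = 1 ∧ x ≠ 1 := by
  rw [orderOf_eq_prime_iff, pow_two]

/-- In a finite group, two involutions are conjugate or commute with a common third one. -/
theorem conj_or_common {G : Type*} [Group G] [Finite G] {s t : G} (hs : s * s = 1) (ht : t * t = 1) :
    (∃ g : G, g * t * g⁻¹ = s) ∨ ∃ w : G, w * w = 1 ∧ w ≠ 1 ∧ w * s = s * w ∧ w * t = t * w := by
  have hsi : s⁻¹ = s := inv_eq_of_mul_eq_one_right hs
  have hti : t⁻¹ = t := inv_eq_of_mul_eq_one_right ht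
  set q := s * t with hq
  have hqs : s * q * s⁻¹ = q⁻¹ := by
    rw [hq, _root_.mul_inv_rev, hsi, hti, ← mul_assoc s s t, hs, one_mul]
  have hqt : t * q * t⁻¹ = q⁻¹ := by
    rw [hq, _root_.mul_inv_rev, hsi, hti, mul_assoc t (s * t) t, mul_assoc s t t, ht, mul_one]
  have hpow : ∀ (x : G), x * q * x⁻¹ = q⁻¹ → ∀ i : ℕ, x * q ^ i * x⁻¹ = (q ^ i)⁻¹ := by
    intro x hx i
    rw [← conj_pow, hx, inv_pow]
  have hpos : 0 < orderOf q := orderOf_pos q
  rcases Nat.even_or_odd (orderOf q) with ⟨m, hm⟩ | ⟨m, hm⟩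
  · refine Or.inr ⟨q ^ m, ?_, pow_ne_one_of_lt_orderOf (by omega) (by omega), ?_, ?_⟩
    · rw [← pow_add, ← hm, pow_orderOf_eq_one]
    all_goals
      have hi : (q ^ m)⁻¹ = q ^ m :=
        inv_eq_of_mul_eq_one_right (by rw [← pow_add, ← hm, pow_orderOf_eq_one])
    · have := hpow s hqs m
      rw [hi, mul_inv_eq_iff_eq_mul] at this
      exact this.symm
    · have := hpow t hqt m
      rw [hi, mul_inv_eq_iff_eq_mul] at this
      exact this.symm
  · refine Or.inl ⟨q ^ (m + 1), ?_⟩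
    have h := hpow t hqt (m + 1)
    rw [mul_inv_eq_iff_eq_mul] at h
    have h2 : t * (q ^ (m + 1))⁻¹ = q ^ (m + 1) * t := by
      refine mul_right_cancel (b := q ^ (m + 1)) ?_
      rw [inv_mul_cancel_right, mul_assoc, h, mul_inv_cancel_left]
    rw [mul_assoc, h2, ← mul_assoc, ← pow_add, show m + 1 + (m + 1) = orderOf q + 1 by omega,
      pow_succ, pow_orderOf_eq_one, one_mul, hq, mul_assoc, ht, mul_one]

theorem card_conjugates {G : Type*} [Group G] (u : G) (q : G → Prop) (h1 : ∀ g, q (g * u * g⁻¹))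
    (h2 : ∀ x, q x → ∃ g, g * u * g⁻¹ = x) :
    Nat.card {x // q x} = (Subgroup.centralizer ({u} : Set G)).index := by
  let f : G ⧸ Subgroup.centralizer ({u} : Set G) → {x // q x} :=
    fun c => Quotient.liftOn' c (fun g => ⟨g * u * g⁻¹, h1 g⟩) fun g g' hgg => by
      have h := Subgroup.mem_centralizer_singleton_iff.1 (QuotientGroup.leftRel_apply.1 hgg)
      refine Subtype.ext ?_
      calc g * u * g⁻¹ = g * (u * (g⁻¹ * g')) * g'⁻¹ := by group
        _ = g * (g⁻¹ * g' * u) * g'⁻¹ := by rw [h]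
        _ = g' * u * g'⁻¹ := by group
  have hf : Function.Bijective f := by
    constructor
    · rintro ⟨g⟩ ⟨g'⟩ he
      refine Quotient.sound' (QuotientGroup.leftRel_apply.2
        (Subgroup.mem_centralizer_singleton_iff.2 ?_))
      have h : g * u * g⁻¹ = g' * u * g'⁻¹ := congrArg Subtype.val he
      calc g⁻¹ * g' * u = g⁻¹ * (g' * u * g'⁻¹) * g' := by group
        _ = g⁻¹ * (g * u * g⁻¹) * g' := by rw [h]
        _ = u * (g⁻¹ * g') := by group
    · rintro ⟨x, hx⟩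
      obtain ⟨g, hg⟩ := h2 x hx
      exact ⟨QuotientGroup.mk g, Subtype.ext hg⟩
  exact (Nat.card_eq_of_bijective f hf).symm

theorem card_conj_subtype {G : Type*} [Group G] (Q : G) (q q' : G → Prop)
    (h : ∀ x, q x ↔ q' (Q * x * Q⁻¹)) : Nat.card {x // q x} = Nat.card {x // q' x} :=
  Nat.card_congr ((MulAut.conj Q).toEquiv.subtypeEquiv h)

/-- Isolated involution, or the data of the dihedral case. -/
theorem Ambient.dihData_or_isolated [IsAlgClosed L] (ha : Ambient p ω M) (hno : NoHom M)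
    {P : GL3} {a b : cent (SLThree90.cnj P M)}
    (hab : ((ha.cnj P).blk a : Mat2) * (ha.cnj P).blk b =
      -(((ha.cnj P).blk b : Mat2) * (ha.cnj P).blk a))
    (ha2 : ((ha.cnj P).blk a : Mat2) * (ha.cnj P).blk a = -1)
    (hb2 : ((ha.cnj P).blk b : Mat2) * (ha.cnj P).blk b = -1) :
    HasIsolated M ∨ ∃ n, DihData p ω M n := by
  have h2 := ha.two_ne_zero
  set M' := SLThree90.cnj P M with hM'
  set ha' := ha.cnj P with hha'
  rcases ha'.dihCent_or_isolated (hno.cnj P) hab ha2 hb2 with hi | ⟨n, hD⟩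
  · exact Or.inl (hi.of_cnj)
  obtain ⟨ht, -⟩ := ha'.t0_mem hab
  by_cases hiso : ∀ g ∈ M', Commute t0 (g * t0 * g⁻¹) → g * t0 * g⁻¹ = t0
  · exact Or.inl (HasIsolated.of_cnj (P := P) ⟨t0, ht, orderOf_t0 h2, hiso, hD.solvable⟩)
  right
  simp only [not_forall] at hiso
  obtain ⟨g1, hg1, hc1, hne1⟩ := hiso
  haveI := ha'.finite
  haveI := ha'.finite_cent
  have ht2 : (t0 : GL3) * t0 = 1 := Units.ext t0Mat_mul_self
  have hmem : ∀ x ∈ M', x * t0 = t0 * x → x ∈ cent M' := fun x hx hxc => Subgroup.mem_inf.2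
    ⟨hx, Subgroup.mem_centralizer_iff.2 fun y hy => by rw [Set.mem_singleton_iff.1 hy]; exact hxc.symm⟩
  set u1 : cent M' := ⟨g1 * t0 * g1⁻¹,
    hmem _ (M'.mul_mem (M'.mul_mem hg1 ht) (M'.inv_mem hg1)) hc1.eq.symm⟩ with hu1def
  have hu12 : u1 * u1 = 1 := Subtype.ext (by
    change g1 * t0 * g1⁻¹ * (g1 * t0 * g1⁻¹) = 1
    rw [show g1 * t0 * g1⁻¹ * (g1 * t0 * g1⁻¹) = g1 * (t0 * t0) * g1⁻¹ by group, ht2, mul_one,
      mul_inv_cancel])
  have hu11 : (u1 : GL3) ≠ 1 := by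
    intro h
    have h1 : t0 = (1 : GL3) := conj_eq_one_iff.1 h
    have h3 := orderOf_t0 (L := L) h2
    rw [h1, orderOf_one] at h3
    omega
  -- every involution of the centraliser is conjugate to `t₀`
  have hcent : ∀ u : cent M', u * u = 1 → (u : GL3) ≠ 1 →
      ∃ g ∈ M', g * t0 * g⁻¹ = (u : GL3) := by
    intro u hu hu1
    by_cases hut : (u : GL3) = t0
    · exact ⟨1, M'.one_mem, by rw [hut]; simp⟩
    obtain ⟨g, hg⟩ := hD.conj u1 u hu12 hu11 hne1 hu hu1 hut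
    refine ⟨(g : GL3) * g1, M'.mul_mem (cent_le _ g.2) hg1, ?_⟩
    rw [← hg]
    change _ = (g : GL3) * (g1 * t0 * g1⁻¹) * (g : GL3)⁻¹
    group
  have hall : ∀ s ∈ M', s * s = 1 → s ≠ 1 → ∃ g ∈ M', g * t0 * g⁻¹ = s := by
    intro s hs hs2 hs1
    rcases conj_or_common (G := M') (s := ⟨s, hs⟩) (t := ⟨t0, ht⟩) (Subtype.ext hs2)
        (Subtype.ext ht2) with ⟨g, hg⟩ | ⟨⟨w, hw⟩, hw2, hw1, hws, hwt⟩
    · exact ⟨g, g.2, congrArg Subtype.val hg⟩
    · simp only [Subtype.ext_iff, Subgroup.coe_mul, Subgroup.coe_one, ne_eq] at hw2 hw1 hws hwt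
      obtain ⟨h, hh, hhw⟩ := hcent ⟨w, hmem w hw hwt⟩ (Subtype.ext hw2) hw1
      have hsM : h⁻¹ * s * h ∈ M' := M'.mul_mem (M'.mul_mem (M'.inv_mem hh) hs) hh
      have hsc : h⁻¹ * s * h * t0 = t0 * (h⁻¹ * s * h) := by
        rw [show t0 = h⁻¹ * w * h by rw [← show h * t0 * h⁻¹ = w from hhw]; group]
        calc h⁻¹ * s * h * (h⁻¹ * w * h) = h⁻¹ * (s * w) * h := by group
          _ = h⁻¹ * (w * s) * h := by rw [hws]
          _ = h⁻¹ * w * h * (h⁻¹ * s * h) := by group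
      obtain ⟨g, hg, hge⟩ := hcent ⟨_, hmem _ hsM hsc⟩
        (Subtype.ext (by
          change h⁻¹ * s * h * (h⁻¹ * s * h) = 1
          rw [show h⁻¹ * s * h * (h⁻¹ * s * h) = h⁻¹ * (s * s) * h by group, hs2, mul_one,
            inv_mul_cancel]))
        (fun e => hs1 (by
          have := congrArg (fun x => h * x * h⁻¹) e
          simpa [mul_assoc] using this))
      refine ⟨h * g, M'.mul_mem hh hg, ?_⟩
      rw [show h * g * t0 * (h * g)⁻¹ = h * (g * t0 * g⁻¹) * h⁻¹ by group, hge]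
      change h * (h⁻¹ * s * h) * h⁻¹ = s
      group
  have htrans : ∀ s ∈ M, orderOf s = 2 →
      ∃ Q : GL3, SLThree90.cnj Q M = M' ∧ Q * P⁻¹ ∈ M' ∧ Q * s * Q⁻¹ = t0 := by
    intro s hs ho
    obtain ⟨hs2, hs1⟩ := orderOf_eq_two_iff_mul.1 ho
    obtain ⟨g, hg, hgs⟩ := hall (P * s * P⁻¹) (conj_mem_cnj hs)
      (by rw [show P * s * P⁻¹ * (P * s * P⁻¹) = P * (s * s) * P⁻¹ by group, hs2, mul_one,
        mul_inv_cancel]) (fun e => hs1 (conj_eq_one_iff.1 e))
    refine ⟨g⁻¹ * P, ?_, by rw [mul_inv_cancel_right]; exact M'.inv_mem hg, ?_⟩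
    · rw [← cnj_cnj, ← hM', cnj_eq_self (M'.inv_mem hg)]
    · rw [show g⁻¹ * P * s * (g⁻¹ * P)⁻¹ = g⁻¹ * (P * s * P⁻¹) * g by group, ← hgs]
      group
  have hinC : ∀ Q s : GL3, SLThree90.cnj Q M = M' → Q * s * Q⁻¹ = t0 → ∀ x ∈ M, x * s = s * x →
      Q * x * Q⁻¹ ∈ cent M' := by
    intro Q s hQ hQs x hx hxs
    refine hmem _ (hQ ▸ conj_mem_cnj hx) ?_
    rw [← hQs, show Q * x * Q⁻¹ * (Q * s * Q⁻¹) = Q * (x * s) * Q⁻¹ by group, hxs]
    group
  have houtC : ∀ Q s : GL3, SLThree90.cnj Q M = M' → Q * s * Q⁻¹ = t0 → ∀ y ∈ cent M',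
      Q⁻¹ * y * Q ∈ M ∧ Q⁻¹ * y * Q * s = s * (Q⁻¹ * y * Q) := by
    intro Q s hQ hQs y hy
    have hc : y * t0 = t0 * y :=
      ((Subgroup.mem_centralizer_iff.1 (Subgroup.mem_inf.1 hy).2) t0 rfl).symm
    refine ⟨mem_cnj.1 (hQ.symm ▸ cent_le M' hy), ?_⟩
    rw [← hQs] at hc
    calc Q⁻¹ * y * Q * s = Q⁻¹ * (y * (Q * s * Q⁻¹)) * Q := by group
      _ = Q⁻¹ * (Q * s * Q⁻¹ * y) * Q := by rw [hc]
      _ = s * (Q⁻¹ * y * Q) := by group
  have hI : Nat.card {x : GL3 // x ∈ cent M' ∧ orderOf x = 2 ∧ x ≠ t0} = n := by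
    have hidx : (Subgroup.centralizer ({u1} : Set (cent M'))).index = n := by
      have h := (Subgroup.centralizer ({u1} : Set (cent M'))).card_mul_index
      rw [hD.card_stab u1 hu12 hu11 hne1, hD.card] at h
      omega
    rw [← hidx, ← card_conjugates u1 (fun x => x * x = 1 ∧ (x : GL3) ≠ 1 ∧ (x : GL3) ≠ t0) ?_ ?_]
    · exact Nat.card_congr
        { toFun := fun x => ⟨⟨x.1, x.2.1⟩, Subtype.ext (orderOf_eq_two_iff_mul.1 x.2.2.1).1,
            (orderOf_eq_two_iff_mul.1 x.2.2.1).2, x.2.2.2⟩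
          invFun := fun y => ⟨(y.1 : GL3), y.1.2,
            orderOf_eq_two_iff_mul.2 ⟨congrArg Subtype.val y.2.1, y.2.2.1⟩, y.2.2.2⟩
          left_inv := fun x => rfl
          right_inv := fun y => rfl }
    · intro g
      refine ⟨by rw [show g * u1 * g⁻¹ * (g * u1 * g⁻¹) = g * (u1 * u1) * g⁻¹ by group, hu12,
        mul_one, mul_inv_cancel], fun e => hu11 (conj_eq_one_iff.1 e), fun e => hne1 ?_⟩
      have hc : (g : GL3) * t0 = t0 * (g : GL3) :=
        ((Subgroup.mem_centralizer_iff.1 (Subgroup.mem_inf.1 g.2).2) t0 rfl).symm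
      have e' : (g : GL3) * (u1 : GL3) * (g : GL3)⁻¹ = t0 := e
      rw [mul_inv_eq_iff_eq_mul, ← hc] at e'
      exact mul_left_cancel e'
    · exact fun x hx => hD.conj u1 x hu12 hu11 hne1 hx.1 hx.2.1 hx.2.2
  refine ⟨n, ha, hno, hD.four_dvd, hD.three_not_dvd, ?_, ?_, ?_, ?_, ?_⟩
  · intro s hs u hu hso huo
    obtain ⟨Q, -, hQP, hQs⟩ := htrans s hs hso
    obtain ⟨R, -, hRP, hRu⟩ := htrans u hu huo
    refine ⟨R⁻¹ * Q, ?_, ?_⟩
    · have := mem_cnj.1 (M'.mul_mem (M'.inv_mem hRP) hQP)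
      simpa [mul_assoc] using this
    · rw [show R⁻¹ * Q * s * (R⁻¹ * Q)⁻¹ = R⁻¹ * (Q * s * Q⁻¹) * R by group, hQs, ← hRu]
      group
  · intro s hs hso
    obtain ⟨Q, hQ, -, hQs⟩ := htrans s hs hso
    rw [← hD.card]
    refine card_conj_subtype Q (fun x => x ∈ M ⊓ Subgroup.centralizer ({s} : Set GL3))
      (fun y => y ∈ cent M') fun x => ⟨fun hx => hinC Q s hQ hQs x (Subgroup.mem_inf.1 hx).1
        (Subgroup.mem_centralizer_singleton_iff.1 (Subgroup.mem_inf.1 hx).2), fun hy => ?_⟩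
    have h := houtC Q s hQ hQs _ hy
    rw [show Q⁻¹ * (Q * x * Q⁻¹) * Q = x by group] at h
    exact Subgroup.mem_inf.2 ⟨h.1, Subgroup.mem_centralizer_singleton_iff.2 h.2⟩
  · intro s hs hso
    obtain ⟨Q, hQ, -, hQs⟩ := htrans s hs hso
    rw [card_conj_subtype Q (fun u => u ∈ M ∧ orderOf u = 2 ∧ u ≠ s ∧ u * s = s * u)
      (fun y => y ∈ cent M' ∧ orderOf y = 2 ∧ y ≠ t0) ?_]
    · exact hI
    intro x
    have ho : orderOf (Q * x * Q⁻¹) = orderOf x :=
      orderOf_injective (MulAut.conj Q).toMonoidHom (MulAut.conj Q).injective x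
    rw [ho]
    refine ⟨fun ⟨hx, h1, h2, h3⟩ => ⟨hinC Q s hQ hQs x hx h3, h1, fun e => h2 ?_⟩,
      fun ⟨hy, h1, h2⟩ => ?_⟩
    · exact mul_left_cancel (mul_right_cancel (e.trans hQs.symm))
    · have h := houtC Q s hQ hQs _ hy
      rw [show Q⁻¹ * (Q * x * Q⁻¹) * Q = x by group] at h
      exact ⟨h.1, h1, fun e => h2 (by rw [e, hQs]), h.2⟩
  · intro s hs u hu hso huo hne hcom g hg hgs hgu
    obtain ⟨Q, hQ, -, hQs⟩ := htrans s hs hso
    obtain ⟨hu2, hu1⟩ := orderOf_eq_two_iff_mul.1 huo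
    set u' : cent M' := ⟨Q * u * Q⁻¹, hinC Q s hQ hQs u hu hcom.symm⟩
    set g' : cent M' := ⟨Q * g * Q⁻¹, hinC Q s hQ hQs g hg hgs⟩
    obtain ⟨c, hc⟩ := hD.pair u' g'
      (Subtype.ext (by
        change Q * u * Q⁻¹ * (Q * u * Q⁻¹) = 1
        rw [show Q * u * Q⁻¹ * (Q * u * Q⁻¹) = Q * (u * u) * Q⁻¹ by group, hu2, mul_one,
          mul_inv_cancel]))
      (fun e => hu1 (conj_eq_one_iff.1 e))
      (fun e => hne (by
        have h := (show Q * u * Q⁻¹ = Q * s * Q⁻¹ from (e : Q * u * Q⁻¹ = t0).trans hQs.symm)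
        exact (mul_left_cancel (mul_right_cancel h)).symm))
      (Subtype.ext (by
        change Q * g * Q⁻¹ * (Q * u * Q⁻¹) = Q * u * Q⁻¹ * (Q * g * Q⁻¹)
        rw [show Q * g * Q⁻¹ * (Q * u * Q⁻¹) = Q * (g * u) * Q⁻¹ by group, hgu]
        group))
    refine ⟨c, ?_⟩
    have hback : ∀ x : GL3, Q * x * Q⁻¹ = sc3 c → x = sc3 c := by
      intro x hx
      rw [mul_inv_eq_iff_eq_mul, sc3_comm] at hx
      exact mul_left_cancel hx
    rcases hc with h | h | h | h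
    · exact Or.inl (hback _ h)
    · refine Or.inr (Or.inl (hback _ ?_))
      rw [← h, ← hQs]
      simp only [g']
      group
    · refine Or.inr (Or.inr (Or.inl (hback _ ?_)))
      rw [← h]
      simp only [g', u']
      group
    · refine Or.inr (Or.inr (Or.inr (hback _ ?_)))
      rw [← h, ← hQs]
      simp only [g', u']
      group
  · intro R ht' g hg
    obtain ⟨Q, hQ, -, hQs⟩ := htrans (R⁻¹ * t0 * R) (mem_cnj.1 ht')
      (by
        rw [show R⁻¹ * t0 * R = (MulAut.conj R⁻¹).toMonoidHom t0 by simp [mul_assoc]]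
        rw [orderOf_injective _ (MulAut.conj R⁻¹).injective]
        exact orderOf_t0 h2)
    set T := R * Q⁻¹ with hT
    have hTt : T * t0 = t0 * T := by
      have e : Q⁻¹ * t0 * Q = R⁻¹ * t0 * R := by
        have := congrArg (fun x => Q⁻¹ * x * Q) hQs
        simpa [mul_assoc] using this.symm
      calc T * t0 = R * (Q⁻¹ * t0 * Q) * Q⁻¹ := by rw [hT]; group
        _ = R * (R⁻¹ * t0 * R) * Q⁻¹ := by rw [e]
        _ = t0 * T := by rw [hT]; group
    have hTc : T ∈ cent (⊤ : Subgroup GL3) := Subgroup.mem_inf.2 ⟨Subgroup.mem_top _,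
      Subgroup.mem_centralizer_iff.2 fun y hy => by rw [Set.mem_singleton_iff.1 hy]; exact hTt.symm⟩
    obtain ⟨-, T01, T02, T10, T20⟩ := (mem_cent_iff h2).1 hTc
    obtain ⟨hgM, g01, g02, g10, g20⟩ := (mem_cent_iff h2).1 hg
    have hgt : g * t0 = t0 * g :=
      ((Subgroup.mem_centralizer_iff.1 (Subgroup.mem_inf.1 hg).2) t0 rfl).symm
    have hg' : T⁻¹ * g * T ∈ cent M' := by
      refine hmem _ ?_ ?_
      · rw [← hQ, mem_cnj, show Q⁻¹ * (T⁻¹ * g * T) * Q = R⁻¹ * g * R by rw [hT]; group]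
        exact mem_cnj.1 hgM
      · calc T⁻¹ * g * T * t0 = T⁻¹ * g * (T * t0) := by group
          _ = T⁻¹ * (g * t0) * T := by rw [hTt]; group
          _ = T⁻¹ * t0 * (g * T) := by rw [hgt]; group
          _ = t0 * (T⁻¹ * g * T) := by
            have h1 : T⁻¹ * t0 = t0 * T⁻¹ := Commute.inv_left (show Commute T t0 from hTt)
            rw [h1]; group
    obtain ⟨-, g'01, g'02, g'10, g'20⟩ := (mem_cent_iff h2).1 hg'
    have h6 := hD.corner ⟨_, hg'⟩
    have hT00 : T 0 0 ≠ 0 := by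
      intro h0
      refine T.det_ne_zero ?_
      rw [Matrix.det_fin_three, h0, T01, T02]
      ring
    have he : g * T = T * (T⁻¹ * g * T) := by group
    dsimp only at h6
    generalize T⁻¹ * g * T = g' at he h6 g'01 g'02 g'10 g'20
    have he0 := congrArg (fun x : GL3 => x 0 0) he
    simp [Matrix.mul_apply, Fin.sum_univ_three, g01, g02, T01, T02] at he0
    rw [show g 0 0 = g' 0 0 from mul_right_cancel₀ hT00 (by rw [he0, mul_comm])]
    exact h6

end CfsgLib.SLThree90
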