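import Cfsg.Agent.SLThree90.NoHom

/-!
The centraliser of an involution whose image in `PGL₂` is dihedral.
-/

set_option autoImplicit false

namespace CfsgLib.SLThree90

open Matrix
open scoped MatrixGroups commutatorElement

variable {L : Type*} [Field L] {p : ℕ} {M : Subgroup (GL (Fin 3) L)} {ω : Lˣ}

local notation "GL3" => GL (Fin 3) L
local notation "Mat3" => Matrix (Fin 3) (Fin 3) L
local notation "Mat2" => Matrix (Fin 2) (Fin 2) L

theorem cnj_cnj (P Q : GL3) (M : Subgroup GL3) : cnj P (cnj Q M) = cnj (P * Q) M := by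
  ext x
  simp [mem_cnj, mul_assoc]

theorem cnj_eq_self {g : GL3} (hg : g ∈ M) : cnj g M = M := by
  ext x
  rw [mem_cnj, M.mul_mem_cancel_right hg, M.mul_mem_cancel_left (M.inv_mem hg)]

theorem NoHom.cnj (h : NoHom M) (P : GL3) : NoHom (cnj P M) := fun Q g hg α β hv =>
  h (Q * P) g (cnj_cnj Q P M ▸ hg) α β hv

/-- Without homologies the kernel of the projection has trivial determinant. -/
theorem Local.det_ker (h : Local p M) (hno : NoHom M) {k : cent M} (hk : h.proj k = 1) :
    (h.blk k : Mat2).det = 1 := by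
  obtain ⟨k01, k10, k00⟩ := h.proj_eq_one.1 hk
  set l := (h.blk k : Mat2) 0 0 with hl
  obtain ⟨z01, z02, z10, z20⟩ := h.zeros k.2
  obtain ⟨z11, z12, z21, z22⟩ := h.blk_entries k
  rw [k01, mul_zero] at z12
  rw [k10, mul_zero] at z21
  rw [← k00] at z22
  set γ := (k : GL3) 0 0 with hγ
  have hkv : ((k : GL3) : Mat3) = diagonal ![γ, γ * l, γ * l] := by
    ext i j
    fin_cases i <;> fin_cases j <;> simp [z01, z02, z10, z20, z12, z21, z11, z22, ← hγ, ← hl]
  have h1 := hno 1 k (mem_cnj.2 (by simpa using cent_le M k.2)) γ (γ * l) hkv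
  have hl2 : l * l = 1 :=
    mul_left_cancel₀ (pow_ne_zero 2 (h.corner_ne_zero k.2)) (by linear_combination h1)
  rw [(h.proj_eq_one.1 hk).eq, ← hl, Matrix.det_smul, Fintype.card_fin, Matrix.det_one, mul_one,
    pow_two, hl2]

/-- An element of the kernel is scalar up to `diag(1, -1, -1)`. -/
theorem Local.ker_cases (h : Local p M) (hno : NoHom M) {c k : cent M} (hc : (c : GL3) = t0)
    (hk : h.proj k = 1) :
    ((k : GL3) 0 0) ^ 3 = 1 ∧
      (h.blk k = 1 ∨ h.blk (k * c) = 1) := by
  have hd := h.det_ker hno hk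
  have h3 := h.det_blk k
  rw [hd, inv_pow, eq_comm, inv_eq_one] at h3
  refine ⟨h3, ?_⟩
  have hs := (h.proj_eq_one.1 hk).eq
  rw [hs, Matrix.det_smul, Fintype.card_fin, Matrix.det_one, mul_one, pow_two] at hd
  rcases mul_self_eq_one_iff.1 hd with h1 | h1
  · exact Or.inl (Units.ext (by rw [hs, h1, one_smul, Units.val_one]))
  · refine Or.inr (Units.ext ?_)
    have hcb : (h.blk c : Mat2) = -1 := by
      rw [h.blk_val, blkMat, hc]
      ext i j
      fin_cases i <;> fin_cases j <;> simp [t0, t0Mat]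
    rw [map_mul, Units.val_mul, hs, h1, hcb, Units.val_one]
    simp

theorem Local.eq_sc3_of_blk (h : Local p M) {k : cent M} (hk : h.blk k = 1) :
    ∃ u : Lˣ, (k : GL3) = sc3 u ∧ u ^ 3 = 1 := by
  obtain ⟨hv, h3⟩ := h.scalar_of_blk_eq_one hk
  refine ⟨Units.mk0 _ (h.corner_ne_zero k.2), Units.ext (by rw [sc3_val]; exact hv), Units.ext ?_⟩
  simpa using h3

theorem Ambient.card_ker (ha : Ambient p ω M) (hno : NoHom M) (ht : t0 ∈ M) :
    Nat.card ha.proj.ker = 6 := by
  have hct : (t0 : GL3) ∈ cent M := Subgroup.mem_inf.2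
    ⟨ht, Subgroup.mem_centralizer_iff.2 fun x hx => by rw [Set.mem_singleton_iff.1 hx]⟩
  set c : cent M := ⟨t0, hct⟩ with hc
  have hws : sc3 ω ∈ cent M := Subgroup.mem_inf.2
    ⟨ha.scalar_mem, Subgroup.mem_centralizer_iff.2 fun x _ => (sc3_comm ω x).symm⟩
  set w : cent M := ⟨sc3 ω, hws⟩ with hw
  have hcb : (ha.blk c : Mat2) = -1 := by
    rw [ha.blk_val, blkMat]
    ext i j
    fin_cases i <;> fin_cases j <;> simp [hc, t0, t0Mat]
  have hwb : ha.blk w = 1 := by
    refine Units.ext ?_
    rw [ha.blk_val, blkMat, hw]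
    dsimp only
    rw [sc3_val]
    ext i j
    fin_cases i <;> fin_cases j <;> simp
  have hc0 : (c : GL3) 0 0 = 1 := by simp [hc, t0, t0Mat]
  have hw0 : (w : GL3) 0 0 = (ω : L) := by
    simp [hw, sc3_val]
  have hwk : ∀ i : ℕ, ha.blk (w ^ i) = 1 := fun i => by rw [map_pow, hwb, one_pow]
  have hwi : ∀ i : ℕ, ((w ^ i : cent M) : GL3) 0 0 = (ω : L) ^ i := fun i => by
    induction i with
    | zero => simp
    | succ i ih => rw [pow_succ, ha.corner_mul, ih, hw0, pow_succ]
  have hmem : ∀ (i : Fin 3) (e : Fin 2), w ^ (i : ℕ) * c ^ (e : ℕ) ∈ ha.proj.ker := by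
    intro i e
    rw [MonoidHom.mem_ker, ha.proj_eq_one, map_mul, hwk, one_mul, map_pow, Units.val_pow_eq_pow_val,
      hcb]
    fin_cases e <;> simp [IsScalarTwo]
  let f : Fin 3 × Fin 2 → ha.proj.ker := fun x => ⟨_, hmem x.1 x.2⟩
  have hf : Function.Bijective f := by
    constructor
    · rintro ⟨i, e⟩ ⟨i', e'⟩ he
      have h1 : w ^ (i : ℕ) * c ^ (e : ℕ) = w ^ (i' : ℕ) * c ^ (e' : ℕ) :=
        congrArg Subtype.val he
      have h2 := congrArg (fun g => (ha.blk g : Mat2) 0 0) h1
      simp only [map_mul, hwk, one_mul, map_pow, Units.val_pow_eq_pow_val, hcb] at h2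
      have he' : e = e' := by
        have hm : (-1 : L) ≠ 1 := fun h => ha.two_ne_zero (by linear_combination -h)
        fin_cases e <;> fin_cases e' <;> first | rfl | (exfalso; simp at h2; first | exact hm h2 | exact hm h2.symm)
      subst he'
      have h3 := congrArg (fun g : cent M => (g : GL3) 0 0) h1
      simp only [ha.corner_mul, hwi] at h3
      have h4 : (ω : L) ^ (i : ℕ) = (ω : L) ^ (i' : ℕ) :=
        mul_right_cancel₀ (ha.corner_ne_zero (c ^ (e : ℕ)).2) h3
      rw [Fin.val_injective.eq_iff.1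
        (ha.omega.pow_inj i.isLt i'.isLt (Units.ext (by simpa using h4)))]
    · rintro ⟨k, hk⟩
      have hk' : ha.proj k = 1 := hk
      obtain ⟨-, hk1 | hk1⟩ := ha.ker_cases hno (c := c) rfl hk'
      all_goals
        obtain ⟨u, hu, hu3⟩ := ha.eq_sc3_of_blk hk1
        obtain ⟨i, hi, hiu'⟩ := (IsPrimitiveRoot.coe_units_iff.2 ha.omega).eq_pow_of_pow_eq_one
          (show (u : L) ^ 3 = 1 by rw [← Units.val_pow_eq_pow_val, hu3, Units.val_one])
        have hiu : ω ^ i = u := Units.ext (by simpa using hiu')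
      · refine ⟨(⟨i, hi⟩, 0), Subtype.ext (Subtype.ext ?_)⟩
        simp [f, hw, hu, ← hiu]
      · refine ⟨(⟨i, hi⟩, 1), Subtype.ext (Subtype.ext ?_)⟩
        simp only [f, Fin.val_one, pow_one, Subgroup.coe_mul, Subgroup.coe_pow]
        change (sc3 ω : GL3) ^ i * t0 = (k : GL3)
        rw [← map_pow, hiu, ← hu, Subgroup.coe_mul]
        change (k : GL3) * t0 * t0 = _
        rw [mul_assoc, show (t0 : GL3) * t0 = 1 from Units.ext t0Mat_mul_self, mul_one]
  rw [← Nat.card_eq_of_bijective f hf]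
  simp

theorem Local.solvable_cent (h : Local p M) (hs : Group.IsSolvable h.proj.range) :
    Group.IsSolvable (cent M) :=
  haveI : Group.IsSolvable h.proj.ker :=
    Group.isSolvable_of_comm fun a b => Subtype.ext (h.kerProj_comm a.2)
  Group.isSolvable_of_ker_le_range h.proj.ker.subtype h.proj.rangeRestrict
    fun x hx => ⟨⟨x, congrArg Subtype.val hx⟩, rfl⟩

theorem Local.comm_of_proj_eq (h : Local p M) {y c u : cent M} (hk : h.proj (y * c⁻¹) = 1)
    (hyu : y * u = u * y) : c * u = u * c := by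
  have h3 : y * c⁻¹ * c = y := inv_mul_cancel_right y c
  refine mul_left_cancel (a := y * c⁻¹) ?_
  rw [← mul_assoc, h3, ← mul_assoc, h.kerProj_comm hk (g := u), mul_assoc u, h3]
  exact hyu

/-- Facts on a dihedral image with a rotation of determinant `-1`. -/
structure DihCent (h : Local p M) (n : ℕ) : Prop where
  four_dvd : 4 ∣ n
  three_not_dvd : ¬ 3 ∣ n
  card : Nat.card (cent M) = 12 * n
  corner : ∀ g : cent M, ((g : GL3) 0 0) ^ 6 = 1
  solvable : Group.IsSolvable (cent M)
  exists_invol : ∃ u : cent M, u * u = 1 ∧ (u : GL3) ≠ 1 ∧ (u : GL3) ≠ t0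
  conj : ∀ u v : cent M, u * u = 1 → (u : GL3) ≠ 1 → (u : GL3) ≠ t0 → v * v = 1 → (v : GL3) ≠ 1 →
    (v : GL3) ≠ t0 → ∃ g : cent M, g * u * g⁻¹ = v
  pair : ∀ u g : cent M, u * u = 1 → (u : GL3) ≠ 1 → (u : GL3) ≠ t0 → g * u = u * g →
    ∃ c : Lˣ, (g : GL3) = sc3 c ∨ (g : GL3) * t0 = sc3 c ∨ (g : GL3) * (u : GL3) = sc3 c ∨
      (g : GL3) * (t0 * (u : GL3)) = sc3 c
  card_stab : ∀ u : cent M, u * u = 1 → (u : GL3) ≠ 1 → (u : GL3) ≠ t0 →
    Nat.card ↥(Subgroup.centralizer ({u} : Set (cent M))) = 12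

theorem eq_of_invol_cyclic {H : Type*} [Group H] [Finite H] {R : Subgroup H} (hR : IsCyclic R)
    {x y : H} (hx : x ∈ R) (hy : y ∈ R) (hx2 : x * x = 1) (hy2 : y * y = 1) (hx1 : x ≠ 1)
    (hy1 : y ≠ 1) : x = y := by
  classical
  haveI := hR
  haveI := Fintype.ofFinite R
  by_contra hne
  have h := IsCyclic.card_pow_eq_one_le (α := R) (n := 2) (by norm_num)
  have hsub : ({1, ⟨x, hx⟩, ⟨y, hy⟩} : Finset R) ⊆
      Finset.univ.filter fun a : R => a ^ 2 = 1 := by
    intro a ha
    simp only [Finset.mem_insert, Finset.mem_singleton] at ha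
    rcases ha with rfl | rfl | rfl
    · simp
    · simp [pow_two, Subtype.ext_iff, hx2]
    · simp [pow_two, Subtype.ext_iff, hy2]
  have h1 := (Finset.card_le_card hsub).trans h
  rw [Finset.card_insert_of_notMem (by simp [Subtype.ext_iff, Ne.symm hx1, Ne.symm hy1]),
    Finset.card_pair (fun e => hne (congrArg Subtype.val e))] at h1
  omega

/-- Isolated involution, or the dihedral data. -/
theorem Ambient.dihCent_or_isolated [IsAlgClosed L] (ha : Ambient p ω M) (hno : NoHom M)
    {a b : cent M} (hab : (ha.blk a : Mat2) * ha.blk b = -((ha.blk b : Mat2) * ha.blk a))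
    (ha2 : (ha.blk a : Mat2) * ha.blk a = -1) (hb2 : (ha.blk b : Mat2) * ha.blk b = -1) :
    HasIsolated M ∨ ∃ n, DihCent ha.toLocal n := by
  obtain ⟨ht, c0, hc0, hc0b⟩ := ha.t0_mem hab
  have h2 := ha.two_ne_zero
  haveI := ha.finite_range
  haveI := ha.finite_cent
  have hnsc : ∀ u v : cent M, (ha.blk u : Mat2) * ha.blk v = -((ha.blk v : Mat2) * ha.blk u) →
      ¬ Commute (ha.blk u) (ha.blk v) := by
    intro u v he hc
    have := congrArg (Units.val (α := Mat2)) hc.eq
    simp only [Units.val_mul] at this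
    rw [this] at he
    have h0 : (2 : L) • ((ha.blk v : Mat2) * ha.blk u) = 0 := by
      rw [two_smul]; exact add_eq_zero_iff_eq_neg.2 he
    rw [← Units.val_mul] at h0
    exact (ha.blk v * ha.blk u).ne_zero ((smul_eq_zero.1 h0).resolve_left h2)
  have hdet1 : ∀ u v : cent M, (ha.blk u : Mat2) * ha.blk v = -((ha.blk v : Mat2) * ha.blk u) →
      (ha.blk u : Mat2) * ha.blk u = -1 → (ha.blk u : Mat2).det = 1 := by
    intro u v he hu
    have h1 := sq_of_trace_zero (trace_zero_of_anti h2 he)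
    rw [hu] at h1
    have := congrFun (congrFun h1 0) 0
    simp at this
    linear_combination -this
  rcases ha.classify with hc | ⟨n, R, hR⟩ | hA | hbad
  · exact absurd (by rw [Commute, SemiconjBy, ← map_mul, ← map_mul, hc a b]) (hnsc a b hab)
  rotate_left
  · left
    refine ha.hasIsolated_of_det ht hA.solvable fun u hu => ?_
    rcases hA.exp ⟨ha.proj u, u, rfl⟩ with e | e
    · obtain ⟨⟨_, a, rfl⟩, ⟨_, b, rfl⟩, hab⟩ := hA.invol _ e
      have hab' : ha.proj ⁅a, b⁆ = ha.proj u := by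
        have := congrArg Subtype.val hab
        simpa [commutatorElement_def] using this
      have h1 := ha.det_ker hno (k := ⁅a, b⁆⁻¹ * u)
        (by rw [map_mul, map_inv, hab', inv_mul_cancel])
      rw [map_mul, Units.val_mul, Matrix.det_mul, hu, map_inv, Matrix.coe_units_inv,
        Matrix.det_nonsing_inv, Ring.inverse_eq_inv', ha.det_blk, ha.corner_comm] at h1
      simp at h1
      exact h2 (by linear_combination -h1)
    · have h1 := ha.det_ker hno (k := u ^ 3) (by simpa [Subtype.ext_iff] using e)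
      rw [map_pow, Units.val_pow_eq_pow_val, Matrix.det_pow, hu] at h1
      exact h2 (by linear_combination -h1)
  · exact absurd hbad ha.not_bad
  -- the dihedral case
  set π : cent M →* ha.proj.range := ha.proj.rangeRestrict with hπ
  have hπs : ∀ y, ∃ g, π g = y := ha.proj.rangeRestrict_surjective
  have hπ1 : ∀ g, π g = 1 ↔ ha.proj g = 1 := fun g => by rw [Subtype.ext_iff]; rfl
  set δ : cent M → L := fun g => (ha.blk g : Mat2).det with hδ
  have hδm : ∀ g g', δ (g * g') = δ g * δ g' := fun g g' => by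
    simp [hδ, Matrix.det_mul]
  have hδk : ∀ g g', π g = π g' → δ g = δ g' := by
    intro g g' he
    have h1 : δ (g * g'⁻¹) = 1 :=
      ha.det_ker hno ((hπ1 _).1 (by rw [map_mul, map_inv, he, mul_inv_cancel]))
    rw [← inv_mul_cancel_right g g', hδm, h1, one_mul]
  have hrot : ∀ x y, x ∈ R → y ∈ R → x * y = y * x := by
    intro x y hx hy
    obtain ⟨g0, hg0⟩ := hR.cyclic
    obtain ⟨i, hi⟩ := hg0 ⟨x, hx⟩
    obtain ⟨j, hj⟩ := hg0 ⟨y, hy⟩
    have h1 : g0 ^ i * g0 ^ j = g0 ^ j * g0 ^ i := zpow_mul_comm _ _ _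
    simp only at hi hj
    rw [hi, hj] at h1
    exact congrArg Subtype.val h1
  have hiff := fun x y => Subgroup.mul_mem_iff_of_index_two hR.index (a := x) (b := y)
  have hsolv : Group.IsSolvable ha.proj.range := by
    refine solvable_of_commutators_commute fun x y z w => hrot _ _ ?_ ?_ <;>
    · simp only [commutatorElement_def, hiff, inv_mem_iff]
      tauto
  by_cases hdet : ∀ u : cent M, (ha.blk u : Mat2).det ≠ -1
  · exact Or.inl (ha.hasIsolated_of_det ht hsolv hdet)
  push Not at hdet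
  obtain ⟨u0, hu0⟩ := hdet
  have hanti_ne : ∀ u v : cent M, (ha.blk u : Mat2) * ha.blk v = -((ha.blk v : Mat2) * ha.blk u) →
      π u ≠ 1 := by
    intro u v he h1
    refine hnsc u v he (Units.ext ?_)
    rw [Units.val_mul, Units.val_mul, (ha.proj_eq_one.1 ((hπ1 u).1 h1)).eq, mul_smul_comm,
      smul_mul_assoc, mul_one, one_mul]
  have hπsq : ∀ u : cent M, (ha.blk u : Mat2) * ha.blk u = -1 → π u * π u = 1 := by
    intro u hu
    rw [← map_mul, hπ1, ha.proj_eq_one, map_mul, Units.val_mul, hu]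
    simp [IsScalarTwo]
  obtain ⟨c, d, hcd, hcR, hdR, hcsq, hdd, hdc⟩ :
      ∃ c d : cent M, (ha.blk c : Mat2) * ha.blk d = -((ha.blk d : Mat2) * ha.blk c) ∧
        π c ∈ R ∧ π d ∉ R ∧ π c * π c = 1 ∧ δ d = 1 ∧ δ c = 1 := by
    have hba : (ha.blk b : Mat2) * ha.blk a = -((ha.blk a : Mat2) * ha.blk b) := by
      rw [hab, neg_neg]
    by_cases haR : π a ∈ R
    · refine ⟨a, b, hab, haR, fun hbR => ?_, hπsq a ha2, hdet1 b a hba hb2, hdet1 a b hab ha2⟩
      have he := eq_of_invol_cyclic hR.cyclic haR hbR (hπsq a ha2) (hπsq b hb2)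
        (hanti_ne a b hab) (hanti_ne b a hba)
      have hkk : ha.proj (a⁻¹ * b) = 1 := (hπ1 _).1 (by rw [map_mul, map_inv, he, inv_mul_cancel])
      refine hnsc a b hab (Commute.map ?_ ha.blk)
      rw [show b = a * (a⁻¹ * b) by rw [mul_inv_cancel_left]]
      exact (Commute.refl a).mul_right (show Commute (a⁻¹ * b) a from ha.kerProj_comm hkk).symm
    · by_cases hbR : π b ∈ R
      · exact ⟨b, a, hba, hbR, haR, hπsq b hb2, hdet1 a b hab ha2, hdet1 b a hba hb2⟩
      · have he : (ha.blk (a * b) : Mat2) * ha.blk a = -((ha.blk a : Mat2) * ha.blk (a * b)) := by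
          rw [map_mul, Units.val_mul, mul_assoc, hba, mul_neg]
        refine ⟨a * b, a, he, ?_, haR, ?_, hdet1 a b hab ha2, ?_⟩
        · rw [map_mul, hiff]; tauto
        · refine hπsq _ ?_
          rw [map_mul, Units.val_mul, mul_assoc, ← mul_assoc (ha.blk b : Mat2), hba, neg_mul,
            mul_neg, mul_assoc, hb2, mul_neg, mul_one, mul_neg, neg_neg, ha2]
        · rw [hδm, show δ a = 1 from hdet1 a b hab ha2, show δ b = 1 from hdet1 b a hba hb2, one_mul]
  have hc1 : π c ≠ 1 := hanti_ne c d hcd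
  have hdsq : π d * π d = 1 := hR.sq _ hdR
  obtain ⟨g0, hg0⟩ := hR.cyclic
  obtain ⟨r, hr⟩ := hπs (g0 : ha.proj.range)
  have hgen : ∀ y ∈ R, ∃ i : ℕ, π (r ^ i) = y := by
    intro y hy
    haveI : Finite R := inferInstance
    obtain ⟨i, hi⟩ := mem_powers_iff_mem_zpowers.2 (hg0 ⟨y, hy⟩)
    refine ⟨i, ?_⟩
    rw [map_pow, hr, ← Subgroup.coe_pow, show g0 ^ i = ⟨y, hy⟩ from hi]
  have hrR : π r ∈ R := hr ▸ g0.2
  have hord : orderOf (π r) = n := by
    rw [hr, Subgroup.orderOf_coe, orderOf_eq_card_of_forall_mem_zpowers hg0, hR.card_R]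
  have hpm : ∀ g, δ g = 1 ∨ δ g = -1 := by
    have hout : ∀ g, π g ∉ R → δ g = 1 ∨ δ g = -1 := by
      intro g hg
      have hgg : ha.proj (g * g) = 1 := (hπ1 _).1 (by rw [map_mul, hR.sq _ hg])
      have hns : ¬ IsScalarTwo (ha.blk g : Mat2) := fun hs =>
        hg (by rw [(hπ1 g).2 (ha.proj_eq_one.2 hs)]; exact R.one_mem)
      have hsc := (ha.proj_eq_one.1 hgg).eq
      rw [map_mul, Units.val_mul] at hsc
      have h1 := sq_of_trace_zero (trace_zero_of_sq hns hsc)
      have h2' := ha.det_ker hno hgg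
      rw [map_mul, Units.val_mul, h1, Matrix.det_smul, Fintype.card_fin, Matrix.det_one, mul_one,
        pow_two, neg_mul_neg] at h2'
      exact mul_self_eq_one_iff.1 h2'
    intro g
    by_cases hg : π g ∈ R
    · have h1 := hout (g * d) (by rw [map_mul, hiff]; tauto)
      rwa [hδm, hdd, mul_one] at h1
    · exact hout g hg
  have hrd : δ r = -1 := by
    refine (hpm r).resolve_left fun h1 => ?_
    have hall : ∀ g, δ g = 1 := by
      have hinR : ∀ g, π g ∈ R → δ g = 1 := by
        intro g hg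
        obtain ⟨i, hi⟩ := hgen _ hg
        rw [← hδk _ _ hi, show δ (r ^ i) = δ r ^ i by simp [hδ, Matrix.det_pow], h1, one_pow]
      intro g
      by_cases hg : π g ∈ R
      · exact hinR g hg
      · have h3 := hinR (g * d) (by rw [map_mul, hiff]; tauto)
        rwa [hδm, hdd, mul_one] at h3
    exact h2 (by linear_combination (hu0.symm.trans (hall u0)).symm)
  have hrp : ∀ i : ℕ, δ (r ^ i) = (-1) ^ i := fun i => by
    simp only [hδ] at hrd ⊢
    rw [map_pow, Units.val_pow_eq_pow_val, Matrix.det_pow, hrd]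
  have hm1 : (-1 : L) ≠ 1 := fun h => h2 (by linear_combination -h)
  have hcen : ∀ y, π c * y = y * π c := by
    intro y
    by_cases hy : y ∈ R
    · exact hrot _ _ hcR hy
    · have := hR.inv _ hy _ hcR
      rw [inv_eq_of_mul_eq_one_right hcsq, mul_inv_eq_iff_eq_mul] at this
      exact this.symm
  have hn2 : 2 ∣ n := by
    have h1 : orderOf (π c) = 2 := orderOf_eq_prime (by rw [pow_two, hcsq]) hc1
    obtain ⟨i, hi⟩ := hgen _ hcR
    rw [← h1, ← hord, ← hi, map_pow]
    exact orderOf_pow_dvd i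
  have hn0 : n ≠ 0 := by have := hR.two_le; omega
  obtain ⟨m, hm⟩ := hn2
  have hhalf : π (r ^ m) = π c := by
    refine eq_of_invol_cyclic hR.cyclic ?_ hcR ?_ hcsq ?_ hc1
    · rw [map_pow]; exact R.pow_mem hrR m
    · rw [map_pow, ← pow_add, ← two_mul, ← hm, ← hord, pow_orderOf_eq_one]
    · rw [map_pow]
      exact pow_ne_one_of_lt_orderOf (by omega) (by omega)
  have hmev : Even m := by
    have h1 := hδk _ _ hhalf
    rw [hrp, hdc] at h1
    rcases Nat.even_or_odd m with he | ho
    · exact he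
    · rw [ho.neg_one_pow] at h1
      exact absurd h1 hm1
  have hfour : 4 ∣ n := by
    obtain ⟨j, hj⟩ := hmev
    exact ⟨j, by omega⟩
  have hRinvol : ∀ g, π g ∈ R → π g * π g = 1 → π g = 1 ∨ π g = π c := by
    intro g hg hg2
    by_cases h1 : π g = 1
    · exact Or.inl h1
    · exact Or.inr (eq_of_invol_cyclic hR.cyclic hg hcR hg2 hcsq h1 hc1)
  have hthree : ¬ 3 ∣ n := by
    rintro ⟨q, hq⟩
    set w := r ^ q with hw
    have hwR : π w ∈ R := by rw [hw, map_pow]; exact R.pow_mem hrR q
    have hw3 : π w ^ 3 = 1 := by rw [hw, map_pow, ← pow_mul, mul_comm, ← hq, ← hord, pow_orderOf_eq_one]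
    have hw1 : π w ≠ 1 := by
      rw [hw, map_pow]
      exact pow_ne_one_of_lt_orderOf (by omega) (by omega)
    have hdi : (π d)⁻¹ = π d := inv_eq_of_mul_eq_one_right hdsq
    have hz : π ⁅d, w⁆ = π w := by
      rw [map_commutatorElement, commutatorElement_def, hR.inv _ hdR _ hwR, ← _root_.mul_inv_rev,
        inv_eq_iff_mul_eq_one, ← pow_two, ← pow_succ, hw3]
    obtain ⟨r', hr'2, hr'0, hr'1, hr'c⟩ := ha.exists_commuting_invol ht (a := d) (b := w)
      (fun h1 => hw1 (hz ▸ (hπ1 _).2 h1))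
      (by rw [← map_pow]; exact (hπ1 _).1 (by rw [map_pow, hz, hw3]))
    have hr'd : δ r' = -1 := by
      simp only [hδ]
      rw [ha.det_blk, hr'0]
      norm_num
    have hsq' : π r' * π r' = 1 := by rw [← map_mul, hr'2, map_one]
    have hcomm : π r' * π w = π w * π r' := by
      rw [← hz]; exact Subtype.ext hr'c
    by_cases hin : π r' ∈ R
    · rcases hRinvol r' hin hsq' with h1 | h1
      · exact hr'1 ((hπ1 r').1 h1)
      · have := hδk _ _ h1
        rw [hr'd, hdc] at this
        exact hm1 this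
    · have h1 := hR.inv _ hin _ hwR
      rw [hcomm, mul_inv_cancel_right, eq_inv_iff_mul_eq_one] at h1
      refine hw1 ?_
      calc π w = π w ^ 3 * (π w * π w)⁻¹ := by group
        _ = 1 := by rw [hw3, h1, inv_one, mul_one]
  have hrange : Nat.card ha.proj.range = 2 * n := by
    rw [← R.card_mul_index, hR.card_R, hR.index, mul_comm]
  have hcard : Nat.card (cent M) = 12 * n := by
    rw [← Subgroup.card_mul_index ha.proj.ker, Subgroup.index_ker, ha.card_ker hno ht, hrange]
    ring
  have hcorner : ∀ g : cent M, ((g : GL3) 0 0) ^ 6 = 1 := by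
    intro g
    have h1 := ha.det_blk g
    have h3 : (((g : GL3) 0 0)⁻¹) ^ 3 * (((g : GL3) 0 0)⁻¹) ^ 3 = 1 := by
      rw [← h1]
      rcases hpm g with h | h <;> simp only [hδ] at h <;> rw [h] <;> ring
    rw [← inv_eq_one, ← inv_pow]
    linear_combination h3
  have hinv : ∀ u : cent M, u * u = 1 → (u : GL3) ≠ 1 → (u : GL3) ≠ t0 →
      δ u = -1 ∧ π u ∉ R ∧ (u : GL3) 0 0 = -1 := by
    intro u hu h1 ht'
    have hB : (ha.blk u : Mat2) * ha.blk u = 1 := by
      rw [← Units.val_mul, ← map_mul, hu, map_one, Units.val_one]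
    have h00 : (u : GL3) 0 0 * (u : GL3) 0 0 = 1 := by
      rw [← ha.corner_mul, hu]; simp
    have hns : π u ≠ 1 := by
      intro hp
      obtain ⟨h3, hk⟩ := ha.ker_cases hno (c := c0) hc0 ((hπ1 u).1 hp)
      have hu0 : (u : GL3) 0 0 = 1 := by linear_combination h3 - (u : GL3) 0 0 * h00
      rcases hk with hk | hk
      · exact h1 (congrArg Subtype.val
          (ha.ext_cent (a := u) (b := 1) (by simpa using hu0) (by rw [hk, map_one])))
      · have he : u * c0 = 1 := ha.ext_cent (by rw [ha.corner_mul, hu0, hc0]; simp [t0, t0Mat])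
          (by rw [hk, map_one])
        have he' : (u : GL3) * t0 = 1 := by rw [← hc0]; exact congrArg Subtype.val he
        exact ht' (by rw [eq_inv_of_mul_eq_one_left he']; rfl)
    have hnsc' : ¬ IsScalarTwo (ha.blk u : Mat2) := fun hs => hns ((hπ1 u).2 (ha.proj_eq_one.2 hs))
    have hsq := sq_of_trace_zero (trace_zero_of_sq hnsc' (c := 1) (by rw [hB, one_smul]))
    rw [hB] at hsq
    have hd : δ u = -1 := by
      have := congrFun (congrFun hsq 0) 0
      simp at this
      simp only [hδ]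
      linear_combination this
    refine ⟨hd, fun hin => ?_, ?_⟩
    · rcases hRinvol u hin (by rw [← map_mul, hu, map_one]) with h | h
      · exact hns h
      · have := hδk _ _ h
        rw [hd, hdc] at this
        exact hm1 this
    · simp only [hδ] at hd
      rw [ha.det_blk, inv_pow, inv_eq_iff_eq_inv, inv_neg, inv_one] at hd
      linear_combination hd - (u : GL3) 0 0 * h00
  have hanti : ∀ u : cent M, π u ∉ R →
      (ha.blk c : Mat2) * ha.blk u = -((ha.blk u : Mat2) * ha.blk c) := by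
    intro u hu
    refine ha.anti_of_invols ?_ ?_ (fun h => hc1 ((hπ1 c).2 h))
      (fun h => hu (by rw [(hπ1 u).2 h]; exact R.one_mem)) (fun h => hu ?_) ?_
    · rw [← map_pow, ← hπ1, map_pow, pow_two, hcsq]
    · rw [← map_pow, ← hπ1, map_pow, pow_two, hR.sq _ hu]
    · rw [show π u = π c from Subtype.ext h.symm]; exact hcR
    · exact congrArg Subtype.val (hcen (π u))
  refine Or.inr ⟨n, hfour, hthree, hcard, hcorner, ha.solvable_cent hsolv, ?_, ?_, ?_, ?_⟩
  · -- existence of a second involution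
    set e := r * d with he
    have heR : π e ∉ R := by rw [he, map_mul, hiff]; tauto
    have hed : δ e = -1 := by rw [he, hδm, hrd, hdd, mul_one]
    have hens : ¬ IsScalarTwo (ha.blk e : Mat2) := fun hs =>
      heR (by rw [(hπ1 e).2 (ha.proj_eq_one.2 hs)]; exact R.one_mem)
    have hee : ha.proj (e * e) = 1 := (hπ1 _).1 (by rw [map_mul, hR.sq _ heR])
    have hsc := (ha.proj_eq_one.1 hee).eq
    rw [map_mul, Units.val_mul] at hsc
    have hB := sq_of_trace_zero (trace_zero_of_sq hens hsc)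
    simp only [hδ] at hed
    rw [hed, neg_neg, one_smul] at hB
    have he3 : ((e : GL3) 0 0) ^ 3 = -1 := by
      rw [ha.det_blk, inv_pow, inv_eq_iff_eq_inv, inv_neg, inv_one] at hed
      exact hed
    have hB3 : (ha.blk (e ^ 3) : Mat2) = ha.blk e := by
      rw [map_pow, Units.val_pow_eq_pow_val, pow_succ, pow_two, hB, one_mul]
    have h00 : ((e ^ 3 : cent M) : GL3) 0 0 = -1 := by
      rw [pow_succ, pow_two, ha.corner_mul, ha.corner_mul, ← he3]; ring
    refine ⟨e ^ 3, ha.ext_cent (by rw [ha.corner_mul, h00]; simp) ?_, fun h => ?_, fun h => ?_⟩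
    · refine Units.ext ?_
      rw [map_mul, Units.val_mul, hB3, hB, map_one, Units.val_one]
    · rw [h] at h00; simp at h00; exact hm1 h00.symm
    · rw [h] at h00; simp [t0, t0Mat] at h00; exact hm1 h00.symm
  · -- conjugacy
    intro u v hu hu1 hut hv hv1 hvt
    obtain ⟨hud, huR, hu0'⟩ := hinv u hu hu1 hut
    obtain ⟨hvd, hvR, hv0'⟩ := hinv v hv hv1 hvt
    obtain ⟨j, hj⟩ := hgen (π v * π u) (by rw [hiff]; tauto)
    have hje : Even j := by
      have h1 := hδk (r ^ j) (v * u) (by rw [hj, map_mul])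
      rw [hrp, hδm, hud, hvd, neg_mul_neg, one_mul] at h1
      rcases Nat.even_or_odd j with he | ho
      · exact he
      · rw [ho.neg_one_pow] at h1; exact absurd h1 hm1
    obtain ⟨i, hi⟩ := hje
    set w := r ^ i * u * (r ^ i)⁻¹ with hw
    have hwπ : π w = π v := by
      have h1 := hR.inv _ huR _ (show (π r ^ i)⁻¹ ∈ R from R.inv_mem (R.pow_mem hrR i))
      rw [inv_inv, mul_inv_eq_iff_eq_mul] at h1
      rw [hw, map_mul, map_mul, map_inv, map_pow, mul_assoc, h1, ← mul_assoc, ← pow_add, ← hi,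
        ← map_pow, hj, mul_assoc, ← map_mul, hu, map_one, mul_one]
    have hwd : (w : GL3) 0 0 = -1 := by
      have h1 : w * r ^ i = r ^ i * u := by rw [hw, inv_mul_cancel_right]
      have h3 := ha.corner_mul w (r ^ i)
      rw [h1, ha.corner_mul, hu0'] at h3
      exact mul_right_cancel₀ (ha.corner_ne_zero (r ^ i).2) (by linear_combination -h3)
    obtain ⟨-, hk⟩ := ha.ker_cases hno (c := c0) hc0 (k := v * w⁻¹)
      ((hπ1 _).1 (by rw [map_mul, map_inv, hwπ, mul_inv_cancel]))
    have hk0 : ((v * w⁻¹ : cent M) : GL3) 0 0 = 1 := by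
      have h3 := ha.corner_mul (v * w⁻¹) w
      rw [inv_mul_cancel_right, hwd, hv0'] at h3
      linear_combination h3
    rcases hk with hk | hk
    · exact ⟨r ^ i, (mul_inv_eq_one.1 (ha.ext_cent (a := v * w⁻¹) (b := 1) (by simpa using hk0)
        (by rw [hk, map_one]))).symm⟩
    · refine ⟨c * r ^ i, ?_⟩
      rw [_root_.mul_inv_rev, show c * r ^ i * u * ((r ^ i)⁻¹ * c⁻¹) = c * w * c⁻¹ by rw [hw]; group]
      have hwR : π w ∉ R := hwπ ▸ hvR
      refine ha.ext_cent ?_ (Units.ext ?_)
      · have h3 := ha.corner_mul (c * w * c⁻¹) c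
        rw [inv_mul_cancel_right, ha.corner_mul, hwd] at h3
        rw [hv0']
        exact mul_right_cancel₀ (ha.corner_ne_zero c.2) (by linear_combination -h3)
      · have hk' := congrArg (Units.val (α := Mat2)) hk
        rw [map_mul, Units.val_mul, hc0b, Units.val_one, mul_neg, mul_one, map_mul,
          Units.val_mul] at hk'
        have hk'' : (ha.blk v : Mat2) = -(ha.blk w : Mat2) := by
          have h4 := congrArg (· * (ha.blk w : Mat2)) hk'
          simp only [neg_mul, one_mul] at h4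
          rw [mul_assoc, ← Units.val_mul, map_inv, inv_mul_cancel, Units.val_one, mul_one] at h4
          rw [← h4, neg_neg]
        rw [map_mul, map_mul, Units.val_mul, Units.val_mul, hanti w hwR, hk'', neg_mul, mul_assoc,
          ← Units.val_mul, ← map_mul, mul_inv_cancel, map_one, Units.val_one, mul_one]
  · -- pair
    intro u g hu hu1 hut hgu
    obtain ⟨hud, huR, -⟩ := hinv u hu hu1 hut
    have key : ∀ y : cent M, π y ∈ R → y * u = u * y → ha.proj y = 1 := by
      intro y hy hyu
      have h1 := hR.inv _ huR _ hy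
      rw [← map_mul, ← hyu, map_mul, mul_inv_cancel_right, eq_inv_iff_mul_eq_one] at h1
      rcases hRinvol y hy h1 with h | h
      · exact (hπ1 y).1 h
      · exfalso
        have hk : ha.proj (y * c⁻¹) = 1 := (hπ1 _).1 (by rw [map_mul, map_inv, h, mul_inv_cancel])
        have hcu : c * u = u * c := ha.comm_of_proj_eq hk hyu
        exact hnsc c u (hanti u huR) (Commute.map hcu ha.blk)
    have hmain : ha.proj g = 1 ∨ ha.proj (g * u) = 1 := by
      by_cases hg : π g ∈ R
      · exact Or.inl (key g hg hgu)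
      · refine Or.inr (key (g * u) (by rw [map_mul, hiff]; tauto) ?_)
        rw [mul_assoc, hu, mul_one, ← mul_assoc, ← hgu, mul_assoc, hu, mul_one]
    have hut0 : (t0 : GL3) * (u : GL3) = (u : GL3) * t0 :=
      (Subgroup.mem_centralizer_iff.1 (Subgroup.mem_inf.1 u.2).2 t0 rfl)
    rcases hmain with h | h <;> obtain ⟨-, hk⟩ := ha.ker_cases hno (c := c0) hc0 h <;>
      rcases hk with hk | hk <;> obtain ⟨x, hx, -⟩ := ha.eq_sc3_of_blk hk <;> refine ⟨x, ?_⟩
    · exact Or.inl hx
    · refine Or.inr (Or.inl ?_)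
      rwa [Subgroup.coe_mul, hc0] at hx
    · exact Or.inr (Or.inr (Or.inl (by rwa [Subgroup.coe_mul] at hx)))
    · refine Or.inr (Or.inr (Or.inr ?_))
      rw [Subgroup.coe_mul, Subgroup.coe_mul, hc0] at hx
      rw [hut0, ← mul_assoc, hx]
  · -- stabiliser
    intro u hu hu1 hut
    obtain ⟨hud, huR, -⟩ := hinv u hu hu1 hut
    have hu' : ha.proj u ≠ 1 := fun h => huR (by rw [(hπ1 u).2 h]; exact R.one_mem)
    have hcom : ∀ k : ha.proj.ker, ∀ e : Fin 2,
        (k : cent M) * u ^ (e : ℕ) ∈ Subgroup.centralizer ({u} : Set (cent M)) := fun k e => by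
      rw [Subgroup.mem_centralizer_singleton_iff]
      exact Commute.mul_left (ha.kerProj_comm k.2) ((Commute.refl u).pow_left _)
    let f : ha.proj.ker × Fin 2 → Subgroup.centralizer ({u} : Set (cent M)) :=
      fun x => ⟨_, hcom x.1 x.2⟩
    have hf : Function.Bijective f := by
      constructor
      · rintro ⟨k, e⟩ ⟨k', e'⟩ he
        have h1 : (k : cent M) * u ^ (e : ℕ) = (k' : cent M) * u ^ (e' : ℕ) :=
          congrArg Subtype.val he
        have h3 := congrArg ha.proj h1
        rw [map_mul, map_mul, map_pow, map_pow, show ha.proj k = 1 from k.2,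
          show ha.proj k' = 1 from k'.2, one_mul, one_mul] at h3
        have he' : e = e' := by
          fin_cases e <;> fin_cases e' <;> first | rfl | (exfalso; simp at h3; first | exact hu' h3 | exact hu' h3.symm)
        subst he'
        rw [show k = k' from Subtype.ext (mul_right_cancel h1)]
      · rintro ⟨g, hg⟩
        rw [Subgroup.mem_centralizer_singleton_iff] at hg
        by_cases hgR : π g ∈ R
        · have h1 := hR.inv _ huR _ hgR
          rw [← map_mul, ← hg, map_mul, mul_inv_cancel_right, eq_inv_iff_mul_eq_one] at h1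
          rcases hRinvol g hgR h1 with h | h
          · exact ⟨(⟨g, (hπ1 g).1 h⟩, 0), Subtype.ext (by simp [f])⟩
          · exfalso
            have hk : ha.proj (g * c⁻¹) = 1 := (hπ1 _).1 (by rw [map_mul, map_inv, h, mul_inv_cancel])
            have hcu : c * u = u * c := ha.comm_of_proj_eq hk hg
            exact hnsc c u (hanti u huR) (Commute.map hcu ha.blk)
        · have hgu : π (g * u) ∈ R := by rw [map_mul, hiff]; tauto
          have hy : g * u * u = u * (g * u) := by
            rw [mul_assoc, hu, mul_one, ← mul_assoc, ← hg, mul_assoc, hu, mul_one]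
          have h1 := hR.inv _ huR _ hgu
          rw [← map_mul, ← hy, map_mul _ (g * u), mul_inv_cancel_right, eq_inv_iff_mul_eq_one] at h1
          rcases hRinvol (g * u) hgu h1 with h | h
          · refine ⟨(⟨g * u, (hπ1 _).1 h⟩, 1), Subtype.ext ?_⟩
            simp [f, mul_assoc, hu]
          · exfalso
            have hk : ha.proj (g * u * c⁻¹) = 1 :=
              (hπ1 _).1 (by rw [map_mul, map_inv, h, mul_inv_cancel])
            have hcu : c * u = u * c := ha.comm_of_proj_eq hk hy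
            exact hnsc c u (hanti u huR) (Commute.map hcu ha.blk)
    rw [← Nat.card_eq_of_bijective f hf, Nat.card_prod, ha.card_ker hno ht]
    simp

end CfsgLib.SLThree90
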