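import Cfsg.Agent.SLThree90.Basic

/-!
Unipotent and semisimple elements of a finite subgroup of `SL₃` without transvections, and the
transport of such a subgroup by conjugation.
-/

set_option autoImplicit false

namespace CfsgLib.SLThree90

open Matrix

variable {L : Type*} [Field L]

local notation "GL3" => GL (Fin 3) L
local notation "Mat3" => Matrix (Fin 3) (Fin 3) L

theorem sc3_val (c : Lˣ) : ((sc3 c : GL3) : Mat3) = (c : L) • 1 :=
  (Matrix.smul_one_eq_diagonal _).symm

theorem sc3_comm (c : Lˣ) (g : GL3) : sc3 c * g = g * sc3 c := by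
  refine Units.ext ?_
  rw [Units.val_mul, Units.val_mul, sc3_val, smul_mul_assoc, one_mul, mul_smul_comm, mul_one]

theorem det_sc3 (c : Lˣ) : ((sc3 c : GL3) : Mat3).det = (c : L) ^ 3 := by
  rw [sc3_val, Matrix.det_smul, Matrix.det_one, mul_one, Fintype.card_fin]

/-- Conjugate subgroup. -/
def cnj (P : GL3) (M : Subgroup GL3) : Subgroup GL3 :=
  M.map (MulAut.conj P).toMonoidHom

theorem mem_cnj {P g : GL3} {M : Subgroup GL3} : g ∈ cnj P M ↔ P⁻¹ * g * P ∈ M := by
  constructor
  · rintro ⟨x, hx, rfl⟩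
    simpa [mul_assoc] using hx
  · intro h
    exact ⟨_, h, by simp [mul_assoc]⟩

theorem conj_mem_cnj {P g : GL3} {M : Subgroup GL3} (h : g ∈ M) : P * g * P⁻¹ ∈ cnj P M :=
  ⟨g, h, rfl⟩

theorem IsTransv.conj {g : GL3} (h : IsTransv g) (P : GL3) : IsTransv (P * g * P⁻¹) := by
  obtain ⟨v, φ, hv, hφ, hφv, hg⟩ := h
  have hPi : ((P⁻¹ : GL3) : Mat3) * (P : Mat3) = 1 := by
    rw [← Units.val_mul, inv_mul_cancel, Units.val_one]
  have hPP : (P : Mat3) * ((P⁻¹ : GL3) : Mat3) = 1 := by
    rw [← Units.val_mul, mul_inv_cancel, Units.val_one]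
  refine ⟨(P : Mat3) *ᵥ v, φ ᵥ* ((P⁻¹ : GL3) : Mat3), ?_, ?_, ?_, ?_⟩
  · intro h0
    exact hv (by simpa [hPi] using congrArg (((P⁻¹ : GL3) : Mat3) *ᵥ ·) h0)
  · intro h0
    exact hφ (by simpa [hPi] using congrArg (· ᵥ* (P : Mat3)) h0)
  · rw [← Matrix.dotProduct_mulVec, Matrix.mulVec_mulVec, hPi, Matrix.one_mulVec]
    exact hφv
  · rw [Units.val_mul, Units.val_mul, hg, mul_add, mul_one, add_mul, hPP, Matrix.mul_vecMulVec,
      Matrix.vecMulVec_mul]

theorem Local.cnj {p : ℕ} {M : Subgroup GL3} (h : Local p M) (P : GL3) :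
    Local p (cnj P M) := by
  have e := M.equivMapOfInjective (MulAut.conj P).toMonoidHom (MulAut.conj P).injective
  haveI := h.finite
  refine ⟨h.p_prime, h.seven_le, h.char, Finite.of_equiv M e.toEquiv, fun g hg => ?_,
    fun g hg ht => ?_, ?_⟩
  · have h1 := h.det_one _ (mem_cnj.1 hg)
    rwa [Units.val_mul, Units.val_mul, Matrix.det_units_conj'] at h1
  · exact h.no_transv _ (mem_cnj.1 hg) (by simpa [inv_inv] using ht.conj P⁻¹)
  · have hc : Nat.card (SLThree90.cnj P M) = Nat.card M := (Nat.card_congr e.toEquiv).symm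
    rw [hc]
    exact h.not_p_sq

/-- An element with `(g - 1)² = 0` is trivial. -/
theorem Local.eq_one_of_sq_zero {p : ℕ} {M : Subgroup GL3} (h : Local p M) {g : GL3} (hg : g ∈ M)
    (h2 : ((g : Mat3) - 1) * ((g : Mat3) - 1) = 0) : g = 1 := by
  by_contra hne
  set N : Mat3 := (g : Mat3) - 1 with hN
  have hN0 : N ≠ 0 := fun h0 => hne (Units.ext (sub_eq_zero.1 h0))
  have hrank : N.rank + N.rank ≤ 3 := by
    have hle : LinearMap.range N.mulVecLin ≤ LinearMap.ker N.mulVecLin := by
      rintro _ ⟨x, rfl⟩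
      rw [LinearMap.mem_ker, Matrix.mulVecLin_apply, Matrix.mulVecLin_apply, Matrix.mulVec_mulVec,
        h2, Matrix.zero_mulVec]
    have h3 := LinearMap.finrank_range_add_finrank_ker N.mulVecLin
    rw [Module.finrank_fin_fun] at h3
    have h4 := Submodule.finrank_mono hle
    show Module.finrank L (LinearMap.range N.mulVecLin) +
      Module.finrank L (LinearMap.range N.mulVecLin) ≤ 3
    omega
  obtain ⟨x, hx⟩ : ∃ x, N *ᵥ x ≠ 0 := by
    by_contra hc
    push Not at hc
    exact hN0 (Matrix.ext_of_mulVec_single fun i => by rw [hc, Matrix.zero_mulVec])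
  set v := N *ᵥ x with hv
  have hspan : LinearMap.range N.mulVecLin = Submodule.span L {v} := by
    refine (Submodule.eq_of_le_of_finrank_le ?_ ?_).symm
    · rw [Submodule.span_le, Set.singleton_subset_iff]
      exact ⟨x, rfl⟩
    · rw [finrank_span_singleton hx]
      change N.rank ≤ 1
      omega
  choose φ hφ using fun j => Submodule.mem_span_singleton.1
    (hspan.le ⟨Pi.single j 1, rfl⟩)
  have hNeq : N = vecMulVec v φ := by
    refine Matrix.ext_of_mulVec_single fun j => ?_
    rw [show N *ᵥ Pi.single j 1 = φ j • v from (hφ j).symm]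
    funext i
    simp [Matrix.vecMulVec, mul_comm]
  refine h.no_transv g hg ⟨v, φ, hx, ?_, ?_, ?_⟩
  · intro h0
    exact hN0 (by rw [hNeq, h0]; ext i j; simp [Matrix.vecMulVec])
  · have h3 : N * N = (φ ⬝ᵥ v) • N := by
      rw [hNeq, Matrix.vecMulVec_mul_vecMulVec]
      ext i j
      simp only [Matrix.vecMulVec, Matrix.of_apply, Matrix.smul_apply, Pi.smul_apply, smul_eq_mul]
      ring
    rw [h2] at h3
    exact (smul_eq_zero.1 h3.symm).resolve_right hN0
  · rw [← hNeq, hN]
    abel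

/-- `p`-elements are unipotent of degree at most three. -/
theorem Local.cube_zero {p : ℕ} {M : Subgroup GL3} (h : Local p M) {g : GL3} {k : ℕ}
    (hk : g ^ p ^ k = 1) : ((g : Mat3) - 1) ^ 3 = 0 := by
  haveI := h.char
  haveI := Fact.mk h.p_prime
  have h1 : ((g : Mat3) - 1) ^ p ^ k = 0 := by
    have hc : CharP Mat3 p := inferInstance
    rw [sub_pow_char_pow_of_commute (p := p) (n := k) (Commute.one_right (g : Mat3)), one_pow,
      ← Units.val_pow_eq_pow_val, hk, Units.val_one, sub_self]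
  have hnil : IsNilpotent ((g : Mat3) - 1) := ⟨_, h1⟩
  have h2 := Matrix.isNilpotent_charpoly_sub_pow_of_isNilpotent hnil
  rw [Fintype.card_fin, isNilpotent_iff_eq_zero, sub_eq_zero] at h2
  have h3 := Matrix.aeval_self_charpoly ((g : Mat3) - 1)
  rwa [h2, Polynomial.aeval_X_pow] at h3

/-- Elements of order prime to the characteristic are diagonalisable. -/
theorem exists_diag [IsAlgClosed L] {k : ℕ} {g : GL (Fin k) L} {n : ℕ} (hn : (n : L) ≠ 0)
    (hg : g ^ n = 1) :
    ∃ (P : GL (Fin k) L) (d : Fin k → L),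
      ((P * g * P⁻¹ : GL (Fin k) L) : Matrix (Fin k) (Fin k) L) = diagonal d := by
  classical
  set f : Module.End L (Fin k → L) := Matrix.toLinAlgEquiv' (g : Matrix (Fin k) (Fin k) L) with hf
  have hss : f.IsSemisimple := by
    refine Module.End.isSemisimple_of_squarefree_aeval_eq_zero
      (p := Polynomial.X ^ n - Polynomial.C (1 : L))
      (Polynomial.separable_X_pow_sub_C 1 hn one_ne_zero).squarefree ?_
    rw [map_sub, Polynomial.aeval_X_pow, Polynomial.aeval_C, map_one, hf, ← map_pow,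
      ← Units.val_pow_eq_pow_val, hg, Units.val_one, map_one, sub_self]
  have htop := hss.iSup_eigenspace_eq_top
  set S : Set (Fin k → L) := {v | ∃ c : L, f v = c • v} with hS
  have hspan : Submodule.span L S = ⊤ := by
    rw [eq_top_iff, ← htop, iSup_le_iff]
    intro c v hv
    exact Submodule.subset_span ⟨c, Module.End.mem_eigenspace_iff.1 hv⟩
  obtain ⟨b, hbS, hbspan, hbli⟩ := exists_linearIndependent L S
  have hB : ⊤ ≤ Submodule.span L (Set.range (Subtype.val : b → Fin k → L)) := by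
    rw [Subtype.range_coe, hbspan, hspan]
  let B0 := Module.Basis.mk hbli hB
  haveI : Fintype b := FiniteDimensional.fintypeBasisIndex B0
  have hcard : Fintype.card b = k := by
    rw [← Module.finrank_eq_card_basis B0, Module.finrank_fin_fun]
  let e : Fin k ≃ b := (Fintype.equivFinOfCardEq hcard).symm
  choose d hd using fun j => hbS (e j).2
  set Q : Matrix (Fin k) (Fin k) L := Matrix.of fun i j => (e j : Fin k → L) i with hQ
  have hQu : IsUnit Q := by
    rw [← Matrix.linearIndependent_cols_iff_isUnit]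
    exact hbli.comp e e.injective
  obtain ⟨U, hU⟩ := hQu
  have hkey : (g : Matrix (Fin k) (Fin k) L) * Q = Q * diagonal d := by
    ext i j
    rw [Matrix.mul_diagonal, mul_comm]
    exact congrFun (hd j) i
  refine ⟨U⁻¹, d, ?_⟩
  rw [inv_inv, Units.val_mul, Units.val_mul, hU, mul_assoc, hkey, ← mul_assoc, ← hU,
    ← Units.val_mul, inv_mul_cancel, Units.val_one, one_mul]

/-- `diag(1, -1, -1)`. -/
def t0Mat : Mat3 := diagonal ![1, -1, -1]

theorem t0Mat_mul_self : (t0Mat : Mat3) * t0Mat = 1 := by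
  rw [t0Mat, diagonal_mul_diagonal, ← diagonal_one]
  congr 1
  funext i
  fin_cases i <;> simp

/-- `diag(1, -1, -1)` as an element of the general linear group. -/
def t0 : GL3 := ⟨t0Mat, t0Mat, t0Mat_mul_self, t0Mat_mul_self⟩

/-- An involution of `SL₃` in characteristic not two is conjugate to `diag(1, -1, -1)`. -/
theorem exists_conj_t0 [IsAlgClosed L] (h2 : (2 : L) ≠ 0) {s : GL3} (hs : s * s = 1) (hs1 : s ≠ 1)
    (hdet : (s : Mat3).det = 1) : ∃ P : GL3, P * s * P⁻¹ = t0 := by
  obtain ⟨P, d, hd⟩ := exists_diag (g := s) (n := 2) (by exact_mod_cast h2) (by rw [sq, hs])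
  have hsq : ∀ i, d i = 1 ∨ d i = -1 := by
    intro i
    have h1 : diagonal d * diagonal d = (1 : Mat3) := by
      rw [← hd, ← Units.val_mul, show P * s * P⁻¹ * (P * s * P⁻¹) = P * (s * s) * P⁻¹ by group,
        hs, mul_one, mul_inv_cancel, Units.val_one]
    rw [diagonal_mul_diagonal, ← diagonal_one] at h1
    exact mul_self_eq_one_iff.1 (congrFun (diagonal_injective h1) i)
  have hne : ¬ (d 0 = 1 ∧ d 1 = 1 ∧ d 2 = 1) := by
    rintro ⟨h0, h1, h2'⟩
    apply hs1
    have h3 : P * s * P⁻¹ = 1 := Units.ext (by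
      rw [hd, Units.val_one, ← diagonal_one]
      congr 1
      funext i
      fin_cases i <;> assumption)
    have h4 := congrArg (fun x => P⁻¹ * x * P) h3
    simpa [mul_assoc] using h4
  have hprod : d 0 * d 1 * d 2 = 1 := by
    have h1 : (diagonal d).det = 1 := by
      rw [← hd, Units.val_mul, Units.val_mul, Matrix.det_units_conj, hdet]
    rw [det_diagonal, Fin.prod_univ_three] at h1
    exact h1
  have hm : (-1 : L) ≠ 1 := fun h => h2 (by linear_combination -h)
  suffices ∃ Q : GL3, (Q : Mat3) * diagonal d = t0Mat * (Q : Mat3) by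
    obtain ⟨Q, hQ⟩ := this
    refine ⟨Q * P, ?_⟩
    have h1 : Q * (P * s * P⁻¹) = t0 * Q := Units.ext (by
      rw [Units.val_mul, Units.val_mul (t0 : GL3), hd]
      exact hQ)
    calc Q * P * s * (Q * P)⁻¹ = Q * (P * s * P⁻¹) * Q⁻¹ := by group
      _ = t0 := by rw [h1, mul_inv_cancel_right]
  rcases hsq 0 with h0 | h0 <;> rcases hsq 1 with h1 | h1 <;> rcases hsq 2 with h2' | h2' <;>
    first
      | exact (hne (And.intro h0 (And.intro h1 h2'))).elim
      | exact (hm (by rw [h0, h1, h2'] at hprod; simpa using hprod)).elim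
      | skip
  · refine ⟨1, ?_⟩
    rw [Units.val_one, one_mul, mul_one, t0Mat]
    congr 1
    funext i
    fin_cases i <;> simp [h0, h1, h2']
  · refine ⟨⟨!![0, 1, 0; 1, 0, 0; 0, 0, 1], !![0, 1, 0; 1, 0, 0; 0, 0, 1], ?_, ?_⟩, ?_⟩
    all_goals ext i j; fin_cases i <;> fin_cases j <;> simp [t0Mat, Matrix.mul_apply,
      Fin.sum_univ_three, diagonal, h0, h1, h2']
  · refine ⟨⟨!![0, 0, 1; 0, 1, 0; 1, 0, 0], !![0, 0, 1; 0, 1, 0; 1, 0, 0], ?_, ?_⟩, ?_⟩
    all_goals ext i j; fin_cases i <;> fin_cases j <;> simp [t0Mat, Matrix.mul_apply,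
      Fin.sum_univ_three, diagonal, h0, h1, h2']

end CfsgLib.SLThree90
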