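import Cfsg.Agent.Eq.Def_GeometricClasses
import Cfsg.Agent.Aschbacher.Density
import Cfsg.Agent.SLThree90.Homology

/-!
An absolutely irreducible group of symplectic type and exponent three in dimension three is
conjugate to `⟨diag(1, ω, ω²), cycle⟩`.
-/

set_option autoImplicit false
set_option linter.unusedSectionVars false

namespace CfsgLib.SLThree90.C6

open Matrix Cfsg.Geo

/-- A `3`-group of exponent three whose characteristic abelian subgroups are cyclic has class at
most two. -/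
theorem commutator_le_center {G : Type*} [Group G] [Finite G] (hp : IsPGroup 3 G)
    (h3 : ∀ g : G, g ^ 3 = 1)
    (hchar : ∀ A : Subgroup G, A.Characteristic → IsMulCommutative A → IsCyclic A) :
    commutator G ≤ Subgroup.center G := by
  classical
  by_contra hcon
  haveI : Fact (Nat.Prime 3) := ⟨Nat.prime_three⟩
  obtain ⟨N, hN⟩ := (Subgroup.nilpotent_iff_lowerCentralSeries).1 hp.isNilpotent
  have hex : ∃ j, Subgroup.lowerCentralSeries (⊤ : Subgroup G) j ≤ Subgroup.center G :=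
    ⟨N, hN ▸ bot_le⟩
  set j := Nat.find hex with hj
  have hj1 : ¬ j ≤ 1 := by
    intro h
    refine hcon (le_trans ?_ (Nat.find_spec hex))
    rw [← Subgroup.lowerCentralSeries_one]
    exact Subgroup.lowerCentralSeries_antitone _ h
  obtain ⟨k, hk⟩ : ∃ k, j = k + 2 := ⟨j - 2, by omega⟩
  set A := Subgroup.lowerCentralSeries (⊤ : Subgroup G) (k + 1) with hA
  have hspec : ⁅A, (⊤ : Subgroup G)⁆ ≤ Subgroup.center G := by
    have := Nat.find_spec hex
    rw [← hj, hk] at this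
    exact this
  have hmin : ¬ A ≤ Subgroup.center G := Nat.find_min hex (by omega)
  haveI : A.Characteristic := by rw [hA]; infer_instance
  have h0 : ⁅commutator G, A⁆ = ⊥ := by
    rw [commutator_def]
    have h2 : ⁅⁅A, (⊤ : Subgroup G)⁆, (⊤ : Subgroup G)⁆ = ⊥ := by
      rw [Subgroup.commutator_eq_bot_iff_le_centralizer, Subgroup.coe_top,
        Subgroup.centralizer_univ]
      exact hspec
    refine Subgroup.commutator_commutator_eq_bot_of_rotate ?_ h2
    rw [Subgroup.commutator_comm ⊤ A]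
    exact h2
  have hAle : A ≤ commutator G := by
    rw [← Subgroup.lowerCentralSeries_one]
    exact Subgroup.lowerCentralSeries_antitone _ (by omega)
  have hAc : IsMulCommutative A := ⟨⟨fun a b => Subtype.ext
    ((Subgroup.mem_centralizer_iff.1
      (Subgroup.commutator_eq_bot_iff_le_centralizer.1 h0 (hAle a.2))) b b.2).symm⟩⟩
  haveI := hchar A inferInstance hAc
  obtain ⟨⟨a, ha⟩, hgen⟩ := IsCyclic.exists_zpow_surjective (G := A)
  -- a normal subgroup of order at most three is central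
  have hcent : ∀ g : G, g * a * g⁻¹ = a := by
    intro g
    obtain ⟨n, hn⟩ := hgen ⟨g * a * g⁻¹, (inferInstance : A.Normal).conj_mem a ha g⟩
    have hn' : a ^ n = g * a * g⁻¹ := by simpa using congrArg Subtype.val hn
    have hmod : a ^ n = a ^ (n % 3) := by
      conv_lhs => rw [← Int.emod_add_mul_ediv n 3, _root_.zpow_add, _root_.zpow_mul,
        show a ^ (3 : ℤ) = 1 by exact_mod_cast h3 a, _root_.one_zpow, mul_one]
    rw [hmod] at hn'
    have hcases : n % 3 = 0 ∨ n % 3 = 1 ∨ n % 3 = 2 := by omega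
    rcases hcases with h | h | h <;> rw [h] at hn'
    · rw [_root_.zpow_zero] at hn'
      rw [(conj_eq_one_iff (a := g)).1 hn'.symm]
      group
    · rw [_root_.zpow_one] at hn'
      exact hn'.symm
    · rw [show ((2 : ℤ)) = ((2 : ℕ) : ℤ) from rfl, _root_.zpow_natCast] at hn'
      -- three conjugations give `a ^ 8 = a`
      have e2 : g * (g * a * g⁻¹) * g⁻¹ = a ^ (2 * 2) := by
        rw [← hn', ← conj_pow, ← hn', ← pow_mul]
      have e3 : g * (g * (g * a * g⁻¹) * g⁻¹) * g⁻¹ = a ^ (2 * (2 * 2)) := by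
        rw [e2, ← conj_pow, ← hn', ← pow_mul]
      have e4 : g * (g * (g * a * g⁻¹) * g⁻¹) * g⁻¹ = a := by
        calc g * (g * (g * a * g⁻¹) * g⁻¹) * g⁻¹ = (g * g * g) * a * (g * g * g)⁻¹ := by group
          _ = a := by rw [show g * g * g = g ^ 3 by rw [pow_succ, pow_two], h3]; group
      have e5 : a ^ (2 * (2 * 2)) = a ^ 2 := by
        rw [show (2 * (2 * 2) : ℕ) = 3 * 2 + 2 from rfl, pow_add, pow_mul, h3, one_pow, one_mul]
      rw [e4, e5] at e3
      have ha1 : a = 1 := by rw [pow_two] at e3; exact mul_left_cancel (e3.symm.trans (mul_one a).symm)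
      rw [ha1]
      group
  refine hmin fun x hx => ?_
  obtain ⟨n, hn⟩ := hgen ⟨x, hx⟩
  have hx' : a ^ n = x := by simpa using congrArg Subtype.val hn
  rw [← hx']
  exact Subgroup.zpow_mem _ (Subgroup.mem_center_iff.2 fun g => mul_inv_eq_iff_eq_mul.1 (hcent g)) n

variable {F : Type*} [Field F]

local notation "GL3" => GL (Fin 3) F
local notation "Mat3" => Matrix (Fin 3) (Fin 3) F

theorem mulVec_inj (g : GL3) {v : Fin 3 → F} (h : (g : Mat3) *ᵥ v = 0) : v = 0 := by
  have := congrArg (((g⁻¹ : GL3) : Mat3) *ᵥ ·) h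
  simpa [Matrix.mulVec_mulVec] using this

/-- Two elements of order three commuting up to a primitive cube root of unity are standard. -/
theorem exists_basis {ω : F} (hω : IsPrimitiveRoot ω 3) (h3 : (3 : F) ≠ 0) {x y : GL3}
    (hx : x ^ 3 = 1) (hy : y ^ 3 = 1)
    (hxy : (x : Mat3) * (y : Mat3) = ω • ((y : Mat3) * (x : Mat3))) :
    ∃ g : GL3, ((g * x * g⁻¹ : GL3) : Mat3) = xMat ω ∧ ((g * y * g⁻¹ : GL3) : Mat3) = yMat := by
  classical
  have hω3 : ω ^ 3 = 1 := hω.pow_eq_one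
  have hω2 : ω ^ 2 + ω + 1 = 0 := by
    have h1 : ω - 1 ≠ 0 := sub_ne_zero.2 (hω.ne_one (by norm_num))
    refine (mul_eq_zero.1 (?_ : (ω - 1) * (ω ^ 2 + ω + 1) = 0)).resolve_left h1
    linear_combination hω3
  have hx3 : (x : Mat3) * ((x : Mat3) * (x : Mat3)) = 1 := by
    have h := congrArg Units.val hx
    rw [Units.val_pow_eq_pow_val, Units.val_one, pow_succ', pow_two] at h
    exact h
  have hmove : ∀ {v : Fin 3 → F} {l : F}, (x : Mat3) *ᵥ v = l • v →
      (x : Mat3) *ᵥ ((y : Mat3) *ᵥ v) = (ω * l) • ((y : Mat3) *ᵥ v) := by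
    intro v l h
    rw [Matrix.mulVec_mulVec, hxy, Matrix.smul_mulVec, ← Matrix.mulVec_mulVec, h,
      Matrix.mulVec_smul, smul_smul]
  obtain ⟨v₀, hv₀, hfix⟩ : ∃ v₀ : Fin 3 → F, v₀ ≠ 0 ∧ (x : Mat3) *ᵥ v₀ = v₀ := by
    set v : Fin 3 → F := Pi.single 0 1
    have hv : v ≠ 0 := fun h => one_ne_zero (α := F) (by simpa [v] using congrFun h 0)
    set E : F → (Fin 3 → F) := fun a =>
      v + a • ((x : Mat3) *ᵥ v) + a ^ 2 • ((x : Mat3) *ᵥ ((x : Mat3) *ᵥ v)) with hE
    have hx3v : (x : Mat3) *ᵥ ((x : Mat3) *ᵥ ((x : Mat3) *ᵥ v)) = v := by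
      rw [Matrix.mulVec_mulVec, Matrix.mulVec_mulVec, Matrix.mul_assoc, hx3, Matrix.one_mulVec]
    have heig : ∀ a : F, a ^ 3 = 1 → (x : Mat3) *ᵥ E a = a ^ 2 • E a := by
      intro a ha
      simp only [hE, Matrix.mulVec_add, Matrix.mulVec_smul, hx3v]
      match_scalars <;> grind
    have hshift : ∀ {u : Fin 3 → F} {l : F}, u ≠ 0 → (x : Mat3) *ᵥ u = l • u →
        l = 1 ∨ l = ω ∨ l = ω ^ 2 → ∃ v₀ : Fin 3 → F, v₀ ≠ 0 ∧ (x : Mat3) *ᵥ v₀ = v₀ := by
      intro u l hu hl h
      have hyu : (y : Mat3) *ᵥ u ≠ 0 := fun h0 => hu (mulVec_inj y h0)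
      have h1 := hmove hl
      have h2 := hmove h1
      rcases h with h | h | h <;> rw [h] at hl h1 h2
      · exact ⟨u, hu, by rw [hl, one_smul]⟩
      · exact ⟨(y : Mat3) *ᵥ ((y : Mat3) *ᵥ u), fun h0 => hyu (mulVec_inj y h0), by
          rw [h2, show ω * (ω * ω) = 1 by linear_combination hω3, one_smul]⟩
      · exact ⟨(y : Mat3) *ᵥ u, hyu, by
          rw [h1, show ω * ω ^ 2 = 1 by linear_combination hω3, one_smul]⟩
    have hsum : E 1 + E ω + E (ω ^ 2) = (3 : F) • v := by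
      simp only [hE]
      match_scalars <;> grind
    by_cases h0 : E 1 = 0
    · by_cases h1 : E ω = 0
      · have h2 : E (ω ^ 2) ≠ 0 := fun h2 => hv (by
          rw [h0, h1, h2, add_zero, add_zero] at hsum
          exact (smul_eq_zero.1 hsum.symm).resolve_left h3)
        exact hshift h2 (heig _ (by linear_combination (ω ^ 3 + 1) * hω3))
          (Or.inr (Or.inl (by linear_combination ω * hω3)))
      · exact hshift h1 (heig _ hω3) (Or.inr (Or.inr rfl))
    · exact hshift h0 (heig _ (one_pow 3)) (Or.inl (one_pow 2))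
  set v : Fin 3 → (Fin 3 → F) := fun j => ((y : Mat3) ^ (j : ℕ)) *ᵥ v₀ with hvdef
  have hvx : ∀ j, (x : Mat3) *ᵥ v j = ω ^ (j : ℕ) • v j := by
    intro j
    have h : ∀ k : ℕ, (x : Mat3) *ᵥ ((y : Mat3) ^ k *ᵥ v₀) = ω ^ k • ((y : Mat3) ^ k *ᵥ v₀) := by
      intro k
      induction k with
      | zero => simp [hfix]
      | succ k ih => rw [pow_succ' (y : Mat3), ← Matrix.mulVec_mulVec, hmove ih, ← pow_succ']
    exact h j
  have hvne : ∀ i, v i ≠ 0 := fun i h => hv₀ (mulVec_inj (y ^ (i : ℕ))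
    (by rwa [Units.val_pow_eq_pow_val]))
  have hvy : ∀ j, (y : Mat3) *ᵥ v j = v (j + 1) := by
    intro j
    show (y : Mat3) *ᵥ ((y : Mat3) ^ (j : ℕ) *ᵥ v₀) = (y : Mat3) ^ ((j + 1 : Fin 3) : ℕ) *ᵥ v₀
    rw [Matrix.mulVec_mulVec, ← pow_succ']
    fin_cases j <;> simp
    rw [← Units.val_pow_eq_pow_val, hy, Units.val_one, Matrix.one_mulVec]
  have hli : LinearIndependent F v := by
    rw [Fintype.linearIndependent_iff]
    intro c hc
    have e0 := hc
    have e1 := congrArg ((x : Mat3) *ᵥ ·) hc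
    simp only [Matrix.mulVec_sum, Matrix.mulVec_smul, hvx, Matrix.mulVec_zero] at e1
    have e2 := congrArg ((x : Mat3) *ᵥ ·) e1
    simp only [Matrix.mulVec_sum, Matrix.mulVec_smul, hvx, Matrix.mulVec_zero] at e2
    simp only [Fin.sum_univ_three, Fin.val_zero, Fin.val_one, Fin.val_two, pow_zero, pow_one,
      one_smul, smul_smul] at e0 e1 e2
    have key : ∀ i, ((3 : F) * c i) • v i = 0 := by
      intro i
      fin_cases i <;> simp only [Fin.zero_eta, Fin.mk_one, Fin.reduceFinMk]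
      · linear_combination (norm := (match_scalars <;> grind)) e0 + e1 + e2
      · linear_combination (norm := (match_scalars <;> grind)) e0 + (ω ^ 2) • e1 + ω • e2
      · linear_combination (norm := (match_scalars <;> grind)) e0 + ω • e1 + (ω ^ 2) • e2
    intro i
    exact (mul_eq_zero.1 ((smul_eq_zero.1 (key i)).resolve_right (hvne i))).resolve_left h3
  set V : Mat3 := Matrix.of fun r c => v c r with hVdef
  have hVu : IsUnit V := Matrix.linearIndependent_cols_iff_isUnit.1 hli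
  have hV : ∀ j, V *ᵥ Pi.single j 1 = v j := fun j => by
    rw [Matrix.mulVec_single_one]; rfl
  have hcol : ∀ {A B : Mat3} (w : Fin 3 → Fin 3) (l : Fin 3 → F),
      (∀ j, A *ᵥ v j = l j • v (w j)) → (∀ j, B *ᵥ Pi.single j 1 = l j • Pi.single (w j) 1) →
      ((hVu.unit⁻¹ : GL3) : Mat3) * A * V = B := by
    intro A B w l hA hB
    have e : A * V = V * B := by
      refine Matrix.ext_of_mulVec_single fun j => ?_
      rw [← Matrix.mulVec_mulVec, hV, hA, ← Matrix.mulVec_mulVec, hB, Matrix.mulVec_smul, hV]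
    rw [Matrix.mul_assoc, e, ← Matrix.mul_assoc, IsUnit.val_inv_mul, Matrix.one_mul]
  refine ⟨hVu.unit⁻¹, ?_, ?_⟩
  · rw [inv_inv, Units.val_mul, Units.val_mul]
    refine hcol id (fun j => ω ^ (j : ℕ)) hvx fun j => ?_
    rw [Matrix.mulVec_single_one]
    funext r
    fin_cases j <;> fin_cases r <;> simp [xMat]
  · rw [inv_inv, Units.val_mul, Units.val_mul]
    refine hcol (· + 1) (fun _ => 1) (fun j => by rw [one_smul, hvy]) fun j => ?_
    rw [Matrix.mulVec_single_one]
    funext r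
    fin_cases j <;> fin_cases r <;> simp [yMat]

theorem yMat_mul_xMat {ω : F} (hω3 : ω ^ 3 = 1) :
    yMat * xMat ω = ω ^ 2 • (xMat ω * yMat) := by
  ext r c
  fin_cases r <;> fin_cases c <;>
    (simp [xMat, yMat, Matrix.mul_apply, Fin.sum_univ_three] <;> grind)

theorem xMat_mul_yMat {ω : F} (hω3 : ω ^ 3 = 1) :
    xMat ω * yMat = ω • (yMat * xMat ω) := by
  rw [yMat_mul_xMat hω3, smul_smul, ← pow_succ', hω3, one_smul]

theorem yPow_mul_xMat {ω : F} (hω3 : ω ^ 3 = 1) (j : ℕ) :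
    yMat ^ j * xMat ω = ω ^ (2 * j) • (xMat ω * yMat ^ j) := by
  induction j with
  | zero => simp
  | succ j ih =>
    rw [pow_succ' yMat, Matrix.mul_assoc, ih, Matrix.mul_smul, ← Matrix.mul_assoc,
      yMat_mul_xMat hω3, Matrix.smul_mul, smul_smul, ← pow_add, Matrix.mul_assoc]
    rfl

theorem xPow_mul_yMat {ω : F} (hω3 : ω ^ 3 = 1) (i : ℕ) :
    xMat ω ^ i * yMat = ω ^ i • (yMat * xMat ω ^ i) := by
  induction i with
  | zero => simp
  | succ i ih =>
    rw [pow_succ' (xMat ω), Matrix.mul_assoc, ih, Matrix.mul_smul, ← Matrix.mul_assoc,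
      xMat_mul_yMat hω3, Matrix.smul_mul, smul_smul, ← pow_succ, Matrix.mul_assoc]

/-- A matrix commuting with the two generators is scalar. -/
theorem eq_scalar_of_commute {ω : F} (hω : IsPrimitiveRoot ω 3) {W : Mat3}
    (hX : W * xMat ω = xMat ω * W) (hY : W * yMat = yMat * W) : W = W 0 0 • (1 : Mat3) := by
  have h1 : ω ≠ 1 := hω.ne_one (by norm_num)
  have h2 : ω ^ 2 ≠ 1 := fun h => by have := hω.dvd_of_pow_eq_one 2 h; omega
  have h12 : ω ^ 2 ≠ ω := fun h => h1 (mul_left_cancel₀ (hω.ne_zero (by norm_num))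
    (by rw [← pow_two, h, mul_one]))
  have hod : ∀ r c, r ≠ c → W r c = 0 := by
    intro r c hrc
    have h := congrFun (congrFun hX r) c
    fin_cases r <;> fin_cases c <;>
      simp [xMat, Matrix.mul_apply, Fin.sum_univ_three] at hrc h ⊢ <;> grind
  have e1 := congrFun (congrFun hY 1) 0
  have e2 := congrFun (congrFun hY 2) 1
  simp [yMat, Matrix.mul_apply, Fin.sum_univ_three] at e1 e2
  ext r c
  rcases eq_or_ne r c with rfl | hrc
  · fin_cases r <;> simp_all
  · simp [hod r c hrc, hrc]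

/-- The group is conjugate to the standard one. -/
theorem exists_standard [Finite F] (h3 : (3 : F) ≠ 0) {R : Subgroup GL3}
    (hs : IsSymplecticTypeGroup 3 R) (habs : ActsAbsolutelyIrreducibly (matrixSet R)) :
    ∃ (g : GL3) (ω : F), IsPrimitiveRoot ω 3 ∧ ∀ u : GL3, InR ω u ↔ u ∈ cnj g R := by
  classical
  have hexp : ∀ a ∈ R, a ^ 3 = 1 := by
    intro a ha
    have h := Monoid.pow_exponent_eq_one (⟨a, ha⟩ : R)
    rw [hs.exponent_eq] at h
    exact congrArg Subtype.val h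
  have hcl2 : ∀ a ∈ R, ∀ b ∈ R, ∃ c : F, c ^ 3 = 1 ∧
      (a : Mat3) * (b : Mat3) = c • ((b : Mat3) * (a : Mat3)) := by
    intro a ha b hb
    have hmem : (⟨a, ha⟩ * ⟨b, hb⟩ * ⟨a, ha⟩⁻¹ * ⟨b, hb⟩⁻¹ : R) ∈ Subgroup.center R :=
      commutator_le_center hs.pGroup (fun x => Subtype.ext (hexp _ x.2))
        hs.cyclic_of_characteristic
        (Subgroup.commutator_mem_commutator (Subgroup.mem_top _) (Subgroup.mem_top _))
    obtain ⟨c, hc⟩ := (mem_scalars_iff _).1 (Aschbacher.mem_scalars_of_commute habs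
      (g := a * b * a⁻¹ * b⁻¹) fun z hz =>
        (congrArg Subtype.val (Subgroup.mem_center_iff.1 hmem ⟨z, hz⟩)).symm)
    refine ⟨(c : F), ?_, ?_⟩
    · have h := congrArg Units.val
        (hexp _ (mul_mem (mul_mem (mul_mem ha hb) (inv_mem ha)) (inv_mem hb)))
      rw [Units.val_pow_eq_pow_val, hc, smul_pow, one_pow, Units.val_one] at h
      simpa using congrFun (congrFun h 0) 0
    · have e : a * b = a * b * a⁻¹ * b⁻¹ * (b * a) := by group
      have e' := congrArg Units.val e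
      rw [Units.val_mul, Units.val_mul (a * b * a⁻¹ * b⁻¹), hc, Units.val_mul, Matrix.smul_mul,
        Matrix.one_mul] at e'
      exact e'
  obtain ⟨x, hx, y, hy, hne⟩ := Aschbacher.exists_not_commute (by simp) habs
  obtain ⟨c, hc3, hc⟩ := hcl2 x hx y hy
  have hc1 : c ≠ 1 := fun h => hne (Units.ext (by rw [Units.val_mul, Units.val_mul, hc, h, one_smul]))
  have hω : IsPrimitiveRoot c 3 := by
    haveI : Fact (Nat.Prime 3) := ⟨Nat.prime_three⟩
    rw [← orderOf_eq_prime hc3 hc1]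
    exact IsPrimitiveRoot.orderOf c
  obtain ⟨g, hgx, hgy⟩ := exists_basis hω h3 (hexp x hx) (hexp y hy) hc
  refine ⟨g, c, hω, fun u => ?_⟩
  set X := g * x * g⁻¹ with hXdef
  set Y := g * y * g⁻¹ with hYdef
  have hXR : X ∈ cnj g R := conj_mem_cnj hx
  have hYR : Y ∈ cnj g R := conj_mem_cnj hy
  have hexp' : ∀ w ∈ cnj g R, w ^ 3 = 1 := by
    rintro _ ⟨w, hw, rfl⟩
    rw [← map_pow, hexp w hw, map_one]
  have hcl2' : ∀ a ∈ cnj g R, ∀ b ∈ cnj g R, ∃ c : F, c ^ 3 = 1 ∧
      (a : Mat3) * (b : Mat3) = c • ((b : Mat3) * (a : Mat3)) := by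
    rintro _ ⟨a, ha, rfl⟩ _ ⟨b, hb, rfl⟩
    obtain ⟨d, hd3, hd⟩ := hcl2 a ha b hb
    refine ⟨d, hd3, ?_⟩
    have key : ∀ p q : GL3, (((MulAut.conj g).toMonoidHom p : GL3) : Mat3) *
        (((MulAut.conj g).toMonoidHom q : GL3) : Mat3) =
        (g : Mat3) * ((p : Mat3) * (q : Mat3)) * ((g⁻¹ : GL3) : Mat3) := by
      intro p q
      rw [← Units.val_mul, ← map_mul]
      simp [mul_assoc]
    rw [key, key, hd, Matrix.mul_smul, Matrix.smul_mul]
  have hzR : X * Y * X⁻¹ * Y⁻¹ ∈ cnj g R :=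
    mul_mem (mul_mem (mul_mem hXR hYR) (inv_mem hXR)) (inv_mem hYR)
  have hzv : ((X * Y * X⁻¹ * Y⁻¹ : GL3) : Mat3) = c • 1 := by
    rw [show X * Y * X⁻¹ * Y⁻¹ = (X * Y) * (Y * X)⁻¹ by group, Units.val_mul, Units.val_mul,
      hgx, hgy, xMat_mul_yMat hω.pow_eq_one, Matrix.smul_mul]
    congr 1
    rw [show (yMat : Mat3) * xMat c = ((Y * X : GL3) : Mat3) by rw [Units.val_mul, hgx, hgy],
      ← Units.val_mul, mul_inv_cancel, Units.val_one]
  constructor
  · rintro ⟨k, i, j, hu⟩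
    have e : u = (X * Y * X⁻¹ * Y⁻¹) ^ (k : ℕ) * (X ^ (i : ℕ) * Y ^ (j : ℕ)) := Units.ext (by
      rw [hu, Units.val_mul, Units.val_mul, Units.val_pow_eq_pow_val, Units.val_pow_eq_pow_val,
        Units.val_pow_eq_pow_val, hzv, hgx, hgy, smul_pow, one_pow, Matrix.smul_mul,
        Matrix.one_mul])
    rw [e]
    exact mul_mem (pow_mem hzR _) (mul_mem (pow_mem hXR _) (pow_mem hYR _))
  · intro hu
    obtain ⟨a, ha3, ha⟩ := hcl2' u hu X hXR
    obtain ⟨b, hb3, hb⟩ := hcl2' u hu Y hYR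
    rw [hgx] at ha
    rw [hgy] at hb
    obtain ⟨j, hj, hjeq⟩ := hω.eq_pow_of_pow_eq_one (ξ := a) ha3
    obtain ⟨i, hi, hieq⟩ := hω.eq_pow_of_pow_eq_one (ξ := b) hb3
    -- `u * Y ^ j * X ^ (2 * i)` commutes with both generators
    set W : GL3 := u * Y ^ j * X ^ (2 * i) with hWdef
    have hWR : W ∈ cnj g R := mul_mem (mul_mem hu (pow_mem hYR _)) (pow_mem hXR _)
    have hWv : (W : Mat3) = (u : Mat3) * yMat ^ j * xMat c ^ (2 * i) := by
      rw [hWdef, Units.val_mul, Units.val_mul, Units.val_pow_eq_pow_val, Units.val_pow_eq_pow_val,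
        hgx, hgy]
    have hc3' := hω.pow_eq_one
    have hone : ∀ n, c ^ (3 * n) = 1 := fun n => by rw [pow_mul, hc3', one_pow]
    have hWX : (W : Mat3) * xMat c = xMat c * (W : Mat3) := by
      calc (W : Mat3) * xMat c = (u : Mat3) * (yMat ^ j * xMat c) * xMat c ^ (2 * i) := by
            rw [hWv, Matrix.mul_assoc, ← pow_succ, pow_succ']; simp only [Matrix.mul_assoc]
        _ = c ^ (2 * j) • ((u : Mat3) * xMat c * yMat ^ j * xMat c ^ (2 * i)) := by
            rw [yPow_mul_xMat hc3', Matrix.mul_smul, Matrix.smul_mul]; simp only [Matrix.mul_assoc]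
        _ = c ^ (3 * j) • (xMat c * (W : Mat3)) := by
            rw [ha, ← hjeq, hWv, Matrix.smul_mul, Matrix.smul_mul, smul_smul, ← pow_add,
              show 2 * j + j = 3 * j by ring]
            simp only [Matrix.mul_assoc]
        _ = xMat c * (W : Mat3) := by rw [hone, one_smul]
    have hWY : (W : Mat3) * yMat = yMat * (W : Mat3) := by
      calc (W : Mat3) * yMat = (u : Mat3) * yMat ^ j * (xMat c ^ (2 * i) * yMat) := by
            rw [hWv]; simp only [Matrix.mul_assoc]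
        _ = c ^ (2 * i) • ((u : Mat3) * yMat * yMat ^ j * xMat c ^ (2 * i)) := by
            rw [xPow_mul_yMat hc3', Matrix.mul_smul]
            congr 1
            rw [← Matrix.mul_assoc ((u : Mat3) * yMat ^ j), Matrix.mul_assoc (u : Mat3) _ yMat,
              ← pow_succ, pow_succ']
            simp only [Matrix.mul_assoc]
        _ = c ^ (3 * i) • (yMat * (W : Mat3)) := by
            rw [hb, ← hieq, hWv, Matrix.smul_mul, Matrix.smul_mul, smul_smul, ← pow_add,
              show 2 * i + i = 3 * i by ring]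
            simp only [Matrix.mul_assoc]
        _ = yMat * (W : Mat3) := by rw [hone, one_smul]
    have hWs := eq_scalar_of_commute hω hWX hWY
    have hd3 : ((W : Mat3) 0 0) ^ 3 = 1 := by
      have h := congrArg Units.val (hexp' W hWR)
      rw [Units.val_pow_eq_pow_val, hWs, smul_pow, one_pow, Units.val_one] at h
      simpa using congrFun (congrFun h 0) 0
    obtain ⟨k, hk, hkeq⟩ := hω.eq_pow_of_pow_eq_one hd3
    have hY3 : Y ^ 3 = 1 := hexp' Y hYR
    have hX3 : X ^ 3 = 1 := hexp' X hXR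
    have hmodX : ∀ n, X ^ n = X ^ (n % 3) := fun n => by
      conv_lhs => rw [← Nat.mod_add_div n 3, pow_add, pow_mul, hX3, one_pow, mul_one]
    have hmodY : ∀ n, Y ^ n = Y ^ (n % 3) := fun n => by
      conv_lhs => rw [← Nat.mod_add_div n 3, pow_add, pow_mul, hY3, one_pow, mul_one]
    have eu : u = W * X ^ i * Y ^ (2 * j) := by
      rw [hWdef, mul_assoc (u * Y ^ j), ← pow_add, show 2 * i + i = 3 * i by ring, pow_mul, hX3,
        one_pow, mul_one, mul_assoc u, ← pow_add, show j + 2 * j = 3 * j by ring, pow_mul, hY3,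
        one_pow, mul_one]
    refine ⟨⟨k, hk⟩, ⟨i, hi⟩, ⟨(2 * j) % 3, Nat.mod_lt _ (by norm_num)⟩, ?_⟩
    rw [eu, hmodY (2 * j), Units.val_mul, Units.val_mul, Units.val_pow_eq_pow_val,
      Units.val_pow_eq_pow_val, hgx, hgy, hWs, ← hkeq, Matrix.smul_mul, Matrix.smul_mul,
      Matrix.one_mul]

end CfsgLib.SLThree90.C6
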