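import Cfsg.Agent.Classical.FullCentres
import Cfsg.Agent.SLThree90.Basic

/-!
An irreducible group of three by three matrices containing one transvection and, with each
transvection, its whole root group contains the special linear group.
-/

set_option autoImplicit false

namespace CfsgLib.SLThree90

open Matrix CfsgLib.TransvGL CfsgLib.FullCentres

variable {F : Type*} [Field F]

/-- With every transvection the group contains its root group. -/
def RootFull (M : Subgroup (GL (Fin 3) F)) : Prop :=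
  ∀ (a : Fin 3 → F) (φ : Module.Dual F (Fin 3 → F)) (c : F), Has M a φ → Has M a (c • φ)

/-- The functionals killing a non-zero vector and a second one outside its line are proportional. -/
theorem finrank_annihilator_pair {a c : Fin 3 → F} (ha : a ≠ 0) (hc : c ∉ Submodule.span F {a})
    {φ ψ : Module.Dual F (Fin 3 → F)} (hφa : φ a = 0) (hφc : φ c = 0) (hψa : ψ a = 0) (hψc : ψ c = 0)
    (hφ : φ ≠ 0) : ∃ s : F, ψ = s • φ := by
  have hli : LinearIndependent F ![a, c] := by
    rw [linearIndependent_fin2]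
    refine ⟨fun h => hc (by simp at h; rw [h]; exact zero_mem _), fun t ht => ?_⟩
    simp at ht
    rcases eq_or_ne t 0 with rfl | h0
    · exact ha (by simpa using ht.symm)
    · exact hc (Submodule.mem_span_singleton.2 ⟨t⁻¹, by rw [← ht, inv_smul_smul₀ h0]⟩)
  let W : Submodule F (Fin 3 → F) := Submodule.span F (Set.range ![a, c])
  have hW : Module.finrank F W = 2 := by
    rw [finrank_span_eq_card hli, Fintype.card_fin]
  have hA : Module.finrank F W.dualAnnihilator = 1 := by
    have := Subspace.finrank_add_finrank_dualAnnihilator_eq (K := F) W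
    rw [hW, Module.finrank_fin_fun] at this
    omega
  have hmem : ∀ χ : Module.Dual F (Fin 3 → F), χ a = 0 → χ c = 0 → χ ∈ W.dualAnnihilator := by
    intro χ h1 h2
    rw [Submodule.mem_dualAnnihilator]
    intro x hx
    induction hx using Submodule.span_induction with
    | mem x hx =>
      obtain ⟨i, rfl⟩ := hx
      fin_cases i
      · exact h1
      · exact h2
    | zero => simp
    | add x y _ _ hx hy => rw [map_add, hx, hy, add_zero]
    | smul t x _ hx => rw [map_smul, hx, smul_zero]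
  obtain ⟨s, hs⟩ := exists_smul_eq_of_finrank_eq_one hA
    (x := ⟨φ, hmem φ hφa hφc⟩) (fun h => hφ (congrArg Subtype.val h)) ⟨ψ, hmem ψ hψa hψc⟩
  exact ⟨s, (congrArg Subtype.val hs).symm⟩

variable {M : Subgroup (GL (Fin 3) F)}

/-- The commutator rule. -/
theorem RootFull.rule (hr : RootFull M) {a b : Fin 3 → F} {φ ψ : Module.Dual F (Fin 3 → F)}
    (hA : Has M a φ) (hB : Has M b ψ) (hψa : ψ a = 0) (hφb : φ b ≠ 0) : Has M a ψ := by
  obtain ⟨h1, h2⟩ := hA
  obtain ⟨h3, h4⟩ := hB
  have hC : Has M a (φ b • ψ) := by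
    refine ⟨by simp [hψa], ?_⟩
    have h5 := M.mul_mem (M.mul_mem (M.mul_mem h2 h4) (M.inv_mem h2)) (M.inv_mem h4)
    convert h5 using 1
    refine ext_mulVec fun x => ?_
    rw [transv_inv, transv_inv]
    simp only [Units.val_mul, ← mulVec_mulVec, transv_mulVec, map_add, map_smul, h1, h3, hψa,
      LinearMap.neg_apply, map_neg, smul_eq_mul, LinearMap.smul_apply]
    module
  have h6 := hr a _ (φ b)⁻¹ hC
  rwa [smul_smul, inv_mul_cancel₀ hφb, one_smul] at h6

/-- Two independent axes at a centre give all transvections with that centre. -/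
theorem RootFull.full_of_two (hr : RootFull M) {a : Fin 3 → F} (ha : a ≠ 0)
    {φ ψ : Module.Dual F (Fin 3 → F)} (hA : Has M a φ) (hB : Has M a ψ) {x : Fin 3 → F}
    (hφx : φ x = 0) (hψx : ψ x ≠ 0) (hφ : φ ≠ 0) : Full M a := by
  intro χ hχ
  set χ' : Module.Dual F (Fin 3 → F) := χ - (χ x / ψ x) • ψ with hdef
  have h1 : χ' a = 0 := by simp [hdef, hχ, hB.1]
  have h2 : χ' x = 0 := by simp [hdef, hψx]
  have hx : x ∉ Submodule.span F {a} := by
    intro h
    obtain ⟨t, rfl⟩ := Submodule.mem_span_singleton.1 h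
    exact hψx (by rw [map_smul, hB.1, smul_zero])
  obtain ⟨s, hs⟩ := finrank_annihilator_pair ha hx hA.1 hφx h1 h2 hφ
  have h3 : χ = χ' + (χ x / ψ x) • ψ := by rw [hdef, sub_add_cancel]
  rw [h3, hs]
  exact (hr a φ s hA).add (hr a ψ _ hB)

/-- An irreducible group with full root groups and a transvection contains `SL₃`. -/
theorem specialLinear_le_of_rootFull
    (hirr : ∀ W : Submodule F (Fin 3 → F),
      (∀ g ∈ M, ∀ x ∈ W, (g : Matrix (Fin 3) (Fin 3) F) *ᵥ x ∈ W) → W = ⊥ ∨ W = ⊤)
    (hr : RootFull M) {a : Fin 3 → F} {φ : Module.Dual F (Fin 3 → F)} (ha : a ≠ 0) (hφ : φ ≠ 0)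
    (hA : Has M a φ) : Cfsg.Geo.specialLinear (Fin 3) F ≤ M := by
  classical
  suffices hfull : ∃ b : Fin 3 → F, b ≠ 0 ∧ Full M b by
    obtain ⟨b, hb, hbf⟩ := hfull
    have htop : fullSubmodule M = ⊤ := by
      refine (hirr (fullSubmodule M) fun g hg x hx => Full.image hx hg).resolve_left fun h => hb ?_
      have : b ∈ fullSubmodule M := hbf
      rwa [h, Submodule.mem_bot] at this
    exact specialLinear_le_of_full (S := (fullSubmodule M : Set (Fin 3 → F)))
      (by rw [Submodule.span_eq, htop]) fun x hx => hx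
  -- the orbit of a non-zero vector spans
  have hspan : ∀ ξ : Module.Dual F (Fin 3 → F), ξ ≠ 0 → ∀ v : Fin 3 → F, v ≠ 0 →
      ∃ g ∈ M, ξ ((g : Matrix (Fin 3) (Fin 3) F) *ᵥ v) ≠ 0 := by
    intro ξ hξ v hv
    by_contra! h
    let W : Submodule F (Fin 3 → F) :=
      { carrier := {x | ∀ g ∈ M, ξ ((g : Matrix (Fin 3) (Fin 3) F) *ᵥ x) = 0}
        add_mem' := fun hx hy g hg => by rw [mulVec_add, map_add, hx g hg, hy g hg, add_zero]
        zero_mem' := fun g _ => by rw [mulVec_zero, map_zero]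
        smul_mem' := fun t x hx g hg => by rw [mulVec_smul, map_smul, hx g hg, smul_zero] }
    have hW : W = ⊤ := by
      refine (hirr W fun g hg x hx g' hg' => ?_).resolve_left fun h0 => hv ?_
      · rw [mulVec_mulVec, ← Units.val_mul]; exact hx _ (M.mul_mem hg' hg)
      · have : v ∈ W := h
        rwa [h0, Submodule.mem_bot] at this
    apply hξ
    refine LinearMap.ext fun x => ?_
    have hx : x ∈ W := hW ▸ Submodule.mem_top
    simpa using hx 1 M.one_mem
  -- a flag whose centre is off the first axis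
  obtain ⟨g, hg, hgb⟩ := hspan φ hφ a ha
  have hB := hA.conj' hg
  set b := (g : Matrix (Fin 3) (Fin 3) F) *ᵥ a with hb
  set ψ : Module.Dual F (Fin 3 → F) :=
    φ ∘ₗ Matrix.toLin' ((g⁻¹ : GL (Fin 3) F) : Matrix (Fin 3) (Fin 3) F) with hψdef
  by_cases hψa : ψ a = 0
  · refine ⟨a, ha, hr.full_of_two ha (hr.rule hA hB hψa hgb) hA (x := b) hB.1 hgb fun h => hφ ?_⟩
    refine LinearMap.ext fun x => ?_
    have := LinearMap.congr_fun h ((g : Matrix (Fin 3) (Fin 3) F) *ᵥ x)
    rwa [hψdef, LinearMap.comp_apply, Matrix.toLin'_apply, inv_mulVec_mulVec] at this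
  -- the common point of the two axes
  obtain ⟨R, hR0, hRφ, hRψ⟩ : ∃ R : Fin 3 → F, R ≠ 0 ∧ φ R = 0 ∧ ψ R = 0 := by
    let T : (Fin 3 → F) →ₗ[F] (Fin 2 → F) := LinearMap.pi ![φ, ψ]
    have hker : LinearMap.ker T ≠ ⊥ := by
      intro h
      have := LinearMap.finrank_range_add_finrank_ker T
      rw [h, finrank_bot, Module.finrank_fin_fun, add_zero] at this
      have h2 := Submodule.finrank_le (LinearMap.range T)
      rw [this, Module.finrank_fin_fun] at h2
      omega
    obtain ⟨R, hR, hR0⟩ := Submodule.exists_mem_ne_zero_of_ne_bot hker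
    rw [LinearMap.mem_ker] at hR
    exact ⟨R, hR0, congrFun hR 0, congrFun hR 1⟩
  -- a third flag whose axis misses it
  obtain ⟨k, hk, hkR⟩ := hspan φ hφ R hR0
  have hC := hA.conj' (M.inv_mem hk)
  set c := ((k⁻¹ : GL (Fin 3) F) : Matrix (Fin 3) (Fin 3) F) *ᵥ a with hc
  set χ : Module.Dual F (Fin 3 → F) :=
    φ ∘ₗ Matrix.toLin' (((k⁻¹)⁻¹ : GL (Fin 3) F) : Matrix (Fin 3) (Fin 3) F) with hχdef
  have hχR : χ R ≠ 0 := by
    rw [hχdef, LinearMap.comp_apply, Matrix.toLin'_apply, inv_inv]; exact hkR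
  have hc0 : c ≠ 0 := fun h => ha (by rw [← mulVec_inv_mulVec k a, ← hc, h, mulVec_zero])
  -- a flag of the line `a b` whose centre lies on that axis
  obtain ⟨a', φ', hA', ha', hφ', hRφ', hχa'⟩ : ∃ (a' : Fin 3 → F) (φ' : Module.Dual F (Fin 3 → F)),
      Has M a' φ' ∧ a' ≠ 0 ∧ φ' ≠ 0 ∧ φ' R = 0 ∧ χ a' = 0 := by
    by_cases hχb : χ b = 0
    · exact ⟨b, ψ, hB, fun h => hgb (by rw [h, map_zero]), fun h => hψa (by rw [h]; simp), hRψ, hχb⟩
    · let t : F := -(χ a) / χ b
      obtain ⟨h3, h4⟩ := hr b ψ (t / ψ a) hB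
      have hconj := hA.conj (ψ := φ - ((t / ψ a) * φ b) • ψ) h4 fun x => by
        rw [transv_mulVec]
        simp [hB.1]
        ring
      refine ⟨_, _, hconj, fun h => ha ?_, fun h => ?_, by simp [hRφ, hRψ], ?_⟩
      · rw [← inv_mulVec_mulVec (transv h3) a, h, mulVec_zero]
      · have := LinearMap.congr_fun h b
        simp [hB.1] at this
        exact hgb this
      · rw [transv_mulVec, map_add, LinearMap.smul_apply, smul_eq_mul, map_smul, smul_eq_mul,
          div_mul_cancel₀ _ hψa]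
        show χ a + -(χ a) / χ b * χ b = 0
        rw [div_mul_cancel₀ _ hχb, add_neg_cancel]
  by_cases hφc : φ' c = 0
  · have hmem : c ∈ Submodule.span F {a'} := by
      by_contra hnot
      obtain ⟨s, hs⟩ := finrank_annihilator_pair ha' hnot hA'.1 hφc hχa' hC.1 hφ'
      apply hχR
      rw [hs, LinearMap.smul_apply, hRφ', smul_zero]
    obtain ⟨s, hs⟩ := Submodule.mem_span_singleton.1 hmem
    have hs0 : s ≠ 0 := fun h => hc0 (by rw [← hs, h, zero_smul])
    rw [← hs, has_smul_swap hs0] at hC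
    have hχ2 := hr a' _ s⁻¹ hC
    rw [smul_smul, inv_mul_cancel₀ hs0, one_smul] at hχ2
    exact ⟨a', ha', hr.full_of_two ha' hA' hχ2 hRφ' hχR hφ'⟩
  · exact ⟨a', ha', hr.full_of_two ha' hA' (hr.rule hA' hC hχa' hφc) hRφ' hχR hφ'⟩

/-- Over a prime field root groups are automatic. -/
theorem rootFull_of_prime [Fintype F] (hp : (Fintype.card F).Prime) (M : Subgroup (GL (Fin 3) F)) :
    RootFull M := by
  intro a φ c h
  set p := Fintype.card F with hpdef
  haveI : Fact p.Prime := ⟨hp⟩
  haveI : CharP F p := by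
    obtain ⟨n, hn, hcard⟩ := FiniteField.card F (ringChar F)
    have hr : ringChar F = p :=
      (Nat.prime_dvd_prime_iff_eq hn hp).1 (hpdef ▸ hcard ▸ dvd_pow_self _ n.pos.ne')
    exact hr ▸ ringChar.charP F
  have hbij : Function.Bijective (ZMod.castHom (dvd_refl p) F) := by
    rw [Fintype.bijective_iff_injective_and_card]
    exact ⟨RingHom.injective _, ZMod.card p⟩
  obtain ⟨z, hz⟩ := hbij.2 c
  have hnat : ∀ n : ℕ, Has M a ((n : F) • φ) := by
    intro n
    induction n with
    | zero => rw [Nat.cast_zero, zero_smul]; exact has_zero_right a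
    | succ n ih => rw [Nat.cast_succ, add_smul, one_smul]; exact ih.add h
  have hzc : (z.val : F) = c := by
    rw [← hz, ← map_natCast (ZMod.castHom (dvd_refl p) F), ZMod.natCast_zmod_val]
  exact hzc ▸ hnat z.val

/-- A transvection in an irreducible group of three by three matrices over a prime field. -/
theorem specialLinear_le_of_transvection [Fintype F] (hp : (Fintype.card F).Prime)
    (M : Subgroup (GL (Fin 3) F))
    (hirr : ∀ W : Submodule F (Fin 3 → F),
      (∀ g ∈ M, ∀ x ∈ W, (g : Matrix (Fin 3) (Fin 3) F) *ᵥ x ∈ W) → W = ⊥ ∨ W = ⊤)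
    (ht : ∃ g ∈ M, IsTransv g) : Cfsg.Geo.specialLinear (Fin 3) F ≤ M := by
  obtain ⟨g, hg, v, f, hv, hf, hfv, hgeq⟩ := ht
  let φ : Module.Dual F (Fin 3 → F) :=
    { toFun := fun x => f ⬝ᵥ x
      map_add' := fun x y => dotProduct_add f x y
      map_smul' := fun t x => dotProduct_smul t f x }
  refine specialLinear_le_of_rootFull hirr (rootFull_of_prime hp M) hv (φ := φ) (fun h => hf ?_)
    ⟨hfv, ?_⟩
  · refine dotProduct_eq_zero f fun x => ?_
    exact LinearMap.congr_fun h x
  · convert hg using 1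
    refine ext_mulVec fun x => ?_
    rw [transv_mulVec, hgeq, Matrix.add_mulVec, Matrix.one_mulVec]
    congr 1
    ext i
    simp [φ, Matrix.mulVec, vecMulVec, dotProduct, Fin.sum_univ_three]
    ring

end CfsgLib.SLThree90
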