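import Cfsg.Agent.SLThree90.ExtraStandard
import Cfsg.Agent.SLThree90.Transvection

/-!
The normaliser of an extraspecial group of order `27` is maximal in `SL₃(p)`, `p ≡ 1 mod 3`,
provided the finite groups over the algebraic closure containing `3^(1+2).Q₈` and no transvection
normalise `3^(1+2)`.
-/

set_option autoImplicit false
set_option linter.unusedSectionVars false

universe u

namespace CfsgLib.SLThree90

namespace C6

open Matrix Cfsg.Geo

variable {F : Type*} [Field F]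

local notation "GL3" => GL (Fin 3) F
local notation "Mat3" => Matrix (Fin 3) (Fin 3) F

/-- A non-trivial element with `(g - 1)² = 0` is a transvection. -/
theorem isTransv_of_sq_zero {g : GL3} (hne : g ≠ 1)
    (h2 : ((g : Mat3) - 1) * ((g : Mat3) - 1) = 0) : IsTransv g := by
  set N : Mat3 := (g : Mat3) - 1 with hN
  have hN0 : N ≠ 0 := fun h0 => hne (Units.ext (sub_eq_zero.1 h0))
  have hrank : N.rank + N.rank ≤ 3 := by
    have hle : LinearMap.range N.mulVecLin ≤ LinearMap.ker N.mulVecLin := by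
      rintro _ ⟨x, rfl⟩
      rw [LinearMap.mem_ker, Matrix.mulVecLin_apply, Matrix.mulVecLin_apply, Matrix.mulVec_mulVec,
        h2, Matrix.zero_mulVec]
    have h3 := LinearMap.finrank_range_add_finrank_ker N.mulVecLin
    rw [Module.finrank_fin_fun] at h3
    have h4 := Submodule.finrank_mono hle
    show Module.finrank F (LinearMap.range N.mulVecLin) +
      Module.finrank F (LinearMap.range N.mulVecLin) ≤ 3
    omega
  obtain ⟨x, hx⟩ : ∃ x, N *ᵥ x ≠ 0 := by
    by_contra hc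
    push Not at hc
    exact hN0 (Matrix.ext_of_mulVec_single fun i => by rw [hc, Matrix.zero_mulVec])
  set v := N *ᵥ x with hv
  have hspan : LinearMap.range N.mulVecLin = Submodule.span F {v} := by
    refine (Submodule.eq_of_le_of_finrank_le ?_ ?_).symm
    · rw [Submodule.span_le, Set.singleton_subset_iff]
      exact ⟨x, rfl⟩
    · rw [finrank_span_singleton hx]
      change N.rank ≤ 1
      omega
  choose φ hφ using fun j => Submodule.mem_span_singleton.1
    (hspan.le ⟨Pi.single j 1, rfl⟩)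
  have hNeq : N = vecMulVec v φ := by
    refine Matrix.ext_of_mulVec_single fun j => ?_
    rw [show N *ᵥ Pi.single j 1 = φ j • v from (hφ j).symm]
    funext i
    simp [Matrix.vecMulVec, mul_comm]
  refine ⟨v, φ, hx, ?_, ?_, ?_⟩
  · intro h0
    exact hN0 (by rw [hNeq, h0]; ext i j; simp [Matrix.vecMulVec])
  · have h3 : N * N = (φ ⬝ᵥ v) • N := by
      rw [hNeq, Matrix.vecMulVec_mul_vecMulVec]
      ext i j
      simp only [Matrix.vecMulVec, Matrix.of_apply, Matrix.smul_apply, Pi.smul_apply, smul_eq_mul]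
      ring
    rw [h2] at h3
    exact (smul_eq_zero.1 h3.symm).resolve_right hN0
  · rw [← hNeq, hN]
    abel

theorem IsTransv.sq_zero {g : GL3} (h : IsTransv g) :
    g ≠ 1 ∧ ((g : Mat3) - 1) * ((g : Mat3) - 1) = 0 := by
  obtain ⟨v, φ, hv, hφ, hφv, hg⟩ := h
  have e : (g : Mat3) - 1 = vecMulVec v φ := by rw [hg]; abel
  refine ⟨fun h1 => ?_, ?_⟩
  · rw [h1, Units.val_one, sub_self] at e
    obtain ⟨i, hi⟩ := Function.ne_iff.1 hv
    obtain ⟨j, hj⟩ := Function.ne_iff.1 hφ
    have := congrFun (congrFun e i) j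
    simp [Matrix.vecMulVec] at this
    rcases this with h | h
    · exact hi h
    · exact hj h
  · rw [e, Matrix.vecMulVec_mul_vecMulVec, hφv, zero_smul, Matrix.vecMulVec_zero]

/-- A group of `p`-power order over `F_p` without transvections has order less than `p ^ 2`. -/
theorem not_sq_dvd_card [Fintype F] {p : ℕ} (hp : p.Prime) (h3p : 3 ≤ p) (hF : Fintype.card F = p)
    (M : Subgroup GL3) (hnt : ∀ g ∈ M, ¬ IsTransv g) : ¬ p ^ 2 ∣ Nat.card M := by
  classical
  intro hdvd
  haveI := Fact.mk hp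
  haveI : CharP F p := by
    obtain ⟨n, hn, hcard⟩ := FiniteField.card F (ringChar F)
    have hr : ringChar F = p :=
      (Nat.prime_dvd_prime_iff_eq hn hp).1 (hF ▸ hcard ▸ dvd_pow_self _ n.pos.ne')
    exact hr ▸ ringChar.charP F
  haveI : Finite M := inferInstance
  obtain ⟨P₀, hP₀⟩ := Sylow.exists_subgroup_card_pow_prime p hdvd
  set P := P₀.map M.subtype
  have hPM : P ≤ M := Subgroup.map_subtype_le _
  have hP : Nat.card P = p ^ 2 := by
    rw [← hP₀]; exact Subgroup.card_map_of_injective M.subtype_injective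
  haveI hPc : IsMulCommutative P := IsPGroup.isMulCommutative_of_card_eq_prime_sq hP
  have hpow : ∀ w ∈ P, w ^ p ^ 2 = 1 := by
    intro w hw
    have h : (⟨w, hw⟩ : P) ^ p ^ 2 = 1 := by rw [← hP]; exact pow_card_eq_one'
    exact congrArg Subtype.val h
  have hsub : ∀ w ∈ P, ((w : Mat3) - 1) ^ p ^ 2 = 0 := by
    intro w hw
    have hc : CharP Mat3 p := inferInstance
    rw [sub_pow_char_pow_of_commute (p := p) (n := 2) (Commute.one_right (w : Mat3)), one_pow,
      ← Units.val_pow_eq_pow_val, hpow w hw, Units.val_one, sub_self]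
  have hcube : ∀ w ∈ P, ((w : Mat3) - 1) ^ 3 = 0 := by
    intro w hw
    have h2 := Matrix.isNilpotent_charpoly_sub_pow_of_isNilpotent
      (⟨_, hsub w hw⟩ : IsNilpotent ((w : Mat3) - 1))
    rw [Fintype.card_fin, isNilpotent_iff_eq_zero, sub_eq_zero] at h2
    have h3 := Matrix.aeval_self_charpoly ((w : Mat3) - 1)
    rwa [h2, Polynomial.aeval_X_pow] at h3
  have hsq : ∀ w ∈ P, w ≠ 1 → ((w : Mat3) - 1) * ((w : Mat3) - 1) ≠ 0 := fun w hw hne h =>
    hnt w (hPM hw) (isTransv_of_sq_zero hne h)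
  haveI : Nontrivial P := by
    rw [← Finite.one_lt_card_iff_nontrivial, hP]
    exact Nat.one_lt_pow (by norm_num) hp.one_lt
  obtain ⟨⟨u, hu⟩, hu1⟩ := exists_ne (1 : P)
  have hu1' : u ≠ 1 := fun h => hu1 (Subtype.ext h)
  set N : Mat3 := (u : Mat3) - 1 with hN
  have hN3 : N ^ 3 = 0 := hcube u hu
  obtain ⟨v, hv⟩ : ∃ v, (N * N) *ᵥ v ≠ 0 := by
    by_contra hc
    push Not at hc
    exact hsq u hu hu1' (Matrix.ext_of_mulVec_single fun i => by rw [hc, Matrix.zero_mulVec])
  set b : Fin 3 → (Fin 3 → F) := ![v, N *ᵥ v, (N * N) *ᵥ v] with hb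
  have hN3v : N *ᵥ ((N * N) *ᵥ v) = 0 := by
    rw [Matrix.mulVec_mulVec, ← Matrix.mul_assoc, ← pow_two, ← pow_succ, hN3, Matrix.zero_mulVec]
  have hli : LinearIndependent F b := by
    rw [Fintype.linearIndependent_iff]
    intro c hc
    simp only [hb, Fin.sum_univ_three, Matrix.cons_val_zero, Matrix.cons_val_one,
      Matrix.cons_val_two, Matrix.tail_cons, Matrix.head_cons] at hc
    have e1 := congrArg (N *ᵥ ·) hc
    simp only [Matrix.mulVec_add, Matrix.mulVec_smul, Matrix.mulVec_zero, hN3v, smul_zero,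
      add_zero] at e1
    rw [Matrix.mulVec_mulVec v N N] at e1
    have e2 := congrArg (N *ᵥ ·) e1
    simp only [Matrix.mulVec_add, Matrix.mulVec_smul, Matrix.mulVec_zero, hN3v, smul_zero,
      add_zero] at e2
    rw [Matrix.mulVec_mulVec v N N] at e2
    have c0 : c 0 = 0 := (smul_eq_zero.1 e2).resolve_right hv
    rw [c0, zero_smul, zero_add] at e1
    have c1 : c 1 = 0 := (smul_eq_zero.1 e1).resolve_right hv
    rw [c0, c1, zero_smul, zero_smul, zero_add, zero_add] at hc
    have c2 : c 2 = 0 := (smul_eq_zero.1 hc).resolve_right hv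
    intro i
    fin_cases i <;> assumption
  have hspan : Submodule.span F (Set.range b) = ⊤ := hli.span_eq_top_of_card_eq_finrank (by simp)
  have hpoly : ∀ W : Mat3, W * N = N * W →
      ∃ c : Fin 3 → F, W = c 0 • (1 : Mat3) + c 1 • N + c 2 • (N * N) := by
    intro W hW
    obtain ⟨c, hc⟩ := (Submodule.mem_span_range_iff_exists_fun F).1
      (show W *ᵥ v ∈ Submodule.span F (Set.range b) by rw [hspan]; trivial)
    refine ⟨c, ?_⟩
    simp only [hb, Fin.sum_univ_three, Matrix.cons_val_zero, Matrix.cons_val_one,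
      Matrix.cons_val_two, Matrix.tail_cons, Matrix.head_cons] at hc
    set D : Mat3 := c 0 • (1 : Mat3) + c 1 • N + c 2 • (N * N)
    have hD : D * N = N * D := by
      simp only [D, add_mul, mul_add, Matrix.smul_mul, Matrix.mul_smul, Matrix.one_mul,
        Matrix.mul_one, Matrix.mul_assoc]
    have h0 : W *ᵥ v = D *ᵥ v := by
      rw [← hc]
      simp [D, Matrix.add_mulVec, Matrix.smul_mulVec]
    have h1 : W *ᵥ (N *ᵥ v) = D *ᵥ (N *ᵥ v) := by
      rw [Matrix.mulVec_mulVec, Matrix.mulVec_mulVec, hW, hD, ← Matrix.mulVec_mulVec, h0,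
        Matrix.mulVec_mulVec]
    have h2 : W *ᵥ ((N * N) *ᵥ v) = D *ᵥ ((N * N) *ᵥ v) := by
      rw [← Matrix.mulVec_mulVec v N N, Matrix.mulVec_mulVec (N *ᵥ v) W N,
        Matrix.mulVec_mulVec (N *ᵥ v) D N, hW, hD, ← Matrix.mulVec_mulVec, h1,
        Matrix.mulVec_mulVec]
    suffices hall : ∀ z, W *ᵥ z = D *ᵥ z from Matrix.ext_of_mulVec_single fun j => hall _
    intro z
    have hx : z ∈ Submodule.span F (Set.range b) := by
      rw [hspan]; trivial
    induction hx using Submodule.span_induction with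
    | mem x hx =>
      obtain ⟨i, rfl⟩ := hx
      fin_cases i
      · exact h0
      · exact h1
      · exact h2
    | zero => simp
    | add x y _ _ hx hy => rw [Matrix.mulVec_add, Matrix.mulVec_add, hx, hy]
    | smul t x _ hx => rw [Matrix.mulVec_smul, Matrix.mulVec_smul, hx]
  have hone : ∀ w : P, ∃ c : F × F, ((w : GL3) : Mat3) = 1 + c.1 • N + c.2 • (N * N) := by
    intro w
    have hwu : (w : GL3) * u = u * w := congrArg Subtype.val (hPc.is_comm.comm w ⟨u, hu⟩)
    have hwN : ((w : GL3) : Mat3) * N = N * ((w : GL3) : Mat3) := by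
      rw [hN, mul_sub, sub_mul, mul_one, one_mul, ← Units.val_mul, hwu, Units.val_mul]
    obtain ⟨c, hc⟩ := hpoly _ hwN
    refine ⟨(c 1, c 2), ?_⟩
    suffices h : c 0 = 1 by rw [hc, h, one_smul]
    -- both `w - 1` and the rest are nilpotent
    set K : Mat3 := c 1 • N + c 2 • (N * N) with hK
    have hwK : ((w : GL3) : Mat3) - 1 = (c 0 - 1) • (1 : Mat3) + K := by
      rw [hc, hK, sub_smul, one_smul]; abel
    have hKN : IsNilpotent K := by
      have hN' : IsNilpotent N := ⟨3, hN3⟩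
      refine Commute.isNilpotent_add ?_ (hN'.smul _) ((Commute.refl N).isNilpotent_mul_right hN' |>.smul _)
      exact (((Commute.refl N).mul_right (Commute.refl N)).smul_right _).smul_left _
    have h1 : IsNilpotent ((c 0 - 1) • (1 : Mat3)) := by
      have e : (c 0 - 1) • (1 : Mat3) = (((w : GL3) : Mat3) - 1) - K := by rw [hwK]; abel
      rw [e]
      refine Commute.isNilpotent_sub ?_ ⟨3, hcube _ w.2⟩ hKN
      rw [hwK]
      exact ((Commute.one_left K).smul_left _).add_left (Commute.refl K)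
    obtain ⟨m, hm⟩ := h1
    rw [smul_pow, one_pow] at hm
    have := congrFun (congrFun hm 0) 0
    simp at this
    exact sub_eq_zero.1 this.1
  choose c hc using hone
  have hinj : Function.Injective c := fun a a' h =>
    Subtype.ext (Units.ext (by rw [hc a, hc a', h]))
  have hcardFF : Nat.card (F × F) = p ^ 2 := by
    rw [Nat.card_prod, Nat.card_eq_fintype_card, hF, pow_two]
  obtain ⟨w, hw⟩ := ((Nat.bijective_iff_injective_and_card c).2 ⟨hinj, by rw [hP, hcardFF]⟩).2 (0, 1)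
  have hwv := hc w
  rw [hw, zero_smul, add_zero, one_smul] at hwv
  refine hsq w w.2 (fun h1 => ?_) ?_
  · rw [h1, Units.val_one] at hwv
    exact hsq u hu hu1' (by simpa using hwv)
  · rw [hwv, add_sub_cancel_left, show N * N * (N * N) = N ^ 3 * N by simp [pow_succ, mul_assoc],
      hN3, zero_mul]

theorem det_xMat {ω : F} (hω3 : ω ^ 3 = 1) : (xMat ω).det = 1 := by
  simp [xMat, Matrix.det_fin_three]
  linear_combination hω3

theorem det_yMat : (yMat : Mat3).det = 1 := by
  simp [yMat, Matrix.det_fin_three]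

theorem det_aMat {ω : F} (hω : IsPrimitiveRoot ω 3) : (aMat ω).det = 1 := by
  have hω3 := hω.pow_eq_one
  have h1 : ω - ω ^ 2 ≠ 0 := sub_ne_zero.2 fun h => hω.ne_one (by norm_num)
    (mul_left_cancel₀ (hω.ne_zero (by norm_num)) (by rw [← pow_two, ← h, mul_one]))
  have hω2 : ω ^ 2 + ω + 1 = 0 := by
    refine (mul_eq_zero.1 (?_ : (ω - 1) * (ω ^ 2 + ω + 1) = 0)).resolve_left
      (sub_ne_zero.2 (hω.ne_one (by norm_num)))
    linear_combination hω3
  rw [aMat, Matrix.det_smul, Fintype.card_fin, Matrix.det_fin_three]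
  simp
  field_simp
  grind

theorem det_bMat {ω : F} (hω : IsPrimitiveRoot ω 3) : (bMat ω).det = 1 := by
  have hω3 := hω.pow_eq_one
  have h1 : ω - ω ^ 2 ≠ 0 := sub_ne_zero.2 fun h => hω.ne_one (by norm_num)
    (mul_left_cancel₀ (hω.ne_zero (by norm_num)) (by rw [← pow_two, ← h, mul_one]))
  have hω2 : ω ^ 2 + ω + 1 = 0 := by
    refine (mul_eq_zero.1 (?_ : (ω - 1) * (ω ^ 2 + ω + 1) = 0)).resolve_left
      (sub_ne_zero.2 (hω.ne_one (by norm_num)))
    linear_combination hω3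
  rw [bMat, Matrix.det_smul, Fintype.card_fin, Matrix.det_fin_three]
  simp
  field_simp
  grind

theorem aMat_mul_xMat {ω : F} (hω3 : ω ^ 3 = 1) : aMat ω * xMat ω = yMat ^ 2 * aMat ω := by
  rw [aMat, Matrix.smul_mul, Matrix.mul_smul, pow_two (yMat : Mat3)]
  congr 1
  ext r c
  fin_cases r <;> fin_cases c <;>
    (simp [xMat, yMat, Matrix.mul_apply, Fin.sum_univ_three] <;> grind)

theorem aMat_mul_yMat {ω : F} (hω3 : ω ^ 3 = 1) : aMat ω * yMat = xMat ω * aMat ω := by
  rw [aMat, Matrix.smul_mul, Matrix.mul_smul]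
  congr 1
  ext r c
  fin_cases r <;> fin_cases c <;>
    (simp [xMat, yMat, Matrix.mul_apply, Fin.sum_univ_three] <;> grind)

theorem bMat_mul_xMat {ω : F} (hω3 : ω ^ 3 = 1) :
    bMat ω * xMat ω = ω ^ 2 • (xMat ω * yMat ^ 2) * bMat ω := by
  rw [bMat, Matrix.smul_mul, Matrix.mul_smul, pow_two (yMat : Mat3)]
  congr 1
  ext r c
  fin_cases r <;> fin_cases c <;>
    (simp [xMat, yMat, Matrix.mul_apply, Fin.sum_univ_three] <;> grind)

theorem bMat_mul_yMat {ω : F} (hω3 : ω ^ 3 = 1) :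
    bMat ω * yMat = ω • (xMat ω ^ 2 * yMat ^ 2) * bMat ω := by
  rw [bMat, Matrix.smul_mul, Matrix.mul_smul, pow_two (yMat : Mat3), pow_two (xMat ω)]
  congr 1
  ext r c
  fin_cases r <;> fin_cases c <;>
    (simp [xMat, yMat, Matrix.mul_apply, Fin.sum_univ_three] <;> grind)

theorem inR_x {ω : F} {u : GL3} (hu : (u : Mat3) = xMat ω) : InR ω u := ⟨0, 1, 0, by simp [hu]⟩

theorem inR_y {ω : F} {u : GL3} (hu : (u : Mat3) = yMat) : InR ω u := ⟨0, 0, 1, by simp [hu]⟩

/-- The elements of `R` are monomial. -/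
theorem inR_monomial {ω : F} {u : GL3} (h : InR ω u) : (u : Mat3) 0 0 = 0 ∨ (u : Mat3) 0 1 = 0 := by
  obtain ⟨k, i, j, hu⟩ := h
  rw [hu]
  fin_cases i <;> fin_cases j <;>
    simp [xMat, yMat, pow_two, Matrix.mul_apply, Fin.sum_univ_three]

/-- A group containing the two generators is irreducible. -/
theorem irreducible_of_xy {ω : F} (hω : IsPrimitiveRoot ω 3) (h3 : (3 : F) ≠ 0) {M : Subgroup GL3}
    {X Y : GL3} (hXv : (X : Mat3) = xMat ω) (hYv : (Y : Mat3) = yMat) (hX : X ∈ M) (hY : Y ∈ M)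
    (W : Submodule F (Fin 3 → F))
    (hW : ∀ g ∈ M, ∀ x ∈ W, (g : Mat3) *ᵥ x ∈ W) : W = ⊥ ∨ W = ⊤ := by
  rcases eq_or_ne W ⊥ with h | h
  · exact Or.inl h
  right
  have hω3 := hω.pow_eq_one
  have hω2 : ω ^ 2 + ω + 1 = 0 := by
    refine (mul_eq_zero.1 (?_ : (ω - 1) * (ω ^ 2 + ω + 1) = 0)).resolve_left
      (sub_ne_zero.2 (hω.ne_one (by norm_num)))
    linear_combination hω3
  obtain ⟨w, hw, hw0⟩ := Submodule.exists_mem_ne_zero_of_ne_bot h
  have hXw : xMat ω *ᵥ w ∈ W := hXv ▸ hW X hX w hw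
  have hXXw : xMat ω *ᵥ (xMat ω *ᵥ w) ∈ W := by
    have h1 := hW X hX _ hXw
    rwa [hXv] at h1
  have hxv : ∀ z : Fin 3 → F, xMat ω *ᵥ z = ![z 0, ω * z 1, ω ^ 2 * z 2] := fun z => by
    funext r
    fin_cases r <;> simp [xMat, Matrix.mulVec, dotProduct, Fin.sum_univ_three]
  have hcyc : ∀ i : Fin 3, (Pi.single i 1 : Fin 3 → F) ∈ W →
      (Pi.single (i + 1) 1 : Fin 3 → F) ∈ W := fun i hi => by
    have h1 := hW Y hY _ hi
    rw [hYv, Matrix.mulVec_single_one] at h1
    convert h1 using 1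
    funext r
    fin_cases i <;> fin_cases r <;> simp [yMat]
  obtain ⟨i, hi⟩ : ∃ i, w i ≠ 0 := Function.ne_iff.1 hw0
  have hone : ∀ i : Fin 3, w i ≠ 0 → (Pi.single i 1 : Fin 3 → F) ∈ W := by
    intro i hi
    have key : (3 * w i) • (Pi.single i 1 : Fin 3 → F) = w + ω ^ (2 * (i : ℕ)) • (xMat ω *ᵥ w) +
        ω ^ (4 * (i : ℕ)) • (xMat ω *ᵥ (xMat ω *ᵥ w)) := by
      rw [hxv, hxv]
      funext r
      fin_cases i <;> fin_cases r <;> simp [Matrix.vecHead, Matrix.vecTail] <;> grind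
    have hmem : (3 * w i) • (Pi.single i 1 : Fin 3 → F) ∈ W := by
      rw [key]
      exact add_mem (add_mem hw (W.smul_mem _ hXw)) (W.smul_mem _ hXXw)
    have := W.smul_mem (3 * w i)⁻¹ hmem
    rwa [inv_smul_smul₀ (mul_ne_zero h3 hi)] at this
  have hall : ∀ j : Fin 3, (Pi.single j 1 : Fin 3 → F) ∈ W := by
    intro j
    have h0 := hone i hi
    have h1 := hcyc i h0
    have h2 := hcyc _ h1
    fin_cases i <;> fin_cases j <;> first | exact h0 | exact h1 | exact h2
  rw [eq_top_iff]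
  intro z _
  rw [show z = ∑ j, z j • (Pi.single j 1 : Fin 3 → F) by
    funext r; simp [Finset.sum_apply, Pi.single_apply]]
  exact Submodule.sum_mem _ fun j _ => W.smul_mem _ (hall j)

/-- The generators inside `SL₃` and the normaliser. -/
theorem exists_gens {ω : F} (hω : IsPrimitiveRoot ω 3) :
    ∃ X Y A B : GL3, (X : Mat3) = xMat ω ∧ (Y : Mat3) = yMat ∧ (A : Mat3) = aMat ω ∧
      (B : Mat3) = bMat ω ∧ X ∈ specialLinear (Fin 3) F ∧ Y ∈ specialLinear (Fin 3) F ∧
      A ∈ specialLinear (Fin 3) F ∧ B ∈ specialLinear (Fin 3) F := by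
  have hsl : ∀ A : Mat3, ∀ h : A.det = 1,
      Matrix.GeneralLinearGroup.mkOfDetNeZero A (h ▸ one_ne_zero) ∈ specialLinear (Fin 3) F :=
    fun A h => Units.ext h
  refine ⟨_, _, _, _, ?_, ?_, ?_, ?_, hsl _ (det_xMat hω.pow_eq_one), hsl _ det_yMat,
    hsl _ (det_aMat hω), hsl _ (det_bMat hω)⟩ <;> rfl

/-- Normalising `R` is read on the generators. -/
theorem inR_conj {ω : F} {R : Subgroup GL3} (hR : ∀ u : GL3, InR ω u ↔ u ∈ R) {X Y h : GL3}
    (hXv : (X : Mat3) = xMat ω) (hYv : (Y : Mat3) = yMat)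
    (hX : h * X * h⁻¹ ∈ R) (hY : h * Y * h⁻¹ ∈ R) {u : GL3} (hu : u ∈ R) : h * u * h⁻¹ ∈ R := by
  obtain ⟨k, i, j, hv⟩ := (hR u).2 hu
  have hXR : X ∈ R := (hR X).1 (inR_x hXv)
  have hYR : Y ∈ R := (hR Y).1 (inR_y hYv)
  set z : GL3 := u * (X ^ (i : ℕ) * Y ^ (j : ℕ))⁻¹ with hz
  have hzR : z ∈ R := mul_mem hu (inv_mem (mul_mem (pow_mem hXR _) (pow_mem hYR _)))
  have e : u = z * (X ^ (i : ℕ) * Y ^ (j : ℕ)) := by rw [hz, inv_mul_cancel_right]
  have hzv : (z : Mat3) = ω ^ (k : ℕ) • 1 := by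
    have hP : ((X ^ (i : ℕ) * Y ^ (j : ℕ) : GL3) : Mat3) = xMat ω ^ (i : ℕ) * yMat ^ (j : ℕ) := by
      rw [Units.val_mul, Units.val_pow_eq_pow_val, Units.val_pow_eq_pow_val, hXv, hYv]
    rw [hz, Units.val_mul, hv, ← hP, Matrix.smul_mul, ← Units.val_mul, mul_inv_cancel,
      Units.val_one]
  clear_value z
  have hzc : h * z * h⁻¹ = z := by
    have : h * z = z * h := Units.ext (by
      rw [Units.val_mul, Units.val_mul, hzv, Matrix.mul_smul, Matrix.smul_mul, Matrix.mul_one,
        Matrix.one_mul])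
    rw [this, mul_inv_cancel_right]
  have e2 : h * u * h⁻¹ = z * ((h * X * h⁻¹) ^ (i : ℕ) * (h * Y * h⁻¹) ^ (j : ℕ)) := by
    rw [e]
    conv_rhs => rw [← hzc]
    rw [conj_pow, conj_pow]
    group
  rw [e2]
  exact mul_mem hzR (mul_mem (pow_mem hX _) (pow_mem hY _))

end C6

open Matrix Cfsg.Geo in
/-- The core, read over the field itself: a group of determinant one without transvections,
with small `p`-part and the standard generators normalises the standard `R`. -/
theorem C6.inR_conj_of_core {F : Type u} [Field F] [Finite F]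
    (core : ∀ (L : Type u) [Field L] [IsAlgClosed L] (p : ℕ) (M : Subgroup (GL (Fin 3) L))
      (ω : Lˣ), Extra p M ω → NormalisesR (ω : L) M)
    {p : ℕ} (hp : p.Prime) (hp7 : 7 ≤ p) [CharP F p] {ω : F} (hω : IsPrimitiveRoot ω 3)
    {M : Subgroup (GL (Fin 3) F)} (hMS : M ≤ specialLinear (Fin 3) F)
    (ht : ∀ g ∈ M, ¬ IsTransv g) (hsq : ¬ p ^ 2 ∣ Nat.card M) {X Y A B Z : GL (Fin 3) F}
    (hXv : (X : Matrix (Fin 3) (Fin 3) F) = xMat ω) (hYv : (Y : Matrix (Fin 3) (Fin 3) F) = yMat)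
    (hAv : (A : Matrix (Fin 3) (Fin 3) F) = aMat ω) (hBv : (B : Matrix (Fin 3) (Fin 3) F) = bMat ω)
    (hZv : (Z : Matrix (Fin 3) (Fin 3) F) = ω • 1)
    (hXM : X ∈ M) (hYM : Y ∈ M) (hAM : A ∈ M) (hBM : B ∈ M) (hZM : Z ∈ M)
    {h u : GL (Fin 3) F} (hh : h ∈ M) (hu : InR ω u) : InR ω (h * u * h⁻¹) := by
  set L := AlgebraicClosure F
  set ι : F →+* L := algebraMap F L with hι
  haveI : CharP L p := charP_of_injective_algebraMap (algebraMap F L).injective p
  set e : GL (Fin 3) F →* GL (Fin 3) L := Matrix.GeneralLinearGroup.map ι with he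
  have hev : ∀ u : GL (Fin 3) F, ((e u : GL (Fin 3) L) : Matrix (Fin 3) (Fin 3) L) =
      (u : Matrix (Fin 3) (Fin 3) F).map ι := fun u => rfl
  have hinjm : Function.Injective fun A : Matrix (Fin 3) (Fin 3) F => A.map ι :=
    Matrix.map_injective ι.injective
  have heinj : Function.Injective e := fun a b hab => Units.ext (hinjm (by
    simpa [hev] using congrArg Units.val hab))
  have hω0 : ι ω ≠ 0 := (map_ne_zero ι).2 (hω.ne_zero (by norm_num))
  have hxm : (xMat ω).map ι = xMat (ι ω) := by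
    ext r c; fin_cases r <;> fin_cases c <;> simp [xMat]
  have hym : (yMat : Matrix (Fin 3) (Fin 3) F).map ι = yMat := by
    ext r c; fin_cases r <;> fin_cases c <;> simp [yMat]
  have ham : (aMat ω).map ι = aMat (ι ω) := by
    ext r c; fin_cases r <;> fin_cases c <;> simp [aMat]
  have hbm : (bMat ω).map ι = bMat (ι ω) := by
    ext r c; fin_cases r <;> fin_cases c <;> simp [bMat]
  have hExtra : Extra p (M.map e) (Units.mk0 (ι ω) hω0) := by
    refine { p_prime := hp, seven_le := hp7, char := inferInstance, finite := ?_, det_one := ?_,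
             no_transv := ?_, not_p_sq := ?_, omega := ?_, scalar_mem := ?_,
             x_mem := ⟨e X, ⟨X, hXM, rfl⟩, by rw [hev, hXv, hxm]; rfl⟩,
             y_mem := ⟨e Y, ⟨Y, hYM, rfl⟩, by rw [hev, hYv, hym]⟩,
             a_mem := ⟨e A, ⟨A, hAM, rfl⟩, by rw [hev, hAv, ham]; rfl⟩,
             b_mem := ⟨e B, ⟨B, hBM, rfl⟩, by rw [hev, hBv, hbm]; rfl⟩ }
    · exact Finite.of_equiv M (M.equivMapOfInjective e heinj).toEquiv
    · rintro _ ⟨u, hu, rfl⟩
      rw [hev, ← RingHom.mapMatrix_apply, ← RingHom.map_det]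
      have := congrArg Units.val (hMS hu)
      rw [show (u : Matrix (Fin 3) (Fin 3) F).det = 1 from this, map_one]
    · rintro _ ⟨u, hu, rfl⟩ htr
      obtain ⟨h1, h2⟩ := C6.IsTransv.sq_zero htr
      refine ht u hu (C6.isTransv_of_sq_zero (fun h0 => h1 (by rw [h0, map_one])) (hinjm ?_))
      simpa [hev, Matrix.map_mul, Matrix.map_sub, Matrix.map_one] using h2
    · rw [← Nat.card_congr (M.equivMapOfInjective e heinj).toEquiv]
      exact hsq
    · rw [← IsPrimitiveRoot.coe_units_iff]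
      exact hω.map_of_injective ι.injective
    · refine ⟨Z, ?_, Units.ext ?_⟩
      · exact hZM
      · rw [hev, hZv, sc3_val, Units.val_mk0]
        ext r c
        rcases eq_or_ne r c with rfl | hrc <;> simp [*]
  have hn := core L p (M.map e) _ hExtra
  have hpush : ∀ (k i j : ℕ), (ω ^ k • (xMat ω ^ i * yMat ^ j)).map ι =
      (ι ω) ^ k • (xMat (ι ω) ^ i * yMat ^ j) := by
    intro k i j
    rw [Matrix.map_smul' _ _ _ (map_mul ι), Matrix.map_mul, map_pow,
      ← RingHom.mapMatrix_apply, map_pow, RingHom.mapMatrix_apply, hxm,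
      ← RingHom.mapMatrix_apply, map_pow, RingHom.mapMatrix_apply, hym]
  obtain ⟨k, i, j, hku⟩ := hu
  obtain ⟨k', i', j', hk'⟩ := hn _ ⟨_, hh, rfl⟩ (e u) ⟨k, i, j, by
    rw [hev, hku, hpush]; rfl⟩
  refine ⟨k', i', j', hinjm ?_⟩
  show (_ : Matrix (Fin 3) (Fin 3) F).map ι = _
  rw [← hev, map_mul, map_mul, map_inv, hk']
  exact (hpush _ _ _).symm

open Matrix Cfsg.Geo in
/-- The normaliser of an extraspecial group of order `27` is maximal, given the core. -/
theorem c6_maximal {F : Type u} [Field F] [Fintype F]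
    (core : ∀ (L : Type u) [Field L] [IsAlgClosed L] (p : ℕ) (M : Subgroup (GL (Fin 3) L))
      (ω : Lˣ), Extra p M ω → NormalisesR (ω : L) M)
    (p : ℕ) (R : Subgroup (GL (Fin 3) F)) (hp : p.Prime) (hF : Fintype.card F = p) (h13 : p % 3 = 1)
    (hR : IsLinearSymplecticTypeData 3 R) :
    IsMaximalIn (specialLinear (Fin 3) F) (subgroupNormalizer R ⊓ specialLinear (Fin 3) F) := by
  classical
  haveI := Fact.mk hp
  haveI hchar : CharP F p := by
    obtain ⟨n, hn, hcard⟩ := FiniteField.card F (ringChar F)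
    have hr : ringChar F = p :=
      (Nat.prime_dvd_prime_iff_eq hn hp).1 (hF ▸ hcard ▸ dvd_pow_self _ n.pos.ne')
    exact hr ▸ ringChar.charP F
  have hp7 : 7 ≤ p := by
    by_contra h
    have : p < 7 := by omega
    interval_cases p <;> revert hp h13 <;> decide
  have h3 : (3 : F) ≠ 0 := fun h => by
    have := Nat.le_of_dvd (by norm_num) ((CharP.cast_eq_zero_iff F p 3).1 (by exact_mod_cast h))
    omega
  obtain ⟨g, ω, hω, hstd⟩ := C6.exists_standard h3 hR.symplecticType hR.absIrred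
  have hω3 := hω.pow_eq_one
  obtain ⟨X, Y, A, B, hXv, hYv, hAv, hBv, hXS, hYS, hAS, hBS⟩ := C6.exists_gens hω
  haveI hsn : (specialLinear (Fin 3) F).Normal := by rw [specialLinear]; infer_instance
  set R' := cnj g R with hR'
  have hXR : X ∈ R' := (hstd X).1 (C6.inR_x hXv)
  have hYR : Y ∈ R' := (hstd Y).1 (C6.inR_y hYv)
  -- the standard normaliser pulled back
  have hback : ∀ h : GL (Fin 3) F, (∀ u ∈ R', h * u * h⁻¹ ∈ R') →
      g⁻¹ * h * g ∈ subgroupNormalizer R := by
    intro h hh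
    have key : ∀ r ∈ R, g⁻¹ * h * g * r * (g⁻¹ * h * g)⁻¹ ∈ R := by
      intro r hr
      have := mem_cnj.1 (hh _ (conj_mem_cnj (P := g) hr))
      simpa [mul_assoc] using this
    rw [subgroupNormalizer, Subgroup.mem_normalizer_iff]
    intro r
    refine ⟨key r, fun hr => ?_⟩
    let f : R → R := fun r => ⟨_, key r r.2⟩
    have hf : Function.Injective f := fun a b e => Subtype.ext (by
      have := congrArg Subtype.val e
      exact mul_left_cancel (mul_right_cancel this))
    obtain ⟨r₀, hr₀⟩ := Finite.injective_iff_surjective.1 hf ⟨_, hr⟩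
    have := mul_left_cancel (mul_right_cancel (congrArg Subtype.val hr₀))
    exact this ▸ r₀.2
  have hXN : g⁻¹ * X * g ∈ subgroupNormalizer R :=
    hback X fun u hu => mul_mem (mul_mem hXR hu) (inv_mem hXR)
  have hYN : g⁻¹ * Y * g ∈ subgroupNormalizer R :=
    hback Y fun u hu => mul_mem (mul_mem hYR hu) (inv_mem hYR)
  set Z := X * Y * X⁻¹ * Y⁻¹ with hZ
  have hZR : Z ∈ R' := mul_mem (mul_mem (mul_mem hXR hYR) (inv_mem hXR)) (inv_mem hYR)
  have hZv : (Z : Matrix (Fin 3) (Fin 3) F) = ω • 1 := by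
    rw [hZ, show X * Y * X⁻¹ * Y⁻¹ = (X * Y) * (Y * X)⁻¹ by group, Units.val_mul, Units.val_mul,
      hXv, hYv, C6.xMat_mul_yMat hω3, Matrix.smul_mul]
    congr 1
    rw [show (yMat : Matrix (Fin 3) (Fin 3) F) * xMat ω = ((Y * X : GL (Fin 3) F) : Matrix _ _ F) by
      rw [Units.val_mul, hXv, hYv], ← Units.val_mul, mul_inv_cancel, Units.val_one]
  clear_value Z
  have hconj : ∀ {h x y : GL (Fin 3) F}, h * x = y * h → h * x * h⁻¹ = y := fun e => by
    rw [e, mul_inv_cancel_right]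
  have hAN : g⁻¹ * A * g ∈ subgroupNormalizer R := by
    refine hback A fun u hu => C6.inR_conj hstd hXv hYv ?_ ?_ hu
    · rw [hconj (y := Y ^ 2) (Units.ext (by
        rw [Units.val_mul, Units.val_mul, Units.val_pow_eq_pow_val, hAv, hXv, hYv,
          C6.aMat_mul_xMat hω3]))]
      exact pow_mem hYR _
    · rw [hconj (y := X) (Units.ext (by
        rw [Units.val_mul, Units.val_mul, hAv, hXv, hYv, C6.aMat_mul_yMat hω3]))]
      exact hXR
  have hBN : g⁻¹ * B * g ∈ subgroupNormalizer R := by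
    refine hback B fun u hu => C6.inR_conj hstd hXv hYv ?_ ?_ hu
    · rw [hconj (y := Z ^ 2 * (X * Y ^ 2)) (Units.ext (by
        rw [Units.val_mul, Units.val_mul (Z ^ 2 * (X * Y ^ 2)), Units.val_mul (Z ^ 2),
          Units.val_mul, Units.val_pow_eq_pow_val, Units.val_pow_eq_pow_val, hBv, hXv, hYv, hZv,
          smul_pow, one_pow, C6.bMat_mul_xMat hω3]
        simp only [Matrix.smul_mul, Matrix.one_mul]))]
      exact mul_mem (pow_mem hZR _) (mul_mem hXR (pow_mem hYR _))
    · rw [hconj (y := Z * (X ^ 2 * Y ^ 2)) (Units.ext (by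
        rw [Units.val_mul, Units.val_mul (Z * (X ^ 2 * Y ^ 2)), Units.val_mul Z,
          Units.val_mul, Units.val_pow_eq_pow_val, Units.val_pow_eq_pow_val, hBv, hXv, hYv, hZv,
          C6.bMat_mul_yMat hω3]
        simp only [Matrix.smul_mul, Matrix.one_mul]))]
      exact mul_mem hZR (mul_mem (pow_mem hXR _) (pow_mem hYR _))
  have hSL : ∀ h ∈ specialLinear (Fin 3) F, g⁻¹ * h * g ∈ specialLinear (Fin 3) F := fun h hh => by
    simpa using hsn.conj_mem h hh g⁻¹
  refine ⟨lt_of_le_of_ne inf_le_right fun heq => ?_, fun M hNM hMS => ?_⟩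
  · -- a transvection does not normalise `R`
    obtain ⟨T, hTv, hTS⟩ : ∃ T : GL (Fin 3) F,
        (T : Matrix (Fin 3) (Fin 3) F) = !![1, 1, 0; 0, 1, 0; 0, 0, 1] ∧
        T ∈ specialLinear (Fin 3) F := by
      have hd : (!![1, 1, 0; 0, 1, 0; 0, 0, 1] : Matrix (Fin 3) (Fin 3) F).det = 1 := by
        simp [Matrix.det_fin_three]
      exact ⟨Matrix.GeneralLinearGroup.mkOfDetNeZero _ (by rw [hd]; exact one_ne_zero), rfl, Units.ext hd⟩
    have hm : g⁻¹ * T * g ∈ subgroupNormalizer R := by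
      have := hSL T hTS
      rw [← heq] at this
      exact this.1
    have hX' : g⁻¹ * X * g ∈ R := mem_cnj.1 hXR
    have h1 := (Subgroup.mem_normalizer_iff.1 hm _).1 hX'
    have h2 : T * X * T⁻¹ ∈ R' := mem_cnj.2 (by simpa [mul_assoc] using h1)
    have hTi : ((T⁻¹ : GL (Fin 3) F) : Matrix (Fin 3) (Fin 3) F) =
        !![1, -1, 0; 0, 1, 0; 0, 0, 1] := by
      rw [Matrix.coe_units_inv, hTv]
      refine Matrix.inv_eq_right_inv ?_
      ext r c
      fin_cases r <;> fin_cases c <;> simp [Matrix.mul_apply, Fin.sum_univ_three]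
    have h3 := C6.inR_monomial ((hstd _).2 h2)
    rw [Units.val_mul, Units.val_mul, hTv, hTi, hXv] at h3
    simp [xMat, Matrix.mul_apply, Fin.sum_univ_three] at h3
    exact hω.ne_one (by norm_num) (by linear_combination h3)
  set M' := cnj g M with hM'
  have hmem : ∀ h ∈ specialLinear (Fin 3) F, g⁻¹ * h * g ∈ subgroupNormalizer R → h ∈ M' :=
    fun h hh hn => mem_cnj.2 (hNM ⟨hn, hSL h hh⟩)
  have hXM := hmem X hXS hXN
  have hYM := hmem Y hYS hYN
  have hAM := hmem A hAS hAN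
  have hBM := hmem B hBS hBN
  have hM'S : M' ≤ specialLinear (Fin 3) F := by
    rintro _ ⟨h, hh, rfl⟩
    exact hsn.conj_mem h (hMS hh) g
  by_cases ht : ∃ h ∈ M', IsTransv h
  · right
    have hle := specialLinear_le_of_transvection (hF ▸ hp) M'
      (fun W hW => C6.irreducible_of_xy hω h3 hXv hYv hXM hYM W hW) ht
    refine le_antisymm hMS fun h hh => ?_
    have := mem_cnj.1 (hle (hsn.conj_mem h hh g))
    simpa [mul_assoc] using this
  left
  push Not at ht
  refine le_antisymm (fun h hh => ⟨?_, hMS hh⟩) hNM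
  have hfin : g⁻¹ * (g * h * g⁻¹) * g ∈ subgroupNormalizer R :=
    hback _ fun u hu => (hstd _).1 (C6.inR_conj_of_core core hp hp7 hω hM'S ht
      (C6.not_sq_dvd_card hp (by omega) hF M' ht) hXv hYv hAv hBv hZv hXM hYM hAM hBM
      (by rw [hZ]; exact mul_mem (mul_mem (mul_mem hXM hYM) (inv_mem hXM)) (inv_mem hYM))
      (conj_mem_cnj hh) ((hstd u).2 hu))
  simpa [mul_assoc] using hfin

end CfsgLib.SLThree90
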