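import Cfsg.Agent.SLThree90.Interface

/-!
Elements of order `p` in the remaining case: the centraliser of such an element is `Z × P`, its
normaliser is cyclic modulo that, and an element of the normaliser commuting with an involution
commutes with one inside the normaliser unless its square centralises `P`.
-/

set_option autoImplicit false

namespace CfsgLib.SLThree90

open Matrix

variable {L : Type*} [Field L]

local notation "GL3" => GL (Fin 3) L
local notation "Mat3" => Matrix (Fin 3) (Fin 3) L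

/-- `exp (t N)` for the nilpotent Jordan block `N`. -/
def expMat (t : L) : Mat3 := !![1, 0, 0; t, 1, 0; t ^ 2 / 2, t, 1]

theorem expMat_mul (h2 : (2 : L) ≠ 0) (s t : L) : expMat s * expMat t = expMat (s + t) := by
  ext i j
  fin_cases i <;> fin_cases j <;> simp [expMat, Matrix.mul_apply, Fin.sum_univ_three] <;>
    first | ring1 | (field_simp; ring)

theorem expMat_pow (h2 : (2 : L) ≠ 0) (m : ℕ) : expMat (1 : L) ^ m = expMat (m : L) := by
  induction m with
  | zero =>
    ext i j
    fin_cases i <;> fin_cases j <;> simp [expMat]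
  | succ m ih => rw [pow_succ, ih, expMat_mul h2, Nat.cast_succ]

/-- A matrix commuting with the unipotent Jordan block is triangular Toeplitz. -/
theorem commute_expMat {g : Mat3} (hg : g * expMat 1 = expMat 1 * g) :
    g 0 1 = 0 ∧ g 0 2 = 0 ∧ g 1 2 = 0 ∧ g 1 1 = g 0 0 ∧ g 2 2 = g 0 0 := by
  have e : ∀ i j : Fin 3, (g * expMat 1 : Mat3) i j = (expMat 1 * g : Mat3) i j := fun i j => by rw [hg]
  have e00 := e 0 0
  have e01 := e 0 1
  have e10 := e 1 0
  have e11 := e 1 1
  have e21 := e 2 1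
  simp [expMat, Matrix.mul_apply, Fin.sum_univ_three] at e00 e01 e10 e11 e21
  have h02 : g 0 2 = 0 := by linear_combination e01
  have h01 : g 0 1 = 0 := by linear_combination e00 - (2⁻¹ : L) * h02
  have h12 : g 1 2 = 0 := by linear_combination e11 + h01
  have h11 : g 1 1 = g 0 0 := by linear_combination e10 - (2⁻¹ : L) * h12
  exact ⟨h01, h02, h12, h11, by linear_combination e21 + (2⁻¹ : L) * h01 + h11⟩

variable {p : ℕ} {M : Subgroup (GL (Fin 3) L)}

/-- A frame in which an element of order `p` is `exp N`. -/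
theorem Local.exists_frame (h : Local p M) {u : GL3} (hu : u ∈ M) (ho : orderOf u = p) :
    ∃ P : GL3, ((P * u * P⁻¹ : GL3) : Mat3) = expMat 1 := by
  have h2 := h.two_ne_zero
  set N : Mat3 := (u : Mat3) - 1 with hN
  set H : Mat3 := N - (2⁻¹ : L) • (N * N) with hH
  have h3 : N * N * N = 0 := by
    have := h.cube_zero (g := u) (k := 1) (by rw [pow_one, ← ho, pow_orderOf_eq_one])
    rwa [pow_succ, pow_two, ← hN] at this
  have hne : N * N ≠ 0 := fun h0 => by
    have h1 := h.eq_one_of_sq_zero hu h0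
    rw [h1, orderOf_one] at ho
    exact h.p_prime.one_lt.ne ho
  have hHH : H * H = N * N := by
    simp only [hH, sub_mul, mul_sub, smul_mul_assoc, mul_smul_comm, h3, ← mul_assoc, zero_mul,
      smul_zero, sub_zero]
  have hH3 : H * H * H = 0 := by
    rw [hHH, hH, mul_sub, mul_smul_comm, h3, ← mul_assoc, h3, zero_mul, smul_zero, sub_zero]
  have hu' : (u : Mat3) = 1 + H + (2⁻¹ : L) • (H * H) := by
    rw [hHH, hH, hN]
    abel
  obtain ⟨v, hv⟩ : ∃ v, (H * H) *ᵥ v ≠ 0 := by
    by_contra! hc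
    exact hne (hHH ▸ Matrix.ext_of_mulVec_single fun i => by rw [hc, Matrix.zero_mulVec])
  set Q : Mat3 := Matrix.of fun i j => (![v, H *ᵥ v, (H * H) *ᵥ v] : Fin 3 → Fin 3 → L) j i
    with hQ
  have hQu : IsUnit Q := by
    rw [← Matrix.linearIndependent_cols_iff_isUnit, Fintype.linearIndependent_iff]
    intro c hc
    have hc' : c 0 • v + c 1 • H *ᵥ v + c 2 • (H * H) *ᵥ v = 0 := by
      rw [← hc, Fin.sum_univ_three]
      rfl
    have e0 : c 0 = 0 := by
      have h1 := congrArg ((H * H) *ᵥ ·) hc'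
      simp only [Matrix.mulVec_add, Matrix.mulVec_smul, Matrix.mulVec_mulVec, Matrix.mulVec_zero,
        ← mul_assoc, hH3, zero_mul, Matrix.zero_mulVec, smul_zero, add_zero] at h1
      exact (smul_eq_zero.1 h1).resolve_right hv
    have e1 : c 1 = 0 := by
      have h1 := congrArg (H *ᵥ ·) hc'
      simp only [e0, zero_smul, zero_add, Matrix.mulVec_add, Matrix.mulVec_smul,
        Matrix.mulVec_mulVec, Matrix.mulVec_zero, ← mul_assoc, hH3, Matrix.zero_mulVec, smul_zero,
        add_zero] at h1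
      exact (smul_eq_zero.1 h1).resolve_right hv
    have e2 : c 2 = 0 := by
      simp only [e0, e1, zero_smul, zero_add] at hc'
      exact (smul_eq_zero.1 hc').resolve_right hv
    intro i
    fin_cases i <;> assumption
  obtain ⟨U, hU⟩ := hQu
  have hkey : (u : Mat3) * Q = Q * expMat 1 := by
    have hcol : ∀ (A : Mat3) (i j : Fin 3), (A * Q) i j =
        (A *ᵥ (![v, H *ᵥ v, (H * H) *ᵥ v] : Fin 3 → Fin 3 → L) j) i := fun A i j => rfl
    ext i j
    rw [hcol, hu', Matrix.mul_apply, Fin.sum_univ_three]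
    fin_cases j <;>
      simp [hQ, expMat, add_mul, smul_mul_assoc, Matrix.add_mulVec, Matrix.smul_mulVec,
        Matrix.mulVec_mulVec, ← mul_assoc, hH3] <;> ring
  refine ⟨U⁻¹, ?_⟩
  rw [inv_inv, Units.val_mul, Units.val_mul, hU, mul_assoc, hkey, ← mul_assoc, ← hU,
    ← Units.val_mul, inv_mul_cancel, Units.val_one, one_mul]

/-- Two commuting elements of order dividing `p` generate a group of order at most `p`. -/
theorem Local.mem_zpowers_of_commute (h : Local p M) {u g : GL3} (hu : u ∈ M) (ho : orderOf u = p)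
    (hg : g ∈ M) (hgp : g ^ p = 1) (hc : g * u = u * g) : g ∈ Subgroup.zpowers u := by
  haveI := Fact.mk h.p_prime
  haveI := h.finite
  have hpu : IsPGroup p (Subgroup.zpowers u) :=
    IsPGroup.of_card (n := 1) (by rw [Nat.card_zpowers, ho, pow_one])
  have hpg : IsPGroup p (Subgroup.zpowers g) := by
    have hdvd : orderOf g ∣ p ^ 1 := by
      rw [pow_one]
      exact orderOf_dvd_of_pow_eq_one hgp
    obtain ⟨j, -, hj⟩ := (Nat.dvd_prime_pow h.p_prime).1 hdvd
    exact IsPGroup.of_card (n := j) (by rw [Nat.card_zpowers, hj])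
  have hle : Subgroup.zpowers g ≤ Subgroup.normalizer (Subgroup.zpowers u : Set GL3) := by
    rw [Subgroup.zpowers_le, Subgroup.mem_normalizer_iff]
    intro x
    have hcomm : ∀ y ∈ Subgroup.zpowers u, g * y * g⁻¹ = y := by
      rintro _ ⟨i, rfl⟩
      rw [(show Commute g u from hc).zpow_right i |>.eq, mul_inv_cancel_right]
    refine ⟨fun hx => ?_, fun hx => ?_⟩
    · rw [hcomm x hx]
      exact hx
    · have h1 := hcomm _ hx
      have h2 : g * x * g⁻¹ = x := mul_left_cancel (mul_right_cancel h1)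
      rw [h2] at hx
      exact hx
  have hHM : Subgroup.zpowers g ⊔ Subgroup.zpowers u ≤ M :=
    sup_le (Subgroup.zpowers_le.2 hg) (Subgroup.zpowers_le.2 hu)
  haveI : Finite ↥(Subgroup.zpowers g ⊔ Subgroup.zpowers u) :=
    Finite.of_injective _ (Subgroup.inclusion_injective hHM)
  obtain ⟨k, hk⟩ := IsPGroup.iff_card.1 (hpg.to_sup_of_normal_right' hpu hle)
  have hk1 : k ≤ 1 := by
    by_contra hlt
    exact h.not_p_sq ((pow_dvd_pow p (by omega)).trans (hk ▸ Subgroup.card_dvd_of_le hHM))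
  have heq : Subgroup.zpowers u = Subgroup.zpowers g ⊔ Subgroup.zpowers u := by
    refine Subgroup.eq_of_le_of_card_ge le_sup_right ?_
    rw [hk, Nat.card_zpowers, ho]
    exact (Nat.pow_le_pow_right h.p_prime.pos hk1).trans (pow_one p).le
  rw [heq]
  exact Subgroup.mem_sup_left (Subgroup.mem_zpowers g)

variable {ω : Lˣ} {n : ℕ}

/-- The centraliser of an element of order `p` is `Z × P`. -/
theorem DihData.cent_p (hd : DihData p ω M n) {u : GL3} (hu : u ∈ M) (ho : orderOf u = p) :
    ∀ g ∈ M, g * u = u * g → ∃ (c : Lˣ) (k : ℕ), g = sc3 c * u ^ k := by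
  intro g hg hc
  have h := hd.toLocal
  haveI := h.char
  haveI := Fact.mk h.p_prime
  haveI := h.finite
  obtain ⟨P, hP⟩ := h.exists_frame hu ho
  set g' : GL3 := P * g * P⁻¹ with hg'
  have hc' : (g' : Mat3) * expMat 1 = expMat 1 * (g' : Mat3) := by
    rw [← hP, ← Units.val_mul, ← Units.val_mul, hg',
      show P * g * P⁻¹ * (P * u * P⁻¹) = P * (g * u) * P⁻¹ by group, hc]
    congr 1
    group
  obtain ⟨h01, h02, h12, h11, h22⟩ := commute_expMat hc'
  have hdet : (g' : Mat3).det = 1 := by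
    rw [hg', Units.val_mul, Units.val_mul, Matrix.det_units_conj, h.det_one g hg]
  rw [Matrix.det_fin_three, h01, h02, h12, h11, h22] at hdet
  set a : L := (g' : Mat3) 0 0 with ha
  have ha3 : a ^ 3 = 1 := by linear_combination hdet
  have hnil : ((g' : Mat3) - a • 1) ^ 3 = 0 := by
    rw [pow_succ, pow_two]
    ext i j
    fin_cases i <;> fin_cases j <;>
      simp [Matrix.mul_apply, Fin.sum_univ_three, h01, h02, h12, h11, h22, ← ha]
  obtain ⟨i, -, hi⟩ := (IsPrimitiveRoot.coe_units_iff.2 hd.omega).eq_pow_of_pow_eq_one ha3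
  have hai : ((ω ^ i : Lˣ) : L) = a := by rw [Units.val_pow_eq_pow_val, hi]
  have hgp : g' ^ p = sc3 (ω ^ i) ^ p := by
    refine Units.ext (sub_eq_zero.1 ?_)
    rw [Units.val_pow_eq_pow_val, Units.val_pow_eq_pow_val, sc3_val, hai,
      ← sub_pow_char_of_commute (p := p) ((Commute.one_right (g' : Mat3)).smul_right a)]
    exact pow_eq_zero_of_le (by have := h.seven_le; omega) hnil
  have hgp' : g ^ p = sc3 (ω ^ i) ^ p := by
    rw [← map_pow]
    have h1 := congrArg (fun x => P⁻¹ * x * P) hgp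
    rw [hg', conj_pow, ← map_pow, mul_assoc P⁻¹ (sc3 _) P, sc3_comm, inv_mul_cancel_left] at h1
    rw [← h1]
    group
  set w : GL3 := (sc3 (ω ^ i))⁻¹ * g with hw
  have hsM : sc3 (ω ^ i) ∈ M := by
    rw [map_pow]
    exact M.pow_mem hd.scalar_mem i
  have hcom : Commute (sc3 (ω ^ i)) g := sc3_comm _ _
  have hwc : w * u = u * w := by
    rw [hw, mul_assoc, hc, ← mul_assoc, ← mul_assoc]
    congr 1
    exact ((show Commute (sc3 (ω ^ i)) u from sc3_comm _ _).inv_left).eq
  have hwp : w ^ p = 1 := by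
    rw [hw, hcom.inv_left.mul_pow, hgp', inv_pow, inv_mul_cancel]
  have hfin : IsOfFinOrder u := orderOf_pos_iff.1 (ho ▸ h.p_prime.pos)
  obtain ⟨k, hk⟩ := hfin.mem_powers_iff_mem_zpowers.2
    (h.mem_zpowers_of_commute hu ho (M.mul_mem (M.inv_mem hsM) hg) hwp hwc)
  exact ⟨ω ^ i, k, by rw [show u ^ k = w from hk, hw, mul_inv_cancel_left]⟩

/-- The normaliser of a subgroup of order `p` is cyclic modulo `Z × P`. -/
theorem DihData.cyclic_p (hd : DihData p ω M n) {u : GL3} (hu : u ∈ M) (ho : orderOf u = p) :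
    ∃ c ∈ M, c ∈ Subgroup.normalizer (Subgroup.zpowers u : Set GL3) ∧
      ∀ g ∈ M, g ∈ Subgroup.normalizer (Subgroup.zpowers u : Set GL3) →
        ∃ (a : Lˣ) (i j : ℕ), g = sc3 a * u ^ i * c ^ j := by
  have h := hd.toLocal
  haveI := Fact.mk h.p_prime
  haveI := h.finite
  set T := Subgroup.normalizer (Subgroup.zpowers u : Set GL3) with hT
  set K : Subgroup GL3 := M ⊓ T
  haveI : Finite ↥K := Finite.of_injective _ (Subgroup.inclusion_injective (inf_le_left : K ≤ M))
  let f : ↥K →* MulAut ↥(Subgroup.zpowers u) :=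
    (Subgroup.zpowers u).normalizerMonoidHom.comp (Subgroup.inclusion (inf_le_right : K ≤ T))
  have hcard : Nat.card (Subgroup.zpowers u) = p := by rw [Nat.card_zpowers, ho]
  haveI : IsCyclic (MulAut ↥(Subgroup.zpowers u)) := by
    have e := IsCyclic.mulAutMulEquiv ↥(Subgroup.zpowers u)
    rw [hcard] at e
    exact e.isCyclic.2 inferInstance
  haveI : Finite ↥f.range := Finite.of_surjective f.rangeRestrict f.rangeRestrict_surjective
  obtain ⟨⟨φ, hφ⟩, hgen⟩ := IsCyclic.exists_generator (α := f.range)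
  obtain ⟨c, rfl⟩ := hφ
  refine ⟨c, c.2.1, c.2.2, fun g hg hgn => ?_⟩
  obtain ⟨j, hj⟩ := (isOfFinOrder_of_finite _).mem_powers_iff_mem_zpowers.2
    (hgen ⟨f ⟨g, hg, hgn⟩, ⟨_, rfl⟩⟩)
  set x : ↥K := ⟨g, hg, hgn⟩ * (c ^ j)⁻¹ with hx
  have hker : f x = 1 := by
    have hj' : f c ^ j = f ⟨g, hg, hgn⟩ := congrArg Subtype.val hj
    rw [hx, map_mul, map_inv, map_pow, hj', mul_inv_cancel]
  have hxu : (x : GL3) * u = u * x := by
    have h1 := congrArg Subtype.val (DFunLike.congr_fun hker ⟨u, Subgroup.mem_zpowers u⟩)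
    have h1' : (x : GL3) * u * (x : GL3)⁻¹ = u := h1
    rw [mul_inv_eq_iff_eq_mul] at h1'
    exact h1'
  obtain ⟨a, i, hai⟩ := hd.cent_p hu ho x x.2.1 hxu
  refine ⟨a, i, j, ?_⟩
  rw [← hai, hx]
  simp

/-- An element inverting a generator normalises the subgroup. -/
theorem mem_normalizer_of_inverts {G : Type*} [Group G] {u s : G} (hs : s * s = 1)
    (hinv : s * u * s⁻¹ = u⁻¹) : s ∈ Subgroup.normalizer (Subgroup.zpowers u : Set G) := by
  have key : ∀ x ∈ Subgroup.zpowers u, s * x * s⁻¹ ∈ Subgroup.zpowers u := by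
    rintro _ ⟨i, rfl⟩
    simp only
    rw [← conj_zpow, hinv, _root_.inv_zpow]
    exact Subgroup.inv_mem _ ⟨i, rfl⟩
  rw [Subgroup.mem_normalizer_iff]
  refine fun x => ⟨key x, fun hx => ?_⟩
  have h1 := key _ hx
  rwa [show s * (s * x * s⁻¹) * s⁻¹ = (s * s) * x * (s * s)⁻¹ by group, hs, one_mul, inv_one,
    mul_one] at h1

/-- An element of the normaliser of a group of order `p` commuting with an involution does so with
one inside the normaliser, unless its square centralises the group. -/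
theorem DihData.invol_p (hd : DihData p ω M n) {u z s : GL3} (hu : u ∈ M) (hz : z ∈ M) (hs : s ∈ M)
    (ho : orderOf u = p) (hzn : z ∈ Subgroup.normalizer (Subgroup.zpowers u : Set GL3))
    (h1 : z * u ≠ u * z) (h2 : z * z * u ≠ u * (z * z)) (hso : orderOf s = 2)
    (hzs : z * s = s * z) :
    ∃ s2 ∈ M, s2 ∈ Subgroup.normalizer (Subgroup.zpowers u : Set GL3) ∧ orderOf s2 = 2 := by
  have h := hd.toLocal
  have htwo := h.two_ne_zero
  haveI := h.finite
  obtain ⟨P, hP⟩ := h.exists_frame hu ho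
  have hfin : IsOfFinOrder u := orderOf_pos_iff.1 (ho ▸ h.p_prime.pos)
  obtain ⟨m, hm⟩ := hfin.mem_powers_iff_mem_zpowers.2
    ((Subgroup.mem_normalizer_iff.1 hzn u).1 (Subgroup.mem_zpowers u))
  have hm' : u ^ m = z * u * z⁻¹ := hm
  -- powers of `u` and their exponents in `L`
  have hinjP : ∀ {x y : GL3}, ((P * x * P⁻¹ : GL3) : Mat3) = ((P * y * P⁻¹ : GL3) : Mat3) → x = y :=
    fun hxy => mul_left_cancel (mul_right_cancel (Units.ext hxy))
  have hpow : ∀ j : ℕ, ((P * u ^ j * P⁻¹ : GL3) : Mat3) = expMat (j : L) := fun j => by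
    rw [← conj_pow, Units.val_pow_eq_pow_val, hP, expMat_pow htwo]
  have hone : ∀ j : ℕ, (j : L) = 1 → u ^ j = u := fun j hj => hinjP (by rw [hpow, hj, hP])
  have hm1 : (m : L) ≠ 1 := fun hc => h1 (by
    have := hm'.symm.trans (hone m hc)
    rwa [mul_inv_eq_iff_eq_mul] at this)
  have hm2 : (m : L) ^ 2 ≠ 1 := fun hc => h2 (by
    have e : u ^ (m * m) = u := hone _ (by rw [Nat.cast_mul, ← pow_two, hc])
    have e2 : z * z * u * (z * z)⁻¹ = u := by
      conv_rhs => rw [← e, pow_mul, hm', conj_pow, hm']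
      group
    rwa [mul_inv_eq_iff_eq_mul] at e2)
  have hm0 : (m : L) ≠ 0 := fun hc => by
    have e : u ^ m = 1 := hinjP (by
      rw [hpow, hc, mul_one, mul_inv_cancel, Units.val_one, ← Nat.cast_zero, ← expMat_pow htwo,
        pow_zero])
    rw [e] at hm'
    have : u = 1 := by simpa using hm'.symm
    rw [this, orderOf_one] at ho
    exact h.p_prime.one_lt.ne ho
  -- the shape of `z` in the frame
  set z' : GL3 := P * z * P⁻¹ with hz'
  have hrel : (z' : Mat3) * expMat 1 = expMat (m : L) * (z' : Mat3) := by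
    rw [← hP, ← hpow, hm', ← Units.val_mul, ← Units.val_mul, hz']
    congr 1
    group
  have e : ∀ i j : Fin 3,
      ((z' : Mat3) * expMat 1 : Mat3) i j = (expMat (m : L) * (z' : Mat3) : Mat3) i j := fun i j => by
    rw [hrel]
  have e00 := e 0 0
  have e01 := e 0 1
  have e10 := e 1 0
  have e11 := e 1 1
  have e20 := e 2 0
  have e21 := e 2 1
  simp [expMat, Matrix.mul_apply, Fin.sum_univ_three] at e00 e01 e10 e11 e20 e21
  have a02 : z' 0 2 = 0 := by linear_combination e01
  have a01 : z' 0 1 = 0 := by linear_combination e00 - (2⁻¹ : L) * a02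
  have a12 : z' 1 2 = 0 := by linear_combination e11 + (m : L) * a01
  set a : L := z' 0 0 with ha
  set b : L := z' 1 0 with hb
  set c : L := z' 2 0 with hc
  have a11 : z' 1 1 = (m : L) * a := by linear_combination e10 - (2⁻¹ : L) * a12
  have a22 : z' 2 2 = (m : L) ^ 2 * a := by
    linear_combination e21 + ((m : L) ^ 2 / 2) * a01 + (m : L) * a11
  have a21 : z' 2 1 = (m : L) * b := by linear_combination e20 - (2⁻¹ : L) * a22
  have hdet : a ^ 3 * (m : L) ^ 3 = 1 := by
    have := h.det_one z hz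
    rw [← Matrix.det_units_conj P, ← Units.val_mul, ← Units.val_mul, ← hz', Matrix.det_fin_three,
      a01, a02, a12, a11, a22, ← ha] at this
    linear_combination this
  have ha0 : a ≠ 0 := fun h0 => by simp [h0] at hdet
  -- the eigenbasis of `z`, commuting with `u`
  set x : L := b / (a * (1 - (m : L))) with hx
  set y : L := (c + (m : L) * b * x) / (a * (1 - (m : L) ^ 2)) with hy
  have hden1 : (1 : L) - (m : L) ≠ 0 := sub_ne_zero.2 (Ne.symm hm1)
  have hden2 : (1 : L) - (m : L) ^ 2 ≠ 0 := sub_ne_zero.2 (Ne.symm hm2)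
  have hxe : x * (a * (1 - (m : L))) = b := div_mul_cancel₀ _ (mul_ne_zero ha0 hden1)
  have hye : y * (a * (1 - (m : L) ^ 2)) = c + (m : L) * b * x :=
    div_mul_cancel₀ _ (mul_ne_zero ha0 hden2)
  let Q : GL3 := ⟨!![1, 0, 0; x, 1, 0; y, x, 1], !![1, 0, 0; -x, 1, 0; x ^ 2 - y, -x, 1],
    by ext i j; fin_cases i <;> fin_cases j <;>
      simp [Matrix.mul_apply, Fin.sum_univ_three] <;> ring,
    by ext i j; fin_cases i <;> fin_cases j <;>
      simp [Matrix.mul_apply, Fin.sum_univ_three] <;> ring⟩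
  have hQu : (Q : Mat3) * expMat 1 = expMat 1 * (Q : Mat3) := by
    ext i j
    fin_cases i <;> fin_cases j <;>
      simp [Q, expMat, Matrix.mul_apply, Fin.sum_univ_three] <;> ring
  have hQz : (z' : Mat3) * (Q : Mat3) =
      (Q : Mat3) * diagonal ![a, (m : L) * a, (m : L) ^ 2 * a] := by
    ext i j
    fin_cases i <;> fin_cases j <;>
      simp [Q, Matrix.mul_apply, Fin.sum_univ_three, a01, a02, a12, a11, a22, a21, ← ha, ← hb,
        ← hc]
    · linear_combination (-1 : L) * hxe
    · linear_combination (-1 : L) * hye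
    · linear_combination -(m : L) * hxe
  set P2 : GL3 := Q⁻¹ * P with hP2
  have hu2 : ((P2 * u * P2⁻¹ : GL3) : Mat3) = expMat 1 := by
    rw [show P2 * u * P2⁻¹ = Q⁻¹ * ((P * u * P⁻¹) * Q) by rw [hP2]; group, Units.val_mul,
      Units.val_mul (P * u * P⁻¹), hP, ← hQu, ← mul_assoc, ← Units.val_mul, inv_mul_cancel,
      Units.val_one, one_mul]
  have hz2 : ((P2 * z * P2⁻¹ : GL3) : Mat3) =
      diagonal ![a, (m : L) * a, (m : L) ^ 2 * a] := by
    rw [show P2 * z * P2⁻¹ = Q⁻¹ * (z' * Q) by rw [hP2, hz']; group, Units.val_mul,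
      Units.val_mul z', hQz, ← mul_assoc, ← Units.val_mul, inv_mul_cancel, Units.val_one, one_mul]
  -- the involution is a diagonal sign matrix there
  set s' : GL3 := P2 * s * P2⁻¹ with hs'
  have hss : s * s = 1 := by rw [← pow_two, ← hso, pow_orderOf_eq_one]
  have hs1 : s ≠ 1 := fun h0 => by rw [h0, orderOf_one] at hso; exact absurd hso (by norm_num)
  set D : Fin 3 → L := ![a, (m : L) * a, (m : L) ^ 2 * a] with hD
  have hDinj : ∀ i j, i ≠ j → D i ≠ D j := by
    have f01 : a ≠ (m : L) * a := fun h0 => hm1 ((mul_eq_right₀ ha0).1 h0.symm)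
    have f02 : a ≠ (m : L) ^ 2 * a := fun h0 => hm2 ((mul_eq_right₀ ha0).1 h0.symm)
    have f12 : (m : L) * a ≠ (m : L) ^ 2 * a := fun h0 => hm1 (by
      have h3 := mul_right_cancel₀ ha0 h0
      rw [pow_two] at h3
      exact ((mul_eq_left₀ hm0).1 h3.symm))
    intro i j hij
    fin_cases i <;> fin_cases j <;>
      first | exact absurd rfl hij | simp [hD, f01, f02, f12, f01.symm, f02.symm, f12.symm]
  have hsdiag : (s' : Mat3) = diagonal fun i => s' i i := by
    have hcm : diagonal D * (s' : Mat3) = (s' : Mat3) * diagonal D := by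
      rw [← hz2, ← Units.val_mul, ← Units.val_mul, hs',
        show P2 * z * P2⁻¹ * (P2 * s * P2⁻¹) = P2 * (z * s) * P2⁻¹ by group, hzs]
      congr 1
      group
    ext i j
    rw [Matrix.diagonal_apply]
    split_ifs with hij
    · rw [hij]
    · have h3 := congrFun (congrFun hcm i) j
      rw [Matrix.diagonal_mul, Matrix.mul_diagonal, mul_comm] at h3
      by_contra hne
      exact hDinj i j hij (mul_left_cancel₀ hne h3)
  set d : Fin 3 → L := fun i => s' i i
  have hdd : ∀ i, d i = 1 ∨ d i = -1 := fun i => by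
    have h3 : diagonal d * diagonal d = (1 : Mat3) := by
      rw [← hsdiag, ← Units.val_mul, hs',
        show P2 * s * P2⁻¹ * (P2 * s * P2⁻¹) = P2 * (s * s) * P2⁻¹ by group, hss, mul_one,
        mul_inv_cancel, Units.val_one]
    rw [diagonal_mul_diagonal, ← diagonal_one] at h3
    exact mul_self_eq_one_iff.1 (congrFun (diagonal_injective h3) i)
  have hneg : (-1 : L) ≠ 1 := fun h0 => htwo (by linear_combination -h0)
  have hprod : d 0 * d 1 * d 2 = 1 := by
    have h3 : (s' : Mat3).det = 1 := by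
      rw [hs', Units.val_mul, Units.val_mul, Matrix.det_units_conj, h.det_one s hs]
    rwa [hsdiag, det_diagonal, Fin.prod_univ_three] at h3
  -- the two end cases force `m² = 1`
  have hend : a ^ 6 = 1 ∨ ((m : L) ^ 2 * a) ^ 6 = 1 → False := fun hor => by
    have h6 : (m : L) ^ 6 = 1 := by
      have hd2 : a ^ 6 * (m : L) ^ 6 = 1 := by
        rw [show a ^ 6 * (m : L) ^ 6 = (a ^ 3 * (m : L) ^ 3) ^ 2 by ring, hdet, one_pow]
      rcases hor with ha6 | ha6
      · rwa [ha6, one_mul] at hd2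
      · rwa [show ((m : L) ^ 2 * a) ^ 6 = (m : L) ^ 6 * (a ^ 6 * (m : L) ^ 6) by ring, hd2,
          mul_one] at ha6
    set C : Subgroup GL3 := M ⊓ Subgroup.centralizer ({s} : Set GL3)
    have hωC : Subgroup.zpowers (sc3 ω) ≤ C := Subgroup.zpowers_le.2
      ⟨hd.scalar_mem, Subgroup.mem_centralizer_singleton_iff.2 (sc3_comm ω s)⟩
    set Z : Subgroup ↥C := (Subgroup.zpowers (sc3 ω)).subgroupOf C with hZ
    have hcentral : Z ≤ Subgroup.center ↥C := fun w hw => by
      obtain ⟨i, hi⟩ := Subgroup.mem_subgroupOf.1 hw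
      refine Subgroup.mem_center_iff.2 fun g => Subtype.ext ?_
      rw [Subgroup.coe_mul, Subgroup.coe_mul, ← hi]
      exact (((show Commute (sc3 ω) (g : GL3) from sc3_comm _ _).zpow_left i).symm).eq
    haveI : Z.Normal := ⟨fun w hw g => by
      rw [(Subgroup.mem_center_iff.1 (hcentral hw) g), mul_inv_cancel_right]
      exact hw⟩
    have hZc : Nat.card Z = 3 := by
      rw [hZ, Nat.card_congr (Subgroup.subgroupOfEquivOfLe hωC).toEquiv, Nat.card_zpowers]
      exact (orderOf_injective sc3 (fun q r hqr => Units.ext (by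
        have := congrArg (fun A : GL3 => (A : Mat3) 0 0) hqr
        simpa [sc3_val] using this)) ω).trans hd.omega.eq_orderOf.symm
    have hidx : Z.index = 4 * n := by
      have h3 := Z.card_mul_index
      rw [hZc, hd.card_cent s hs hso] at h3
      omega
    obtain ⟨i, hi⟩ := Subgroup.mem_subgroupOf.1 (hidx ▸ Z.pow_index_mem
      ⟨z, hz, Subgroup.mem_centralizer_singleton_iff.2 hzs⟩)
    have hsc : P2 * z ^ (4 * n) * P2⁻¹ = sc3 (ω ^ i) := by
      rw [show z ^ (4 * n) = sc3 ω ^ i from hi.symm, ← map_zpow, ← sc3_comm, mul_inv_cancel_right]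
    have hval : ((P2 * z ^ (4 * n) * P2⁻¹ : GL3) : Mat3) = diagonal (D ^ (4 * n)) := by
      rw [← conj_pow, Units.val_pow_eq_pow_val, hz2]
      exact diagonal_pow D (4 * n)
    rw [hsc, sc3_val, smul_one_eq_diagonal] at hval
    have e0 := congrFun (diagonal_injective hval) 0
    have e1 := congrFun (diagonal_injective hval) 1
    simp [hD] at e0 e1
    rw [mul_pow, ← e0] at e1
    have h4n : (m : L) ^ (4 * n) = 1 := (mul_eq_right₀ (zpow_ne_zero _ (Units.ne_zero ω))).1 e1.symm
    refine hm2 ?_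
    have hg := pow_gcd_eq_one.2 ⟨h6, h4n⟩
    have hgcd : Nat.gcd 6 (4 * n) = 2 := by
      rw [show 6 = 2 * 3 from rfl, show 4 * n = 2 * (2 * n) by ring, Nat.gcd_mul_left]
      have : Nat.Coprime 3 (2 * n) := Nat.prime_three.coprime_iff_not_dvd.2 fun h3 => by
        have := hd.three_not_dvd
        omega
      rw [this.gcd_eq_one]
    rwa [hgcd] at hg
  have hz2mem : ∀ R : GL3, R * z * R⁻¹ ∈ cnj R M ∧ R * s * R⁻¹ ∈ cnj R M :=
    fun R => ⟨conj_mem_cnj hz, conj_mem_cnj hs⟩
  have hcorner : ∀ R : GL3, R * s * R⁻¹ = t0 → ((R * z * R⁻¹ : GL3) 0 0) ^ 6 = 1 := fun R hR => by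
    refine hd.corner R (hR ▸ (hz2mem R).2) _ ⟨(hz2mem R).1, ?_⟩
    show _ ∈ Subgroup.centralizer _
    rw [Subgroup.mem_centralizer_singleton_iff, ← hR]
    calc R * z * R⁻¹ * (R * s * R⁻¹) = R * (z * s) * R⁻¹ := by group
      _ = R * (s * z) * R⁻¹ := by rw [hzs]
      _ = R * s * R⁻¹ * (R * z * R⁻¹) := by group
  rcases hdd 0 with d0 | d0 <;> rcases hdd 1 with d1 | d1 <;> rcases hdd 2 with d2 | d2 <;>
    first
      | exact (hneg (by simpa [d0, d1, d2] using hprod)).elim
      | skip
  · exfalso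
    apply hs1
    have h3 : s' = P2 * 1 * P2⁻¹ := Units.ext (by
      rw [hsdiag, mul_one, mul_inv_cancel, Units.val_one, ← diagonal_one]
      congr 1
      funext i
      fin_cases i <;> assumption)
    exact mul_left_cancel (mul_right_cancel h3)
  · -- `diag(1, -1, -1)`
    exfalso
    refine hend (Or.inl ?_)
    have h3 := hcorner P2 (Units.ext (by
      rw [← hs', hsdiag]
      show _ = t0Mat
      rw [t0Mat]
      congr 1
      funext i
      fin_cases i <;> assumption))
    rwa [hz2] at h3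
  · -- `diag(-1, 1, -1)` inverts `u`
    refine ⟨s, hs, mem_normalizer_of_inverts hss ?_, hso⟩
    rw [eq_inv_iff_mul_eq_one]
    have hsi : s⁻¹ = s := inv_eq_of_mul_eq_one_right hss
    rw [hsi]
    have h3 : P2 * (s * u * s * u) * P2⁻¹ = 1 := Units.ext (by
      rw [show P2 * (s * u * s * u) * P2⁻¹ = s' * (P2 * u * P2⁻¹) * s' * (P2 * u * P2⁻¹) by
        rw [hs']; group, Units.val_mul, Units.val_mul, Units.val_mul, hu2, hsdiag, Units.val_one]
      have hd3 : d = ![-1, 1, -1] := by funext i; fin_cases i <;> assumption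
      change diagonal d * _ * diagonal d * _ = _
      rw [hd3]
      ext i j
      fin_cases i <;> fin_cases j <;>
        simp [expMat, Matrix.mul_apply, Fin.sum_univ_three] <;> first | ring1 | (field_simp; ring))
    exact conj_eq_one_iff.1 h3
  · -- `diag(-1, -1, 1)`
    exfalso
    refine hend (Or.inr ?_)
    let W : GL3 := ⟨!![0, 0, 1; 0, 1, 0; 1, 0, 0], !![0, 0, 1; 0, 1, 0; 1, 0, 0],
      by ext i j; fin_cases i <;> fin_cases j <;> simp [Matrix.mul_apply, Fin.sum_univ_three],
      by ext i j; fin_cases i <;> fin_cases j <;> simp [Matrix.mul_apply, Fin.sum_univ_three]⟩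
    have h3 := hcorner (W * P2) (Units.ext (by
      rw [show W * P2 * s * (W * P2)⁻¹ = W * s' * W⁻¹ by rw [hs']; group, Units.val_mul,
        Units.val_mul, hsdiag]
      have hd3 : d = ![-1, -1, 1] := by funext i; fin_cases i <;> assumption
      rw [hd3]
      show _ = t0Mat
      ext i j
      fin_cases i <;> fin_cases j <;>
        simp [W, t0Mat, Matrix.vecMul_diagonal, Matrix.mul_apply, Fin.sum_univ_three]))
    rw [show W * P2 * z * (W * P2)⁻¹ = W * (P2 * z * P2⁻¹) * W⁻¹ by group, Units.val_mul,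
      Units.val_mul, hz2] at h3
    simpa [W, hD, Matrix.vecMul_diagonal, Matrix.mul_apply, Fin.sum_univ_three] using h3

end CfsgLib.SLThree90
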