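import Cfsg.Agent.SLThree90.Interface

/-!
Diagonal elements of an overgroup in the case of one class of involutions: repeated eigenvalues,
centralisers and the permutation of eigenlines by normalisers of tori.
-/

set_option autoImplicit false

namespace CfsgLib.SLThree90

open Matrix

variable {L : Type*} [Field L]

local notation "GL3" => GL (Fin 3) L
local notation "Mat3" => Matrix (Fin 3) (Fin 3) L

/-- The permutation matrix of `σ`. -/
def permGL (σ : Equiv.Perm (Fin 3)) : GL3 where
  val := Matrix.of fun i j => if σ i = j then 1 else 0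
  inv := Matrix.of fun i j => if σ j = i then 1 else 0
  val_inv := by
    ext i j
    simp [Matrix.mul_apply, Matrix.one_apply, eq_comm]
  inv_val := by
    ext i j
    rw [Matrix.mul_apply]
    simp only [Matrix.of_apply, ite_mul, one_mul, zero_mul]
    rw [Finset.sum_eq_single (σ.symm i)]
    · simp [Matrix.one_apply]
    · intro b _ hb
      rw [if_neg]
      intro e
      exact hb (by simp [← e])
    · simp

theorem permGL_diag (σ : Equiv.Perm (Fin 3)) (d : Fin 3 → L) :
    ((permGL σ : GL3) : Mat3) * diagonal d = diagonal (d ∘ σ) * ((permGL σ : GL3) : Mat3) := by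
  ext i j
  rw [Matrix.mul_diagonal, Matrix.diagonal_mul]
  simp only [permGL, Matrix.of_apply, Function.comp_apply]
  split_ifs with h
  · rw [h, one_mul, mul_one]
  · simp

/-- A monomial matrix over the permutation `σ`. -/
def IsMono (e : Mat3) (σ : Equiv.Perm (Fin 3)) : Prop := ∀ a b, e a b ≠ 0 → b = σ a

theorem IsMono.mul_diag {e : Mat3} {σ : Equiv.Perm (Fin 3)} (h : IsMono e σ) (u : Fin 3 → L) :
    e * diagonal u = diagonal (u ∘ σ) * e := by
  ext a b
  rw [Matrix.mul_diagonal, Matrix.diagonal_mul, Function.comp_apply]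
  by_cases hab : e a b = 0
  · simp [hab]
  · rw [h a b hab, mul_comm]

theorem IsMono.mul {e e' : Mat3} {σ σ' : Equiv.Perm (Fin 3)} (h : IsMono e σ) (h' : IsMono e' σ') :
    IsMono (e * e') (σ.trans σ') := by
  intro a c hac
  rw [Matrix.mul_apply] at hac
  obtain ⟨b, -, hb⟩ := Finset.exists_ne_zero_of_sum_ne_zero hac
  obtain ⟨h1, h2⟩ := mul_ne_zero_iff.1 hb
  rw [h' b c h2, h a b h1]
  rfl

theorem exists_row_ne_zero (e : GL3) (a : Fin 3) : ∃ b, (e : Mat3) a b ≠ 0 := by
  by_contra hc
  push Not at hc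
  have h := congrFun (congrFun (e.mul_inv) a) a
  rw [Matrix.mul_apply, Finset.sum_eq_zero (fun b _ => by rw [hc b, zero_mul]),
    Matrix.one_apply_eq] at h
  exact zero_ne_one h

theorem exists_col_ne_zero' (e : GL3) (b : Fin 3) : ∃ a, (e : Mat3) a b ≠ 0 := by
  by_contra hc
  push Not at hc
  have h := congrFun (congrFun (e.inv_mul) b) b
  rw [Matrix.mul_apply, Finset.sum_eq_zero (fun a _ => by rw [hc a, mul_zero]),
    Matrix.one_apply_eq] at h
  exact zero_ne_one h

theorem IsMono.unique {e : GL3} {σ σ' : Equiv.Perm (Fin 3)} (h : IsMono (e : Mat3) σ)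
    (h' : IsMono (e : Mat3) σ') : σ = σ' := by
  ext1 a
  obtain ⟨b, hb⟩ := exists_row_ne_zero e a
  rw [← h a b hb, ← h' a b hb]

/-- An element moving a diagonal matrix with distinct entries to a diagonal matrix is monomial. -/
theorem exists_mono {e : GL3} {d d' : Fin 3 → L} (hd : Function.Injective d)
    (he : (e : Mat3) * diagonal d = diagonal d' * (e : Mat3)) :
    ∃ σ : Equiv.Perm (Fin 3), IsMono (e : Mat3) σ := by
  have key : ∀ a b, (e : Mat3) a b ≠ 0 → d' a = d b := fun a b hab => by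
    have h := congrFun (congrFun he a) b
    rw [Matrix.mul_diagonal, Matrix.diagonal_mul, mul_comm] at h
    exact (mul_right_cancel₀ hab h).symm
  choose f hf using exists_row_ne_zero e
  have hsurj : Function.Surjective f := fun b => by
    obtain ⟨a, ha⟩ := exists_col_ne_zero' e b
    exact ⟨a, hd ((key a _ (hf a)).symm.trans (key a b ha))⟩
  refine ⟨Equiv.ofBijective f ⟨Finite.injective_iff_surjective.2 hsurj, hsurj⟩, fun a b hab => ?_⟩
  exact hd ((key a b hab).symm.trans (key a _ (hf a)))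

variable {p : ℕ} {ω : Lˣ} {M : Subgroup (GL (Fin 3) L)} {n : ℕ}

theorem DihData.omega' (hd : DihData p ω M n) : IsPrimitiveRoot (ω : L) 3 :=
  hd.omega.map_of_injective (f := Units.coeHom L) Units.val_injective

/-- A cube root of unity is a power of `ω`. -/
theorem DihData.exists_pow_omega (hd : DihData p ω M n) {c : Lˣ} (hc : (c : L) ^ 3 = 1) :
    ∃ k : ℕ, k < 3 ∧ c = ω ^ k := by
  obtain ⟨k, hk, he⟩ := hd.omega'.eq_pow_of_pow_eq_one hc
  exact ⟨k, hk, Units.ext (by rw [Units.val_pow_eq_pow_val, he])⟩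

theorem DihData.sc3_mem (hd : DihData p ω M n) {c : Lˣ} (hc : (c : L) ^ 3 = 1) : sc3 c ∈ M := by
  obtain ⟨k, -, rfl⟩ := hd.exists_pow_omega hc
  rw [map_pow]
  exact pow_mem hd.scalar_mem k

theorem DihData.of_sc3_mem (hd : DihData p ω M n) {c : Lˣ} (hc : sc3 c ∈ M) :
    ∃ k : ℕ, sc3 c = sc3 ω ^ k := by
  have h := hd.det_one _ hc
  rw [det_sc3] at h
  obtain ⟨k, -, rfl⟩ := hd.exists_pow_omega h
  exact ⟨k, map_pow _ _ _⟩

theorem conj_diag_det {P g : GL3} {d : Fin 3 → L}
    (h : ((P * g * P⁻¹ : GL3) : Mat3) = diagonal d) : (g : Mat3).det = d 0 * d 1 * d 2 := by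
  have h1 := congrArg Matrix.det h
  rwa [Units.val_mul, Units.val_mul, Matrix.det_units_conj, det_diagonal, Fin.prod_univ_three] at h1

/-- A diagonal element with two equal eigenvalues is scalar or a scalar times an involution. -/
theorem DihData.dbl (hd : DihData p ω M n) {P g : GL3} {d : Fin 3 → L} (hg : g ∈ M)
    (hdiag : ((P * g * P⁻¹ : GL3) : Mat3) = diagonal d) {j k : Fin 3} (hjk : j ≠ k)
    (e : d j = d k) :
    (∀ a b, d a = d b) ∨ ∃ s ∈ M, orderOf s = 2 ∧ (∃ c, g * s = sc3 c) ∧ g * s = s * g ∧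
      ∃ d', ((P * s * P⁻¹ : GL3) : Mat3) = diagonal d' := by
  obtain ⟨i, hij, hik, hall⟩ : ∃ i, i ≠ j ∧ i ≠ k ∧ ∀ a : Fin 3, a = i ∨ a = j ∨ a = k := by
    revert hjk
    clear e
    revert j k
    decide
  have hbij : Function.Bijective ![i, j, k] := by
    have : Function.Surjective ![i, j, k] := fun a => by
      rcases hall a with rfl | rfl | rfl
      · exact ⟨0, rfl⟩
      · exact ⟨1, rfl⟩
      · exact ⟨2, rfl⟩
    exact ⟨Finite.injective_iff_surjective.2 this, this⟩
  let τ := Equiv.ofBijective _ hbij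
  have hQ : ((permGL τ * P * g * (permGL τ * P)⁻¹ : GL3) : Mat3) = diagonal ![d i, d j, d j] := by
    rw [show permGL τ * P * g * (permGL τ * P)⁻¹ = permGL τ * (P * g * P⁻¹) * (permGL τ)⁻¹ by group,
      Units.val_mul, Units.val_mul, hdiag, permGL_diag, Matrix.mul_assoc, Units.mul_inv,
      Matrix.mul_one]
    congr 1
    funext a
    fin_cases a <;> simp [τ, e]
  have hsq := hd.noHom _ _ (conj_mem_cnj (P := permGL τ * P) hg) _ _ hQ
  rcases eq_or_eq_neg_of_sq_eq_sq _ _ hsq with h1 | h1
  · left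
    intro a b
    rcases hall a with rfl | rfl | rfl <;> rcases hall b with rfl | rfl | rfl <;>
      simp [← e, h1]
  · right
    have hdet : d i * d j * d j = 1 := by
      have h := hd.det_one g hg
      rw [conj_diag_det hQ] at h
      simpa using h
    have hi3 : d i ^ 3 = 1 := by rw [h1] at hdet; linear_combination hdet
    have hi0 : d i ≠ 0 := fun h0 => by rw [h0] at hi3; norm_num at hi3
    set α : Lˣ := Units.mk0 (d i) hi0 with hα
    set s := g * sc3 α⁻¹ with hs
    have hdiag' : ((P * s * P⁻¹ : GL3) : Mat3) = diagonal fun a => d a * (d i)⁻¹ := by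
      rw [show P * s * P⁻¹ = (P * g * P⁻¹) * sc3 α⁻¹ by
        rw [hs]
        calc P * (g * sc3 α⁻¹) * P⁻¹ = P * g * (sc3 α⁻¹ * P⁻¹) := by simp only [mul_assoc]
          _ = _ := by rw [sc3_comm]; simp only [mul_assoc], Units.val_mul (P * g * P⁻¹), hdiag, sc3_val,
        mul_smul_comm, mul_one, ← diagonal_smul]
      congr 1
      funext a
      simp [hα, mul_comm]
    have hsM : s ∈ M := M.mul_mem hg (hd.sc3_mem (by
      rw [Units.val_inv_eq_inv_val, inv_pow, hα, Units.val_mk0, hi3, inv_one]))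
    have hentry : ∀ a, d a * (d i)⁻¹ * (d a * (d i)⁻¹) = 1 := by
      intro a
      rcases hall a with rfl | rfl | rfl
      · rw [mul_inv_cancel₀ hi0, one_mul]
      · rw [h1]; field_simp
      · rw [← e, h1]; field_simp
    have hs2 : s * s = 1 := by
      have h : P * (s * s) * P⁻¹ = 1 := by
        rw [show P * (s * s) * P⁻¹ = (P * s * P⁻¹) * (P * s * P⁻¹) by group]
        refine Units.ext ?_
        rw [Units.val_mul, hdiag', diagonal_mul_diagonal, Units.val_one, ← diagonal_one]
        exact congrArg diagonal (funext hentry)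
      exact conj_eq_one_iff.1 h
    have hs1 : s ≠ 1 := by
      intro h
      rw [h, mul_one, mul_inv_cancel, Units.val_one, ← diagonal_one] at hdiag'
      have h2 := congrFun (diagonal_injective hdiag') j
      rw [h1, neg_mul, mul_inv_cancel₀ hi0] at h2
      exact hd.two_ne_zero (by linear_combination h2)
    haveI : Fact (Nat.Prime 2) := ⟨Nat.prime_two⟩
    refine ⟨s, hsM, orderOf_eq_prime (by rw [sq, hs2]) hs1, ⟨α, ?_⟩, ?_, _, hdiag'⟩
    · calc g * s = s * sc3 α * s := by rw [hs]; simp [mul_assoc]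
        _ = sc3 α * (s * s) := by rw [← sc3_comm]; simp [mul_assoc]
        _ = sc3 α := by rw [hs2, mul_one]
    · rw [hs, mul_assoc g (sc3 α⁻¹) g, sc3_comm]

/-- An element commuting with a diagonal matrix with distinct entries is diagonal. -/
theorem comm_diag {P g x : GL3} {d : Fin 3 → L} (hdiag : ((P * g * P⁻¹ : GL3) : Mat3) = diagonal d)
    (hinj : Function.Injective d) (hx : x * g = g * x) :
    ∃ u : Fin 3 → L, ((P * x * P⁻¹ : GL3) : Mat3) = diagonal u := by
  have hc : P * x * P⁻¹ * (P * g * P⁻¹) = P * g * P⁻¹ * (P * x * P⁻¹) := by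
    simp only [mul_assoc, inv_mul_cancel_left]
    rw [← mul_assoc x g, hx, mul_assoc]
  have hv := congrArg Units.val hc
  rw [Units.val_mul (P * x * P⁻¹), Units.val_mul (P * g * P⁻¹), hdiag] at hv
  refine ⟨fun a => ((P * x * P⁻¹ : GL3) : Mat3) a a, ?_⟩
  ext a b
  rcases eq_or_ne a b with rfl | hab
  · simp
  · have h := congrFun (congrFun hv a) b
    rw [Matrix.mul_diagonal, Matrix.diagonal_mul, mul_comm] at h
    rw [Matrix.diagonal_apply_ne _ hab]
    by_contra h0
    exact hab (hinj (mul_right_cancel₀ h0 h)).symm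

theorem comm_of_diag {P x y : GL3} {u v : Fin 3 → L}
    (hu : ((P * x * P⁻¹ : GL3) : Mat3) = diagonal u) (hv : ((P * y * P⁻¹ : GL3) : Mat3) = diagonal v) :
    x * y = y * x := by
  have h : P * (x * y) * P⁻¹ = P * (y * x) * P⁻¹ := by
    rw [show P * (x * y) * P⁻¹ = (P * x * P⁻¹) * (P * y * P⁻¹) by group,
      show P * (y * x) * P⁻¹ = (P * y * P⁻¹) * (P * x * P⁻¹) by group]
    refine Units.ext ?_
    rw [Units.val_mul (P * x * P⁻¹), Units.val_mul (P * y * P⁻¹), hu, hv, diagonal_mul_diagonal,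
      diagonal_mul_diagonal]
    simp only [mul_comm]
  exact mul_left_cancel (mul_right_cancel h)

/-- A transposition of the eigenlines makes the third eigenvalue a cube root of unity. -/
theorem DihData.cube_of_swap (hd : DihData p ω M n) {P w h : GL3} {d : Fin 3 → L} {i j k : Fin 3}
    (hij : i ≠ j) (hik : i ≠ k) (hjk : j ≠ k) (hw : w ∈ M) (hh : h ∈ M)
    (hwd : ((P * w * P⁻¹ : GL3) : Mat3) = diagonal d)
    (hhd : ((P * (h * w * h⁻¹) * P⁻¹ : GL3) : Mat3) = diagonal (d ∘ Equiv.swap j k))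
    (hno : ∀ s ∈ M, orderOf s = 2 → ∀ u, ((P * s * P⁻¹ : GL3) : Mat3) ≠ diagonal u) :
    d i ^ 3 = 1 := by
  set e : Fin 3 → L := fun a => d a * d (Equiv.swap j k a) with he
  have hq : ((P * (w * (h * w * h⁻¹)) * P⁻¹ : GL3) : Mat3) = diagonal e := by
    rw [show P * (w * (h * w * h⁻¹)) * P⁻¹ = (P * w * P⁻¹) * (P * (h * w * h⁻¹) * P⁻¹) by group,
      Units.val_mul, hwd, hhd, diagonal_mul_diagonal]
    rfl
  have hjk' : e j = e k := by simp [he, Equiv.swap_apply_left, Equiv.swap_apply_right, mul_comm]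
  rcases hd.dbl (M.mul_mem hw (M.mul_mem (M.mul_mem hh hw) (M.inv_mem hh))) hq hjk hjk' with
    h1 | ⟨s, hs, hs2, -, -, u, hu⟩
  · have h2 := h1 i j
    simp [he, Equiv.swap_apply_left, Equiv.swap_apply_of_ne_of_ne hij hik] at h2
    have hdet : d i * d j * d k = 1 := by
      have hdw := hd.det_one w hw
      rw [conj_diag_det hwd] at hdw
      have : (Finset.univ : Finset (Fin 3)) = {i, j, k} := by
        revert hij hik hjk
        clear h2 hwd hhd hq hjk' h1 he e hdw
        revert i j k
        decide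
      have hp := Fin.prod_univ_three d
      rw [this, Finset.prod_insert (by simp [hij, hik]), Finset.prod_insert (by simp [hjk]),
        Finset.prod_singleton] at hp
      linear_combination hp + hdw
    linear_combination (d i) * h2 + hdet
  · exact absurd hu (hno s hs hs2 u)

/-- The normaliser of a torus permutes the three eigenlines and does not induce all permutations. -/
theorem DihData.torus (hd : DihData p ω M n) [IsAlgClosed L] {g : GL3} (hg : g ∈ M)
    (h3 : ∀ c, g ^ 3 ≠ sc3 c) (hp : ¬ p ∣ orderOf g)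
    (hs : ∀ s ∈ M, orderOf s = 2 → g * s ≠ s * g) {N : Subgroup GL3} (hN : N ≤ M)
    (hNA : ∀ h ∈ N, h * g * h⁻¹ * g = g * (h * g * h⁻¹)) :
    Nat.card N ≤ 3 * Nat.card ↥(M ⊓ Subgroup.centralizer ({g} : Set GL3)) := by
  classical
  haveI := hd.finite
  obtain ⟨P, d, hdiag⟩ := exists_diag (n := orderOf g) (hd.natCast_ne_zero hp) (pow_orderOf_eq_one g)
  have hinj : Function.Injective d := by
    intro j k e
    by_contra hjk
    rcases hd.dbl hg hdiag hjk e with h1 | ⟨s, hsM, hs2, -, hcm, -⟩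
    · have h0 : d 0 ≠ 0 := fun h0 => by
        have := hd.det_one g hg
        rw [conj_diag_det hdiag, h0] at this
        simp at this
      refine h3 (Units.mk0 (d 0) h0 ^ 3) ?_
      rw [map_pow]
      congr 1
      have : P * g * P⁻¹ = sc3 (Units.mk0 (d 0) h0) := Units.ext (by
        rw [hdiag, sc3_val, ← diagonal_one, ← diagonal_smul]
        exact congrArg diagonal (funext fun a => by simp [h1 a 0]))
      calc g = P⁻¹ * (P * g * P⁻¹) * P := by group
        _ = _ := by rw [this, mul_assoc, sc3_comm, inv_mul_cancel_left]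
    · exact hs s hsM hs2 hcm
  have hno : ∀ s ∈ M, orderOf s = 2 → ∀ u, ((P * s * P⁻¹ : GL3) : Mat3) ≠ diagonal u :=
    fun s hsM hs2 u hu => hs s hsM hs2 (comm_of_diag hdiag hu)
  have hmono : ∀ h : N, ∃ σ : Equiv.Perm (Fin 3),
      IsMono ((P * (h : GL3) * P⁻¹ : GL3) : Mat3) σ := by
    rintro ⟨h, hh⟩
    obtain ⟨d', hd'⟩ := comm_diag hdiag hinj (hNA h hh)
    refine exists_mono hinj (d' := d') ?_
    rw [← hdiag, ← hd', ← Units.val_mul, ← Units.val_mul]
    congr 1
    group
  choose σ hσ using hmono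
  let φ : N →* Equiv.Perm (Fin 3) := MonoidHom.mk' (fun h => (σ h)⁻¹) fun a b => by
    have h1 : IsMono ((P * ((a * b : N) : GL3) * P⁻¹ : GL3) : Mat3) ((σ a).trans (σ b)) := by
      rw [Subgroup.coe_mul, show P * ((a : GL3) * b) * P⁻¹ = (P * a * P⁻¹) * (P * b * P⁻¹) by group,
        Units.val_mul]
      exact (hσ a).mul (hσ b)
    rw [(hσ (a * b)).unique h1, ← Equiv.Perm.mul_def, _root_.mul_inv_rev]
  have hact : ∀ (a : N) (u : Fin 3 → L) (x : GL3), ((P * x * P⁻¹ : GL3) : Mat3) = diagonal u →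
      ((P * ((a : GL3) * x * (a : GL3)⁻¹) * P⁻¹ : GL3) : Mat3) = diagonal (u ∘ σ a) := by
    intro a u x hu
    rw [show P * ((a : GL3) * x * (a : GL3)⁻¹) * P⁻¹ =
      (P * a * P⁻¹) * (P * x * P⁻¹) * (P * a * P⁻¹)⁻¹ by group, Units.val_mul, Units.val_mul, hu,
      (hσ a).mul_diag, Matrix.mul_assoc, Units.mul_inv, Matrix.mul_one]
  have hker : φ.ker.map N.subtype ≤ M ⊓ Subgroup.centralizer ({g} : Set GL3) := by
    rintro _ ⟨a, ha, rfl⟩
    refine ⟨hN a.2, Subgroup.mem_centralizer_singleton_iff.2 ?_⟩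
    have h1 := hact a d g hdiag
    rw [show σ a = 1 from inv_eq_one.1 ha] at h1
    have h2 : (a : GL3) * g * (a : GL3)⁻¹ = g := by
      have : P * ((a : GL3) * g * (a : GL3)⁻¹) * P⁻¹ = P * g * P⁻¹ := Units.ext (by rw [h1, hdiag]; rfl)
      exact mul_left_cancel (mul_right_cancel this)
    show (a : GL3) * g = g * a
    exact mul_inv_eq_iff_eq_mul.1 h2
  have hrange : Nat.card φ.range ≤ 3 := by
    have hdvd : Nat.card φ.range ∣ 6 := by
      have := Subgroup.card_subgroup_dvd_card φ.range
      rwa [Nat.card_eq_fintype_card (α := Equiv.Perm (Fin 3)), Fintype.card_perm, Fintype.card_fin] at this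
    by_contra hgt
    have h6 : Nat.card φ.range = 6 := by
      have := Nat.le_of_dvd (by norm_num) hdvd
      interval_cases hh : Nat.card φ.range <;> first | rfl | norm_num at hdvd
    have htop : φ.range = ⊤ := Subgroup.eq_top_of_card_eq _ (by
      rw [h6, Nat.card_eq_fintype_card, Fintype.card_perm, Fintype.card_fin]; rfl)
    have hcube : ∀ i j k : Fin 3, i ≠ j → i ≠ k → j ≠ k → d i ^ 3 = 1 := by
      intro i j k hij hik hjk
      obtain ⟨a, ha⟩ : Equiv.swap j k ∈ φ.range := htop ▸ Subgroup.mem_top _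
      have hsa : σ a = Equiv.swap j k := by
        rw [show φ a = (σ a)⁻¹ from rfl, inv_eq_iff_eq_inv, Equiv.swap_inv] at ha
        exact ha
      exact hd.cube_of_swap hij hik hjk hg (hN a.2) hdiag (hsa ▸ hact a d g hdiag) hno
    refine h3 1 ?_
    have : P * g ^ 3 * P⁻¹ = 1 := by
      rw [← conj_pow]
      refine Units.ext ?_
      rw [Units.val_pow_eq_pow_val, hdiag, diagonal_pow, Units.val_one, ← diagonal_one]
      congr 1
      funext a
      fin_cases a
      · exact hcube 0 1 2 (by decide) (by decide) (by decide)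
      · exact hcube 1 0 2 (by decide) (by decide) (by decide)
      · exact hcube 2 0 1 (by decide) (by decide) (by decide)
    rw [map_one]
    exact conj_eq_one_iff.1 this
  haveI : Finite N := Finite.of_injective _ (Subgroup.inclusion_injective hN)
  haveI : Finite ↥(M ⊓ Subgroup.centralizer ({g} : Set GL3)) :=
    Finite.of_injective _ (Subgroup.inclusion_injective inf_le_left)
  have hk : Nat.card φ.ker ≤ Nat.card ↥(M ⊓ Subgroup.centralizer ({g} : Set GL3)) := by
    rw [← Subgroup.card_map_of_injective N.subtype_injective]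
    exact Subgroup.card_le_of_le hker
  rw [← φ.ker.card_mul_index, Subgroup.index_ker, mul_comm 3]
  exact Nat.mul_le_mul hk hrange

end CfsgLib.SLThree90
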