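import Cfsg.Agent.SLThree90.HypR
import Cfsg.Agent.SLThree90.HypTorus
import Cfsg.Agent.SLThree90.HypPElem
import Cfsg.Agent.SLThree90.Count

/-!
The counting hypotheses hold for an overgroup of `3^(1+2).Q₈` with one class of involutions whose
centralisers are of semidihedral type; hence no such overgroup exists.
-/

set_option autoImplicit false

namespace CfsgLib.SLThree90

open Matrix

variable {L : Type*} [Field L]

local notation "GL3" => GL (Fin 3) L
local notation "Mat3" => Matrix (Fin 3) (Fin 3) L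

section general

variable {G : Type*} [Group G]

theorem inv_eq_pow_orderOf [Finite G] (g : G) : g⁻¹ = g ^ (orderOf g - 1) := by
  refine inv_eq_of_mul_eq_one_right ?_
  rw [← pow_succ', Nat.sub_add_cancel (orderOf_pos g), pow_orderOf_eq_one]

theorem mem_normalizer_of_conj_le [Finite G] {H : Subgroup G} {g : G}
    (h : ∀ x ∈ H, g * x * g⁻¹ ∈ H) : g ∈ Subgroup.normalizer (H : Set G) := by
  refine Subgroup.mem_normalizer_iff.2 fun x => ⟨h x, fun hx => ?_⟩
  obtain ⟨⟨y, hy⟩, e⟩ : ∃ y : H, (⟨g * y * g⁻¹, h y y.2⟩ : H) = ⟨g * x * g⁻¹, hx⟩ :=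
    Finite.surjective_of_injective (f := fun y : H => (⟨g * y * g⁻¹, h y y.2⟩ : H))
      (fun a b e => Subtype.ext (by simpa using congrArg Subtype.val e)) _
  simp only [Subtype.mk.injEq, mul_left_inj, mul_right_inj] at e
  exact e ▸ hy

theorem coe_mem_normalizer_zpowers {M : Subgroup G} {u x : M} :
    (x : G) ∈ Subgroup.normalizer (Subgroup.zpowers (u : G) : Set G) ↔
      x ∈ Subgroup.normalizer (Subgroup.zpowers u : Set M) := by
  have key : ∀ h : M, (h : G) ∈ Subgroup.zpowers (u : G) ↔ h ∈ Subgroup.zpowers u := fun h => by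
    simp only [Subgroup.mem_zpowers_iff, Subtype.ext_iff, Subgroup.coe_zpow]
  have hle : Subgroup.zpowers (u : G) ≤ M := Subgroup.zpowers_le.2 u.2
  rw [Subgroup.mem_normalizer_iff, Subgroup.mem_normalizer_iff]
  constructor
  · intro hx h
    rw [← key, ← key]
    exact hx h
  · intro hx h
    constructor
    · intro hh
      have := (key (x * ⟨h, hle hh⟩ * x⁻¹)).2 ((hx _).1 ((key ⟨h, hle hh⟩).1 hh))
      simpa using this
    · intro hh
      have hm : h ∈ M := by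
        have := M.mul_mem (M.mul_mem (M.inv_mem x.2) (hle hh)) x.2
        simpa [mul_assoc] using this
      exact (key ⟨h, hm⟩).2 ((hx ⟨h, hm⟩).2 ((key (x * ⟨h, hm⟩ * x⁻¹)).1 (by simpa using hh)))

theorem card_centralizer_coe (M : Subgroup G) (t : M) :
    Nat.card (Subgroup.centralizer ({t} : Set M)) =
      Nat.card ↥(M ⊓ Subgroup.centralizer ({(t : G)} : Set G)) := by
  rw [← Subgroup.card_map_of_injective M.subtype_injective]
  congr 2
  ext g
  simp only [Subgroup.mem_map, Subgroup.mem_inf, Subgroup.mem_centralizer_singleton_iff,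
    Subgroup.coe_subtype]
  constructor
  · rintro ⟨x, hx, rfl⟩
    exact ⟨x.2, congrArg Subtype.val hx⟩
  · rintro ⟨hg, hx⟩
    exact ⟨⟨g, hg⟩, Subtype.ext hx, rfl⟩

end general

variable {p : ℕ} {ω : Lˣ} {M : Subgroup (GL (Fin 3) L)} {n : ℕ}
  {W X Y A B : GL (Fin 3) L}

theorem RGen.cls_eq (h : RGen ω W X Y A B) {g : GL3} {i j i' j' : ℕ} (h1 : Cls W X Y g i j)
    (h2 : Cls W X Y g i' j') : i % 3 = i' % 3 ∧ j % 3 = j' % 3 := by
  obtain ⟨k, e⟩ := h.cls_mod h1
  obtain ⟨k', e'⟩ := h.cls_mod h2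
  rw [pow_eq_pow_mod k h.w_three] at e
  rw [pow_eq_pow_mod k' h.w_three] at e'
  exact (h.cls_unique (Nat.mod_lt _ three_pos) (Nat.mod_lt _ three_pos) (Nat.mod_lt _ three_pos)
    (Nat.mod_lt _ three_pos) (Nat.mod_lt _ three_pos) (Nat.mod_lt _ three_pos) (e.symm.trans e')).2

theorem RGen.cls_x (_h : RGen ω W X Y A B) : Cls W X Y X 1 0 := ⟨0, by simp⟩

theorem RGen.conj_x (h : RGen ω W X Y A B) {r : GL3} {i j : ℕ} (hr : Cls W X Y r i j) :
    r * X * r⁻¹ = W ^ (2 * j) * X := by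
  obtain ⟨k, rfl⟩ := hr
  have e : W ^ k * X ^ i * Y ^ j * X = W ^ (2 * j) * X * (W ^ k * X ^ i * Y ^ j) := by
    have h1 := h.y_pow_x j 1
    simp only [pow_one, mul_one] at h1
    calc W ^ k * X ^ i * Y ^ j * X = W ^ k * X ^ i * (W ^ (2 * j) * X * Y ^ j) := by
          rw [← h1]; simp only [mul_assoc]
      _ = W ^ k * (W ^ (2 * j) * (X ^ i * X)) * Y ^ j := by
          simp only [← mul_assoc]; rw [mul_assoc (W ^ k) (X ^ i), ← h.wpow_comm (2 * j) (X ^ i)]
          simp only [mul_assoc]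
      _ = (W ^ k * (W ^ (2 * j) * X)) * X ^ i * Y ^ j := by
          rw [(Commute.pow_self X i).eq]; simp only [mul_assoc]
      _ = W ^ (2 * j) * X * W ^ k * X ^ i * Y ^ j := by rw [h.wpow_comm k (W ^ (2 * j) * X)]
      _ = _ := by simp only [mul_assoc]
  rw [mul_inv_eq_iff_eq_mul, e]

/-- Only `⟨ω, X⟩` commutes with `X`. -/
theorem DihData.cent_x (hd : DihData p ω M n) (h : RGen ω W X Y A B) (hW : W ∈ M) (hX : X ∈ M)
    (hY : Y ∈ M) (hA : A ∈ M) {g : GL3} (hg : g ∈ M) (hgx : g * X = X * g) :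
    ∃ i, Cls W X Y g i 0 := by
  classical
  haveI := hd.finite
  obtain ⟨h3, h1, hsum⟩ := omega_eqs h.omega
  have hω0 : (ω : L) ≠ 0 := ω.ne_zero
  have hω2 : (ω : L) ^ 2 ≠ 1 := fun e => h1 (by linear_combination h3 - (ω : L) * e)
  have one_conj : ∀ x : GL3, (1 : GL3) * x * (1 : GL3)⁻¹ = x := fun x => by simp
  have hxd : ((1 * X * 1⁻¹ : GL3) : Mat3) = diagonal ![1, (ω : L), (ω : L) ^ 2] := by
    rw [one_conj, h.x_val]
    ext a b; fin_cases a <;> fin_cases b <;> simp [xMat]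
  have hinj : Function.Injective ![1, (ω : L), (ω : L) ^ 2] := by
    have hne : (ω : L) ≠ (ω : L) ^ 2 := fun e =>
      h1 (mul_left_cancel₀ hω0 (by linear_combination -e))
    intro a b e
    fin_cases a <;> fin_cases b <;>
      first
        | rfl
        | exact absurd e.symm h1 | exact absurd e h1 | exact absurd e hω2
        | exact absurd e.symm hω2 | exact absurd e hne | exact absurd e.symm hne
  -- no involution is diagonal
  have hno : ∀ s ∈ M, orderOf s = 2 → ∀ u, ((1 * s * 1⁻¹ : GL3) : Mat3) ≠ diagonal u := by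
    intro s hs hs2 u hu
    have hc : X * s = s * X := comm_of_diag hxd hu
    let K : Subgroup M :=
      { carrier := {g | ∃ i, Cls W X Y (g : GL3) i 0}
        one_mem' := ⟨0, 0, by simp⟩
        mul_mem' := by
          rintro a b ⟨i, hi⟩ ⟨i', hi'⟩
          exact ⟨i + i', h.cls_mul hi hi'⟩
        inv_mem' := by
          rintro a ⟨i, hi⟩
          refine ⟨(orderOf a - 1) * i, ?_⟩
          rw [inv_eq_pow_orderOf a]
          simpa using h.cls_pow hi (orderOf a - 1) }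
    have hK : Nat.card K = 9 := by
      have hmem : ∀ q : Fin 3 × Fin 3, W ^ (q.1 : ℕ) * X ^ (q.2 : ℕ) ∈ M := fun q =>
        M.mul_mem (pow_mem hW _) (pow_mem hX _)
      let f : Fin 3 × Fin 3 → K := fun q => ⟨⟨_, hmem q⟩, q.2, q.1, by simp⟩
      have hf : Function.Bijective f := by
        constructor
        · rintro ⟨a, b⟩ ⟨a', b'⟩ e
          have e1 : W ^ (a : ℕ) * X ^ (b : ℕ) * Y ^ 0 = W ^ (a' : ℕ) * X ^ (b' : ℕ) * Y ^ 0 := by
            simpa [f] using e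
          obtain ⟨ea, eb, -⟩ := h.cls_unique a.2 b.2 three_pos a'.2 b'.2 three_pos e1
          exact Prod.ext (Fin.ext ea) (Fin.ext eb)
        · rintro ⟨g, i, k, hk⟩
          refine ⟨(⟨k % 3, Nat.mod_lt _ three_pos⟩, ⟨i % 3, Nat.mod_lt _ three_pos⟩),
            Subtype.ext (Subtype.ext ?_)⟩
          simp only [f]
          rw [← pow_eq_pow_mod k h.w_three, ← pow_eq_pow_mod i h.x_three, hk, pow_zero, mul_one]
      rw [← Nat.card_eq_of_bijective f hf]
      simp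
    have hle : K.map M.subtype ≤ M ⊓ Subgroup.centralizer ({s} : Set GL3) := by
      rintro _ ⟨g, ⟨i, k, hk⟩, rfl⟩
      refine ⟨g.2, Subgroup.mem_centralizer_singleton_iff.2 ?_⟩
      show (g : GL3) * s = s * g
      rw [hk, pow_zero, mul_one]
      exact ((show Commute W s from h.w_comm s).pow_left k).mul_left
        ((show Commute X s from hc).pow_left i)
    have h9 := Subgroup.card_dvd_of_le hle
    rw [Subgroup.card_map_of_injective M.subtype_injective, hK, hd.card_cent s hs hs2] at h9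
    exact hd.three_not_dvd (by omega)
  have htM : A * A ∈ M := M.mul_mem hA hA
  have cube : ∀ (w : GL3) (d : Fin 3 → L), w ∈ M → ((w : GL3) : Mat3) = diagonal d → d 0 ^ 3 = 1 := by
    intro w d hw hwd
    refine hd.cube_of_swap (P := 1) (i := 0) (j := 1) (k := 2) (by decide) (by decide) (by decide)
      hw htM (by rw [one_conj, hwd]) ?_ hno
    rw [one_conj, show (((A * A) * w * (A * A)⁻¹ : GL3) : Mat3) =
      ((A * A : GL3) : Mat3) * (w : Mat3) * (((A * A)⁻¹ : GL3) : Mat3) by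
        rw [Units.val_mul, Units.val_mul (A * A)], hwd]
    have e : ((A * A : GL3) : Mat3) * diagonal d =
        diagonal (d ∘ Equiv.swap 1 2) * ((A * A : GL3) : Mat3) := by
      rw [h.a_sq]
      ext a b
      rw [Matrix.mul_diagonal, Matrix.diagonal_mul]
      fin_cases a <;> fin_cases b <;> simp [tMat, Equiv.swap_apply_def]
    rw [e, Matrix.mul_assoc, Units.mul_inv, Matrix.mul_one]
  obtain ⟨d, hdiag⟩ := comm_diag hxd hinj hgx
  rw [one_conj] at hdiag
  have shift : ∀ (w : GL3) (d : Fin 3 → L), ((w : GL3) : Mat3) = diagonal d →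
      ((Y * w * Y⁻¹ : GL3) : Mat3) = diagonal ![d 2, d 0, d 1] := by
    intro w d hwd
    have e : (Y : Mat3) * diagonal d = diagonal ![d 2, d 0, d 1] * (Y : Mat3) := by
      rw [h.y_val]
      ext a b
      rw [Matrix.mul_diagonal, Matrix.diagonal_mul]
      fin_cases a <;> fin_cases b <;> simp [yMat]
    rw [Units.val_mul, Units.val_mul, hwd, e, Matrix.mul_assoc, Units.mul_inv, Matrix.mul_one]
  have m1 : Y * g * Y⁻¹ ∈ M := M.mul_mem (M.mul_mem hY hg) (M.inv_mem hY)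
  have d0 := cube g d hg hdiag
  have d2 := cube _ _ m1 (shift g d hdiag)
  have d1 := cube _ _ (M.mul_mem (M.mul_mem hY m1) (M.inv_mem hY)) (shift _ _ (shift g d hdiag))
  simp only [Matrix.cons_val_zero, Matrix.cons_val] at d1 d2
  have hdet := hd.det_one g hg
  rw [hdiag, det_diagonal, Fin.prod_univ_three] at hdet
  obtain ⟨k0, -, e0⟩ := hd.omega'.eq_pow_of_pow_eq_one d0
  obtain ⟨k1, -, e1⟩ := hd.omega'.eq_pow_of_pow_eq_one d1
  have hne : (ω : L) ^ k0 * (ω : L) ^ k1 ≠ 0 := mul_ne_zero (pow_ne_zero _ hω0) (pow_ne_zero _ hω0)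
  have p3 : ∀ m : ℕ, (ω : L) ^ (3 * m) = 1 := fun m => by rw [pow_mul, h3, one_pow]
  have e2 : d 2 = (ω : L) ^ (2 * k0 + 2 * k1) := by
    rw [← e0, ← e1] at hdet
    refine mul_left_cancel₀ hne ?_
    rw [hdet, ← pow_add, ← pow_add, show k0 + k1 + (2 * k0 + 2 * k1) = 3 * (k0 + k1) by ring, p3]
  refine ⟨k1 + 2 * k0, k0, Units.ext ?_⟩
  have hx : xMat (ω : L) = diagonal ![1, (ω : L), (ω : L) ^ 2] := by
    ext a b; fin_cases a <;> fin_cases b <;> simp [xMat]
  rw [hdiag, pow_zero, mul_one, Units.val_mul, Units.val_pow_eq_pow_val, Units.val_pow_eq_pow_val,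
    h.w_val, sc3_val, h.x_val, hx, smul_pow, one_pow, diagonal_pow, Matrix.smul_mul, Matrix.one_mul,
    ← diagonal_smul]
  congr 1
  funext a
  fin_cases a
  · simp [e0]
  · simp only [Fin.mk_one, Fin.isValue, Pi.smul_apply, Pi.pow_apply, Matrix.cons_val_one,
      Matrix.cons_val_zero, smul_eq_mul, ← pow_add]
    rw [show k0 + (k1 + 2 * k0) = 3 * k0 + k1 by ring, pow_add, p3, one_mul, e1]
  · simp only [Fin.reduceFinMk, Fin.isValue, Pi.smul_apply, Pi.pow_apply, Matrix.cons_val,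
      smul_eq_mul, ← pow_mul, ← pow_add, e2]
    rw [show k0 + 2 * (k1 + 2 * k0) = 3 * k0 + (2 * k0 + 2 * k1) by ring, pow_add _ (3 * k0), p3,
      one_mul]

/-- An element of `M` moving a non-central element of `⟨ω, X, Y⟩` by a scalar lies in that group. -/
theorem DihData.r_self (hd : DihData p ω M n) (h : RGen ω W X Y A B) (hW : W ∈ M) (hX : X ∈ M)
    (hY : Y ∈ M) (hA : A ∈ M) (hB : B ∈ M) {g y : GL3} {i j e : ℕ} (hg : g ∈ M)
    (hy : Cls W X Y y i j) (h0 : ¬ (i % 3 = 0 ∧ j % 3 = 0)) (he : g * y * g⁻¹ = W ^ e * y) :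
    InR (ω : L) g := by
  obtain ⟨m, hm, hmn, hc⟩ :=
    h.exists_move hA hB (Nat.mod_lt i three_pos) (Nat.mod_lt j three_pos) h0
  obtain ⟨a, ha⟩ := h.cls_mod hy
  obtain ⟨b, hb⟩ := hc
  have hyv : y = W ^ (a + 2 * b) * (m * X * m⁻¹) := by
    rw [hb, ha, ← mul_assoc, ← mul_assoc, ← pow_add, show a + 2 * b + b = 3 * b + a by ring,
      pow_add, pow_mul, h.w_three, one_pow, one_mul]
  set g' := m⁻¹ * g * m with hg'
  have hwc : ∀ k (u v : GL3), u * (W ^ k * v) = W ^ k * (u * v) := fun k u v => by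
    rw [← mul_assoc, ← h.wpow_comm, mul_assoc]
  have h1 : g' * X * g'⁻¹ = W ^ e * X := by
    rw [hyv] at he
    have he' : g * (m * X * m⁻¹) * g⁻¹ = W ^ e * (m * X * m⁻¹) :=
      mul_left_cancel (a := W ^ (a + 2 * b))
        (calc W ^ (a + 2 * b) * (g * (m * X * m⁻¹) * g⁻¹)
            = g * (W ^ (a + 2 * b) * (m * X * m⁻¹)) * g⁻¹ := by rw [hwc _ g]; simp only [mul_assoc]
          _ = _ := by rw [he, hwc _ (W ^ e)])
    calc g' * X * g'⁻¹ = m⁻¹ * (g * (m * X * m⁻¹) * g⁻¹) * m := by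
          simp only [hg', mul_assoc, _root_.mul_inv_rev, inv_inv]
      _ = W ^ e * X := by rw [he', hwc]; simp [mul_assoc]
  have hg'M : g' ∈ M := M.mul_mem (M.mul_mem (M.inv_mem hm) hg) hm
  have hYc : Cls W X Y (Y ^ e) 0 e := ⟨0, by simp⟩
  have h2 : Y ^ e * g' * X = X * (Y ^ e * g') := by
    have : (Y ^ e * g') * X * (Y ^ e * g')⁻¹ = X := by
      rw [show Y ^ e * g' * X * (Y ^ e * g')⁻¹ = Y ^ e * (g' * X * g'⁻¹) * (Y ^ e)⁻¹ by group, h1,
        hwc, mul_assoc, h.conj_x hYc, ← mul_assoc, ← pow_add,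
        show e + 2 * e = 3 * e by ring, pow_mul, h.w_three, one_pow, one_mul]
    exact mul_inv_eq_iff_eq_mul.1 this
  obtain ⟨i', hi'⟩ := hd.cent_x h hW hX hY hA (M.mul_mem (pow_mem hY e) hg'M) h2
  have hY2 : Cls W X Y (Y ^ (2 * e)) 0 (2 * e) := ⟨0, by simp⟩
  have hg'R : InR (ω : L) g' := by
    refine h.inR_iff.2 ⟨0 + i', 2 * e + 0, ?_⟩
    have := h.cls_mul hY2 hi'
    rwa [← mul_assoc, ← pow_add, show 2 * e + e = 3 * e by ring, pow_mul, h.y_three, one_pow,
      one_mul] at this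
  have := hmn _ hg'R
  rwa [hg', show m * (m⁻¹ * g * m) * m⁻¹ = g by group] at this

/-- The group `⟨ω, X, Y⟩` inside `M`. -/
def RGen.sub (h : RGen ω W X Y A B) (M : Subgroup GL3) [Finite M] : Subgroup M where
  carrier := {g | InR (ω : L) (g : GL3)}
  one_mem' := h.inR_iff.2 ⟨0, 0, 0, by simp⟩
  mul_mem' := by
    intro a b ha hb
    obtain ⟨i, j, hij⟩ := h.inR_iff.1 ha
    obtain ⟨i', j', hij'⟩ := h.inR_iff.1 hb
    exact h.inR_iff.2 ⟨_, _, h.cls_mul hij hij'⟩
  inv_mem' := by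
    intro a ha
    obtain ⟨i, j, hij⟩ := h.inR_iff.1 ha
    refine h.inR_iff.2 ⟨(orderOf a - 1) * i, (orderOf a - 1) * j, ?_⟩
    rw [inv_eq_pow_orderOf a, Subgroup.coe_pow]
    exact h.cls_pow hij (orderOf a - 1)

theorem RGen.mem_sub (h : RGen ω W X Y A B) [Finite M] {g : M} :
    g ∈ h.sub M ↔ InR (ω : L) (g : GL3) := Iff.rfl

theorem RGen.card_sub (h : RGen ω W X Y A B) [Finite M] (hW : W ∈ M) (hX : X ∈ M) (hY : Y ∈ M) :
    Nat.card (h.sub M) = 27 := by
  have hmem : ∀ q : Fin 3 × Fin 3 × Fin 3,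
      W ^ (q.1 : ℕ) * X ^ (q.2.1 : ℕ) * Y ^ (q.2.2 : ℕ) ∈ M := fun q =>
    M.mul_mem (M.mul_mem (pow_mem hW _) (pow_mem hX _)) (pow_mem hY _)
  let f : Fin 3 × Fin 3 × Fin 3 → h.sub M := fun q =>
    ⟨⟨_, hmem q⟩, h.inR_iff.2 ⟨_, _, q.1, rfl⟩⟩
  have hf : Function.Bijective f := by
    constructor
    · rintro ⟨a, b, c⟩ ⟨a', b', c'⟩ e
      have e1 := congrArg (fun x : h.sub M => ((x : M) : GL3)) e
      obtain ⟨ea, eb, ec⟩ := h.cls_unique a.2 b.2 c.2 a'.2 b'.2 c'.2 e1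
      exact Prod.ext (Fin.ext ea) (Prod.ext (Fin.ext eb) (Fin.ext ec))
    · rintro ⟨g, hg⟩
      obtain ⟨i, j, k, hk⟩ := h.inR_iff.1 hg
      refine ⟨(⟨k % 3, Nat.mod_lt _ three_pos⟩, ⟨i % 3, Nat.mod_lt _ three_pos⟩,
        ⟨j % 3, Nat.mod_lt _ three_pos⟩), Subtype.ext (Subtype.ext ?_)⟩
      simp only [f]
      rw [← pow_eq_pow_mod k h.w_three, ← pow_eq_pow_mod i h.x_three,
        ← pow_eq_pow_mod j h.y_three, hk]
  rw [← Nat.card_eq_of_bijective f hf]
  simp

/-- The normaliser of `⟨ω, X, Y⟩` in `M` has order 216. -/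
theorem DihData.card_normalizer (hd : DihData p ω M n) [Finite M] (h : RGen ω W X Y A B)
    (hW : W ∈ M) (hX : X ∈ M) (hY : Y ∈ M) (hA : A ∈ M) (hB : B ∈ M) :
    Nat.card (Subgroup.normalizer (h.sub M : Set M)) = 216 := by
  classical
  let Q := {q : Fin 3 × Fin 3 // q ≠ (0, 0)}
  have h0 : ∀ q : Q, ¬ ((q.1.1 : ℕ) = 0 ∧ (q.1.2 : ℕ) = 0) := fun q e =>
    q.2 (Prod.ext (Fin.ext e.1) (Fin.ext e.2))
  choose m hm hmn hmc using fun q : Q => h.exists_move hA hB q.1.1.2 q.1.2.2 (h0 q)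
  have hmN : ∀ q, (⟨m q, hm q⟩ : M) ∈ Subgroup.normalizer (h.sub M : Set M) := fun q =>
    mem_normalizer_of_conj_le fun x hx => hmn q _ hx
  have hmem : ∀ (q : Q) (r : M), r ∈ h.sub M →
      (⟨m q, hm q⟩ : M) * r ∈ Subgroup.normalizer (h.sub M : Set M) := fun q r hr =>
    Subgroup.mul_mem _ (hmN q) (Subgroup.le_normalizer (H := h.sub M) hr)
  let f : Q × h.sub M → Subgroup.normalizer (h.sub M : Set M) := fun a =>
    ⟨(⟨m a.1, hm a.1⟩ : M) * (a.2 : M), hmem a.1 a.2 a.2.2⟩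
  have hcls : ∀ (q : Q) (r : h.sub M), Cls W X Y
      ((m q * ((r : M) : GL3)) * X * (m q * ((r : M) : GL3))⁻¹) q.1.1 q.1.2 := by
    intro q r
    obtain ⟨i, j, hij⟩ := h.inR_iff.1 r.2
    rw [show (m q * ((r : M) : GL3)) * X * (m q * ((r : M) : GL3))⁻¹ =
      m q * (((r : M) : GL3) * X * ((r : M) : GL3)⁻¹) * (m q)⁻¹ by group, h.conj_x hij,
      ← mul_assoc (m q), ← h.wpow_comm, mul_assoc (W ^ _), mul_assoc (W ^ _)]
    have := h.cls_mul (RGen.cls_w (W := W) (X := X) (Y := Y) (2 * j)) (hmc q)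
    rwa [Nat.zero_add, Nat.zero_add] at this
  have hf : Function.Bijective f := by
    constructor
    · rintro ⟨q, r⟩ ⟨q', r'⟩ e
      have e0 : (⟨m q, hm q⟩ : M) * (r : M) = (⟨m q', hm q'⟩ : M) * (r' : M) :=
        congrArg Subtype.val e
      have e1 : m q * ((r : M) : GL3) = m q' * ((r' : M) : GL3) := by
        simpa only [Subgroup.coe_mul] using congrArg Subtype.val e0
      have c1 := hcls q r
      rw [e1] at c1
      obtain ⟨ei, ej⟩ := h.cls_eq c1 (hcls q' r')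
      rw [Nat.mod_eq_of_lt q.1.1.2, Nat.mod_eq_of_lt q'.1.1.2] at ei
      rw [Nat.mod_eq_of_lt q.1.2.2, Nat.mod_eq_of_lt q'.1.2.2] at ej
      obtain rfl : q = q' := Subtype.ext (Prod.ext (Fin.ext ei) (Fin.ext ej))
      exact Prod.ext rfl (Subtype.ext (Subtype.ext (mul_left_cancel e1)))
    · rintro ⟨g, hg⟩
      have hXR : (⟨X, hX⟩ : M) ∈ h.sub M := h.inR_iff.2 ⟨_, _, h.cls_x⟩
      obtain ⟨i, j, hij⟩ := h.inR_iff.1 ((Subgroup.mem_normalizer_iff.1 hg ⟨X, hX⟩).1 hXR)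
      replace hij : Cls W X Y ((g : GL3) * X * (g : GL3)⁻¹) (i % 3) (j % 3) := h.cls_mod hij
      have hne : ¬ (i % 3 = 0 ∧ j % 3 = 0) := by
        rintro ⟨ei, ej⟩
        obtain ⟨k, hk⟩ := hij
        rw [ei, ej, pow_zero, pow_zero, mul_one, mul_one, mul_inv_eq_iff_eq_mul, h.wpow_comm,
          mul_right_inj] at hk
        have := h.cls_eq h.cls_x (hk ▸ RGen.cls_w k : Cls W X Y X 0 0)
        simp at this
      set q : Q := ⟨(⟨i % 3, Nat.mod_lt _ three_pos⟩, ⟨j % 3, Nat.mod_lt _ three_pos⟩), fun e =>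
        hne ⟨congrArg (fun q : Fin 3 × Fin 3 => (q.1 : ℕ)) e,
          congrArg (fun q : Fin 3 × Fin 3 => (q.2 : ℕ)) e⟩⟩ with hq
      set r : M := ⟨m q, hm q⟩⁻¹ * g with hr
      obtain ⟨a, ha⟩ := hij
      obtain ⟨b, hb⟩ := hmc q
      have hre : (r : GL3) * X * (r : GL3)⁻¹ = W ^ (a + 2 * b) * X := by
        have e1 : (g : GL3) * X * (g : GL3)⁻¹ = W ^ (a + 2 * b) * (m q * X * (m q)⁻¹) := by
          rw [ha, hb, ← mul_assoc, ← mul_assoc, ← pow_add, show a + 2 * b + b = 3 * b + a by ring,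
            pow_add, pow_mul, h.w_three, one_pow, one_mul]
        rw [show (r : GL3) * X * (r : GL3)⁻¹ =
          (m q)⁻¹ * ((g : GL3) * X * (g : GL3)⁻¹) * m q by simp [hr, mul_assoc], e1,
          ← mul_assoc, ← h.wpow_comm]
        simp [mul_assoc]
      have hrR : InR (ω : L) (r : GL3) := hd.r_self h hW hX hY hA hB r.2 h.cls_x (by simp) hre
      exact ⟨(q, ⟨r, hrR⟩), Subtype.ext (by simp [f, hr])⟩
  have hQ : Nat.card Q = 8 := by
    rw [Nat.card_eq_fintype_card, Fintype.card_subtype_compl, Fintype.card_prod, Fintype.card_fin,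
      Fintype.card_subtype_eq]
  rw [← Nat.card_eq_of_bijective f hf, Nat.card_prod, hQ, h.card_sub hW hX hY]

/-- The case of one class of involutions with semidihedral centralisers does not occur. -/
theorem DihData.false [IsAlgClosed L] (hd : DihData p ω M n) (hx : Extra p M ω) : False := by
  classical
  haveI := hd.finite
  obtain ⟨X, hX, hXv⟩ := hx.x_mem
  obtain ⟨Y, hY, hYv⟩ := hx.y_mem
  obtain ⟨A, hA, hAv⟩ := hx.a_mem
  obtain ⟨B, hB, hBv⟩ := hx.b_mem
  have h : RGen ω (sc3 ω) X Y A B := ⟨hd.omega, rfl, hXv, hYv, hAv, hBv⟩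
  have hW := hd.scalar_mem
  let Wm : M := ⟨sc3 ω, hW⟩
  let Z := Subgroup.zpowers Wm
  let t : M := ⟨A * A, M.mul_mem hA hA⟩
  have memZ : ∀ g : M, g ∈ Z ↔ ∃ c, (g : GL3) = sc3 c := by
    intro g
    constructor
    · intro hg
      obtain ⟨k, rfl⟩ := Subgroup.mem_zpowers_iff.1 hg
      exact ⟨ω ^ k, by rw [map_zpow]; rfl⟩
    · rintro ⟨c, hc⟩
      obtain ⟨k, hk⟩ := hd.of_sc3_mem (hc ▸ g.2)
      have : g = Wm ^ k := Subtype.ext (hc.trans hk)
      rw [this]
      exact pow_mem (Subgroup.mem_zpowers _) k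
  have hZc : Z ≤ Subgroup.center M := Subgroup.zpowers_le.2 (Subgroup.mem_center_iff.2 fun g =>
    Subtype.ext (sc3_comm ω (g : GL3)).symm)
  have ht2 : orderOf (A * A) = 2 := by
    haveI : Fact (Nat.Prime 2) := ⟨Nat.prime_two⟩
    refine orderOf_eq_prime (Units.ext ?_) fun e => ?_
    · rw [sq, Units.val_mul, h.a_sq, Units.val_one]
      ext a b
      fin_cases a <;> fin_cases b <;> simp [tMat, Matrix.mul_apply, Fin.sum_univ_three]
    · have := congrFun (congrFun (h.a_sq.symm.trans (congrArg Units.val e)) 1) 1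
      simp [tMat] at this
  have ht : orderOf t = 2 := by rw [← Subgroup.orderOf_coe]; exact ht2
  have ho : ∀ g : M, orderOf (g : GL3) = orderOf g := fun g => Subgroup.orderOf_coe g
  have hcard3 : Nat.card Z = 3 := by
    haveI : Fact (Nat.Prime 3) := ⟨Nat.prime_three⟩
    rw [Nat.card_zpowers, ← ho]
    refine orderOf_eq_prime h.w_three fun e => ?_
    have := congrArg (fun g : GL3 => (g : Mat3) 0 0) e
    simp [Wm, sc3_val] at this
    exact (omega_eqs h.omega).2.1 (congrArg Units.val this)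
  have hRcard := h.card_sub (M := M) hW hX hY
  have hN := hd.card_normalizer h hW hX hY hA hB
  refine CountHyp.false (G := M) (Z := Z) (R := h.sub M) (t := t) (p := p) (n := n)
    { p_prime := hd.p_prime, seven_le := hd.seven_le, not_p_sq := hd.not_p_sq,
      not_eightyone := ?_, Z_le := hZc, card_Z := hcard3, four_dvd := hd.four_dvd,
      three_not_dvd := hd.three_not_dvd, order_t := ht, conj_t := ?_, card_cent := ?_,
      card_refl := ?_, pair := ?_, abelian := ?_, card_R := hRcard, Z_le_R := ?_,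
      card_normalizer_R := hN, R_self := ?_, torus := ?_, cent_p := ?_, cyclic_p := ?_,
      invol_p := ?_ }
  · intro h81
    haveI : Fact (Nat.Prime 3) := ⟨Nat.prime_three⟩
    have := Sylow.prime_pow_dvd_card_normalizer (p := 3) (n := 3) h81 hRcard
    rw [hN] at this
    norm_num at this
  · intro s hs
    obtain ⟨g, hg, e⟩ := hd.one_class _ t.2 _ s.2 ht2 ((ho s).trans hs)
    exact isConj_iff.2 ⟨⟨g, hg⟩, Subtype.ext e⟩
  · rw [card_centralizer_coe]
    exact hd.card_cent _ t.2 ht2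
  · rw [← hd.card_refl _ t.2 ht2]
    refine Nat.card_congr
      { toFun := fun u => ⟨u.1.1, u.1.2, (ho u.1).trans u.2.1, fun e => u.2.2.1 (Subtype.ext e),
          congrArg Subtype.val u.2.2.2⟩
        invFun := fun u => ⟨⟨u.1, u.2.1⟩, (ho _).symm.trans u.2.2.1,
          fun e => u.2.2.2.1 (congrArg Subtype.val e), Subtype.ext u.2.2.2.2⟩
        left_inv := fun u => rfl
        right_inv := fun u => rfl }
  · intro s u g hs hu hne hc hgs hgu
    obtain ⟨c, hc'⟩ := hd.pair _ s.2 _ u.2 ((ho s).trans hs) ((ho u).trans hu)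
      (fun e => hne (Subtype.ext e)) (congrArg Subtype.val hc) _ g.2 (congrArg Subtype.val hgs)
      (congrArg Subtype.val hgu)
    rcases hc' with e | e | e | e
    · exact Or.inl ((memZ _).2 ⟨c, e⟩)
    · exact Or.inr (Or.inl ((memZ _).2 ⟨c, e⟩))
    · exact Or.inr (Or.inr (Or.inl ((memZ _).2 ⟨c, e⟩)))
    · exact Or.inr (Or.inr (Or.inr ((memZ _).2 ⟨c, e⟩)))
  · intro g hgZ hp hns x y hxg hyg
    obtain ⟨P, d, hdiag⟩ := exists_diag (g := (g : GL3)) (hd.natCast_ne_zero hp)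
      (by rw [← ho, pow_orderOf_eq_one])
    have hinj : Function.Injective d := by
      intro j k e
      by_contra hjk
      rcases hd.dbl g.2 hdiag hjk e with h1 | ⟨s, hs, hs2, ⟨c, hc⟩, -, -⟩
      · refine hgZ ((memZ g).2 ?_)
        have hdet := hd.det_one _ g.2
        rw [conj_diag_det hdiag] at hdet
        have h0 : d 0 ≠ 0 := fun h0 => by rw [h0] at hdet; simp at hdet
        refine ⟨Units.mk0 (d 0) h0, ?_⟩
        have e1 : P * (g : GL3) * P⁻¹ = sc3 (Units.mk0 (d 0) h0) := Units.ext (by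
          rw [hdiag, sc3_val, ← diagonal_one, ← diagonal_smul]
          exact congrArg diagonal (funext fun a => by simp [h1 a 0]))
        calc (g : GL3) = P⁻¹ * (P * (g : GL3) * P⁻¹) * P := by group
          _ = _ := by rw [e1, mul_assoc, sc3_comm, inv_mul_cancel_left]
      · exact hns ⟨s, hs⟩ ((ho ⟨s, hs⟩).symm.trans hs2) ((memZ _).2 ⟨c, hc⟩)
    obtain ⟨u, hu⟩ := comm_diag hdiag hinj (congrArg Subtype.val hxg)
    obtain ⟨v, hv⟩ := comm_diag hdiag hinj (congrArg Subtype.val hyg)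
    exact Subtype.ext (comm_of_diag hu hv)
  · refine Subgroup.zpowers_le.2 (h.inR_iff.2 ⟨0, 0, 1, ?_⟩)
    simp [Wm]
  · intro y hy hyZ g hg
    obtain ⟨i, j, hij⟩ := h.inR_iff.1 hy
    have h0 : ¬ (i % 3 = 0 ∧ j % 3 = 0) := by
      rintro ⟨ei, ej⟩
      obtain ⟨k, hk⟩ := h.cls_mod hij
      refine hyZ ((memZ y).2 ⟨ω ^ k, ?_⟩)
      rw [hk, ei, ej, pow_zero, pow_zero, mul_one, mul_one, map_pow]
    obtain ⟨c, hc⟩ := (memZ _).1 hg
    obtain ⟨e, he⟩ := hd.of_sc3_mem (hc ▸ (g * y * g⁻¹ * y⁻¹).2)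
    refine hd.r_self h hW hX hY hA hB g.2 hij h0 (e := e) ?_
    have := hc.trans he
    simp only [Subgroup.coe_mul, InvMemClass.coe_inv] at this
    exact mul_inv_eq_iff_eq_mul.1 this
  · intro g h3 hp hns
    set N := Subgroup.normalizer (Subgroup.centralizer ({g} : Set M) : Set M)
    rw [card_centralizer_coe, ← Subgroup.card_map_of_injective (K := N) M.subtype_injective]
    refine hd.torus g.2 (fun c e => h3 ((memZ _).2 ⟨c, by rw [Subgroup.coe_pow, e]⟩))
      (by rwa [ho]) (fun s hs hs2 e => hns ⟨s, hs⟩ ((ho ⟨s, hs⟩).symm.trans hs2) (Subtype.ext e))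
      (Subgroup.map_subtype_le _) ?_
    rintro _ ⟨x, hx, rfl⟩
    have := Subgroup.mem_centralizer_singleton_iff.1
      ((Subgroup.mem_normalizer_iff.1 hx g).1 (Subgroup.mem_centralizer_singleton_iff.2 rfl))
    exact congrArg Subtype.val this
  · intro u hu
    apply le_antisymm
    · intro g hg
      obtain ⟨c, k, e⟩ := hd.cent_p u.2 ((ho u).trans hu) _ g.2
        (congrArg Subtype.val (Subgroup.mem_centralizer_singleton_iff.1 hg))
      rw [show g = (g * (u ^ k)⁻¹) * u ^ k by group]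
      exact Subgroup.mul_mem_sup ((memZ _).2 ⟨c, by simp [e]⟩) (pow_mem (Subgroup.mem_zpowers u) k)
    · refine sup_le (fun z hz => ?_) (Subgroup.zpowers_le.2 ?_)
      · exact Subgroup.mem_centralizer_singleton_iff.2 (Subgroup.mem_center_iff.1 (hZc hz) u).symm
      · exact Subgroup.mem_centralizer_singleton_iff.2 rfl
  · intro u hu
    obtain ⟨c, hcM, hcN, hc⟩ := hd.cyclic_p u.2 ((ho u).trans hu)
    have hcN' : (⟨c, hcM⟩ : M) ∈ Subgroup.normalizer (Subgroup.zpowers u : Set M) :=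
      coe_mem_normalizer_zpowers.1 hcN
    refine ⟨⟨c, hcM⟩, hcN', le_antisymm (fun g hg => ?_) ?_⟩
    · obtain ⟨a, i, j, e⟩ := hc _ g.2 (coe_mem_normalizer_zpowers.2 hg)
      rw [show g = (g * ((⟨c, hcM⟩ : M) ^ j)⁻¹ * (u ^ i)⁻¹) * u ^ i * (⟨c, hcM⟩ : M) ^ j by group]
      exact Subgroup.mul_mem_sup (Subgroup.mul_mem_sup ((memZ _).2 ⟨a, by simp [e]⟩)
        (pow_mem (Subgroup.mem_zpowers u) i)) (pow_mem (Subgroup.mem_zpowers _) j)
    · refine sup_le (sup_le (fun z hz => ?_) Subgroup.le_normalizer) (Subgroup.zpowers_le.2 hcN')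
      refine Subgroup.mem_normalizer_iff.2 fun x => ?_
      rw [← Subgroup.mem_center_iff.1 (hZc hz) x, mul_inv_cancel_right]
  · intro u z s hu hz h1 h2 hs hzs
    obtain ⟨s2, hs2M, hs2N, hs2o⟩ := hd.invol_p u.2 z.2 s.2 ((ho u).trans hu)
      (coe_mem_normalizer_zpowers.2 hz) (fun e => h1 (Subtype.ext e))
      (fun e => h2 (Subtype.ext e)) ((ho s).trans hs) (congrArg Subtype.val hzs)
    exact ⟨⟨s2, hs2M⟩, coe_mem_normalizer_zpowers.1 hs2N, (ho ⟨s2, hs2M⟩).symm.trans hs2o⟩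

end CfsgLib.SLThree90
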