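import Cfsg.Agent.SLThree90.Interface

/-!
The extraspecial group `⟨ω, X, Y⟩` of order 27 inside an overgroup, and the elements moving its
non-central classes.
-/

set_option autoImplicit false

namespace CfsgLib.SLThree90

open Matrix

variable {L : Type*} [Field L]

local notation "GL3" => GL (Fin 3) L
local notation "Mat3" => Matrix (Fin 3) (Fin 3) L

/-- Units over the standard generators of the extraspecial group and its normaliser. -/
structure RGen (ω : Lˣ) (W X Y A B : GL3) : Prop where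
  omega : IsPrimitiveRoot ω 3
  w_val : W = sc3 ω
  x_val : (X : Mat3) = xMat (ω : L)
  y_val : (Y : Mat3) = yMat
  a_val : (A : Mat3) = aMat (ω : L)
  b_val : (B : Mat3) = bMat (ω : L)

theorem omega_eqs {ω : Lˣ} (h : IsPrimitiveRoot ω 3) :
    (ω : L) ^ 3 = 1 ∧ (ω : L) ≠ 1 ∧ (ω : L) ^ 2 + (ω : L) + 1 = 0 := by
  have h3 : (ω : L) ^ 3 = 1 := by rw [← Units.val_pow_eq_pow_val, h.pow_eq_one, Units.val_one]
  have h1 : (ω : L) ≠ 1 := fun e => h.ne_one (by norm_num) (Units.ext e)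
  refine ⟨h3, h1, (mul_eq_zero.1 (show ((ω : L) - 1) * ((ω : L) ^ 2 + (ω : L) + 1) = 0 by
    linear_combination h3)).resolve_left (sub_ne_zero.2 h1)⟩

/-- The class of `g` modulo the scalars in `⟨ω, X, Y⟩`. -/
def Cls (W X Y : GL3) (g : GL3) (i j : ℕ) : Prop := ∃ k : ℕ, g = W ^ k * X ^ i * Y ^ j

namespace RGen

variable {ω : Lˣ} {W X Y A B : GL (Fin 3) L} (h : RGen ω W X Y A B)
include h

theorem w_comm (g : GL3) : W * g = g * W := by rw [h.w_val]; exact sc3_comm _ _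

theorem wpow_comm (k : ℕ) (g : GL3) : W ^ k * g = g * W ^ k :=
  (show Commute W g from h.w_comm g).pow_left k

theorem w_three : W ^ 3 = 1 := by rw [h.w_val, ← map_pow, h.omega.pow_eq_one, map_one]

theorem x_three : X ^ 3 = 1 := by
  obtain ⟨h3, -, -⟩ := omega_eqs h.omega
  refine Units.ext ?_
  rw [Units.val_pow_eq_pow_val, h.x_val, Units.val_one]
  ext i j
  fin_cases i <;> fin_cases j <;> simp [xMat, pow_succ, Matrix.mul_apply, Fin.sum_univ_three] <;>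
    grind

theorem y_three : Y ^ 3 = 1 := by
  refine Units.ext ?_
  rw [Units.val_pow_eq_pow_val, h.y_val, Units.val_one]
  ext i j
  fin_cases i <;> fin_cases j <;> simp [yMat, pow_succ, Matrix.mul_apply, Fin.sum_univ_three]

theorem yx : Y * X = W ^ 2 * X * Y := by
  obtain ⟨h3, -, h2⟩ := omega_eqs h.omega
  refine Units.ext ?_
  rw [Units.val_mul, Units.val_mul, Units.val_mul, Units.val_pow_eq_pow_val, h.w_val, sc3_val,
    h.x_val, h.y_val]
  ext i j
  fin_cases i <;> fin_cases j <;>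
    simp [xMat, yMat, pow_two, Matrix.mul_apply, Fin.sum_univ_three, Matrix.one_apply] <;>
    grind

theorem a_x : A * X = Y ^ 2 * A := by
  obtain ⟨h3, -, h2⟩ := omega_eqs h.omega
  refine Units.ext ?_
  rw [Units.val_mul, Units.val_mul, Units.val_pow_eq_pow_val, h.x_val, h.y_val, h.a_val, aMat,
    Matrix.smul_mul, Matrix.mul_smul]
  congr 1
  ext i j
  fin_cases i <;> fin_cases j <;>
    simp [xMat, yMat, pow_two, Matrix.mul_apply, Fin.sum_univ_three] <;>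
    grind

theorem a_y : A * Y = X * A := by
  obtain ⟨h3, -, h2⟩ := omega_eqs h.omega
  refine Units.ext ?_
  rw [Units.val_mul, Units.val_mul, h.x_val, h.y_val, h.a_val, aMat, Matrix.smul_mul,
    Matrix.mul_smul]
  congr 1
  ext i j
  fin_cases i <;> fin_cases j <;>
    simp [xMat, yMat, pow_two, Matrix.mul_apply, Fin.sum_univ_three] <;>
    grind

theorem b_x : B * X = W ^ 2 * X * Y ^ 2 * B := by
  obtain ⟨h3, -, h2⟩ := omega_eqs h.omega
  refine Units.ext ?_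
  rw [Units.val_mul, Units.val_mul, Units.val_mul, Units.val_mul, Units.val_pow_eq_pow_val,
    Units.val_pow_eq_pow_val, h.w_val, sc3_val, h.x_val, h.y_val, h.b_val, bMat, Matrix.smul_mul,
    Matrix.mul_smul]
  congr 1
  ext i j
  fin_cases i <;> fin_cases j <;>
    simp [xMat, yMat, pow_two, Matrix.mul_apply, Fin.sum_univ_three, Matrix.one_apply] <;>
    grind

theorem b_y : B * Y = W * X ^ 2 * Y ^ 2 * B := by
  obtain ⟨h3, -, h2⟩ := omega_eqs h.omega
  refine Units.ext ?_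
  rw [Units.val_mul, Units.val_mul, Units.val_mul, Units.val_mul, Units.val_pow_eq_pow_val,
    Units.val_pow_eq_pow_val, h.w_val, sc3_val, h.x_val, h.y_val, h.b_val, bMat, Matrix.smul_mul,
    Matrix.mul_smul]
  congr 1
  ext i j
  fin_cases i <;> fin_cases j <;>
    simp [xMat, yMat, pow_two, Matrix.mul_apply, Fin.sum_univ_three, Matrix.one_apply] <;>
    grind

theorem a_sq : (A * A : GL3).1 = tMat := by
  obtain ⟨h3, h1, h2⟩ := omega_eqs h.omega
  have hd : ((ω : L) - (ω : L) ^ 2) ≠ 0 := by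
    intro e
    have : (ω : L) * (1 - (ω : L)) = 0 := by linear_combination e
    rcases mul_eq_zero.1 this with e' | e'
    · exact ω.ne_zero e'
    · exact h1 (sub_eq_zero.1 e').symm
  rw [Units.val_mul, h.a_val, aMat, Matrix.smul_mul, Matrix.mul_smul, smul_smul, ← mul_inv,
    inv_smul_eq_iff₀ (mul_ne_zero hd hd)]
  ext i j
  fin_cases i <;> fin_cases j <;>
    simp [tMat, Matrix.mul_apply, Fin.sum_univ_three] <;>
    grind

theorem y_pow_x (j i : ℕ) : Y ^ j * X ^ i = W ^ (2 * i * j) * X ^ i * Y ^ j := by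
  have h1 : ∀ i : ℕ, Y * X ^ i = W ^ (2 * i) * X ^ i * Y := by
    intro i
    induction i with
    | zero => simp
    | succ i ih =>
      calc Y * X ^ (i + 1) = (Y * X ^ i) * X := by rw [pow_succ, mul_assoc]
        _ = W ^ (2 * i) * X ^ i * (Y * X) := by rw [ih, mul_assoc]
        _ = W ^ (2 * i) * (X ^ i * W ^ 2) * (X * Y) := by rw [h.yx]; simp [mul_assoc]
        _ = W ^ (2 * i) * W ^ 2 * (X ^ i * X) * Y := by
            rw [← h.wpow_comm 2 (X ^ i)]; simp [mul_assoc]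
        _ = _ := by rw [← pow_add, ← pow_succ]; ring_nf
  induction j with
  | zero => simp
  | succ j ih =>
    calc Y ^ (j + 1) * X ^ i = Y * (Y ^ j * X ^ i) := by rw [pow_succ', mul_assoc]
      _ = Y * W ^ (2 * i * j) * X ^ i * Y ^ j := by rw [ih]; simp [mul_assoc]
      _ = W ^ (2 * i * j) * (Y * X ^ i) * Y ^ j := by rw [← h.wpow_comm]; simp [mul_assoc]
      _ = W ^ (2 * i * j) * W ^ (2 * i) * X ^ i * (Y * Y ^ j) := by rw [h1]; simp [mul_assoc]
      _ = _ := by rw [← pow_add, ← pow_succ']; ring_nf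

theorem cls_mul {g g' : GL3} {i j i' j' : ℕ} (hg : Cls W X Y g i j) (hg' : Cls W X Y g' i' j') :
    Cls W X Y (g * g') (i + i') (j + j') := by
  obtain ⟨k, rfl⟩ := hg
  obtain ⟨k', rfl⟩ := hg'
  refine ⟨k + k' + 2 * i' * j, ?_⟩
  calc W ^ k * X ^ i * Y ^ j * (W ^ k' * X ^ i' * Y ^ j')
      = W ^ k * X ^ i * (Y ^ j * W ^ k') * (X ^ i' * Y ^ j') := by simp [mul_assoc]
    _ = W ^ k * (X ^ i * W ^ k') * (Y ^ j * X ^ i') * Y ^ j' := by
        rw [← h.wpow_comm k' (Y ^ j)]; simp [mul_assoc]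
    _ = W ^ k * (W ^ k' * X ^ i) * (W ^ (2 * i' * j) * X ^ i' * Y ^ j) * Y ^ j' := by
        rw [← h.wpow_comm k' (X ^ i), h.y_pow_x]
    _ = W ^ k * W ^ k' * (X ^ i * W ^ (2 * i' * j)) * X ^ i' * (Y ^ j * Y ^ j') := by
        simp [mul_assoc]
    _ = W ^ k * W ^ k' * W ^ (2 * i' * j) * (X ^ i * X ^ i') * (Y ^ j * Y ^ j') := by
        rw [← h.wpow_comm (2 * i' * j) (X ^ i)]; simp [mul_assoc]
    _ = _ := by simp only [← pow_add]

theorem cls_pow {g : GL3} {i j : ℕ} (hg : Cls W X Y g i j) (m : ℕ) :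
    Cls W X Y (g ^ m) (m * i) (m * j) := by
  induction m with
  | zero => exact ⟨0, by simp⟩
  | succ m ih =>
    rw [pow_succ, Nat.succ_mul, Nat.succ_mul]
    exact h.cls_mul ih hg

theorem cls_mod {g : GL3} {i j : ℕ} (hg : Cls W X Y g i j) : Cls W X Y g (i % 3) (j % 3) := by
  obtain ⟨k, rfl⟩ := hg
  exact ⟨k, by rw [← pow_eq_pow_mod i h.x_three, ← pow_eq_pow_mod j h.y_three]⟩

omit h in
theorem cls_w (k : ℕ) : Cls W X Y (W ^ k) 0 0 := ⟨k, by simp⟩

theorem inR_iff {g : GL3} : InR (ω : L) g ↔ ∃ i j, Cls W X Y g i j := by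
  have val : ∀ k i j : ℕ, ((W ^ k * X ^ i * Y ^ j : GL3) : Mat3) =
      (ω : L) ^ k • (xMat (ω : L) ^ i * yMat ^ j) := fun k i j => by
    rw [Units.val_mul, Units.val_mul, Units.val_pow_eq_pow_val, Units.val_pow_eq_pow_val,
      Units.val_pow_eq_pow_val, h.w_val, sc3_val, h.x_val, h.y_val, smul_pow, one_pow,
      Matrix.smul_mul, Matrix.one_mul, Matrix.smul_mul]
  constructor
  · rintro ⟨k, i, j, hg⟩
    exact ⟨i, j, k, Units.ext (hg.trans (val k i j).symm)⟩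
  · rintro ⟨i, j, k, hg⟩
    refine ⟨⟨k % 3, Nat.mod_lt _ (by norm_num)⟩, ⟨i % 3, Nat.mod_lt _ (by norm_num)⟩,
      ⟨j % 3, Nat.mod_lt _ (by norm_num)⟩, ?_⟩
    rw [← val, hg, ← pow_eq_pow_mod k h.w_three, ← pow_eq_pow_mod i h.x_three,
      ← pow_eq_pow_mod j h.y_three]

theorem cls_unique {k i j k' i' j' : ℕ} (hk : k < 3) (hi : i < 3) (hj : j < 3) (hk' : k' < 3)
    (hi' : i' < 3) (hj' : j' < 3) (e : W ^ k * X ^ i * Y ^ j = W ^ k' * X ^ i' * Y ^ j') :
    k = k' ∧ i = i' ∧ j = j' := by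
  have hω : IsPrimitiveRoot (ω : L) 3 :=
    h.omega.map_of_injective (f := Units.coeHom L) Units.val_injective
  have ev : ∀ k i : ℕ, ((W ^ k * X ^ i : GL3) : Mat3) =
      diagonal ![(ω : L) ^ k, (ω : L) ^ (k + i), (ω : L) ^ (k + 2 * i)] := fun k i => by
    have hx : xMat (ω : L) = diagonal ![1, (ω : L), (ω : L) ^ 2] := by
      ext a b; fin_cases a <;> fin_cases b <;> simp [xMat]
    rw [Units.val_mul, Units.val_pow_eq_pow_val, Units.val_pow_eq_pow_val, h.w_val, sc3_val,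
      h.x_val, hx, smul_pow, one_pow, diagonal_pow, Matrix.smul_mul, Matrix.one_mul, ← diagonal_smul]
    congr 1
    funext a
    fin_cases a <;> simp [pow_add, pow_mul]
  have yv : ∀ j : ℕ, j < 3 → ∀ (d : Fin 3 → L) (a b : Fin 3),
      (diagonal d * ((Y ^ j : GL3) : Mat3)) a b = if (b.val + j) % 3 = a.val then d a else 0 := by
    intro j hj d a b
    rw [Units.val_pow_eq_pow_val, h.y_val, Matrix.diagonal_mul]
    interval_cases j <;> fin_cases a <;> fin_cases b <;>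
      simp [yMat, pow_two, Matrix.mul_apply, Fin.sum_univ_three, Matrix.one_apply]
  have e' := congrArg (fun g : GL3 => (g : Mat3)) e
  simp only [Units.val_mul _ (Y ^ _), ev] at e'
  have key : ∀ a b : Fin 3, (if (b.val + j) % 3 = a.val then
        ![(ω : L) ^ k, (ω : L) ^ (k + i), (ω : L) ^ (k + 2 * i)] a else 0) =
      if (b.val + j') % 3 = a.val then
        ![(ω : L) ^ k', (ω : L) ^ (k' + i'), (ω : L) ^ (k' + 2 * i')] a else 0 := fun a b => by
    rw [← yv j hj, ← yv j' hj', e']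
  have hjj : j = j' := by
    have h0 := key ⟨j, hj⟩ 0
    by_contra hne
    have h1 : (0 + j) % 3 = j := by omega
    have h2 : ¬ (0 + j') % 3 = j := by omega
    simp only [Fin.val_zero, h1, if_true, h2, if_false] at h0
    interval_cases j <;> simp at h0
  subst hjj
  have h0 := key 0 ⟨(3 - j) % 3, Nat.mod_lt _ (by norm_num)⟩
  have h1 := key 1 ⟨(4 - j) % 3, Nat.mod_lt _ (by norm_num)⟩
  have e0 : ((3 - j) % 3 + j) % 3 = ((0 : Fin 3) : ℕ) := by simp; omega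
  have e1 : ((4 - j) % 3 + j) % 3 = ((1 : Fin 3) : ℕ) := by simp; omega
  simp only [e0, e1, if_true] at h0 h1
  simp only [Matrix.cons_val_zero, Matrix.cons_val_one] at h0 h1
  have hkk : k = k' := hω.pow_inj hk hk' h0
  subst hkk
  rw [pow_add, pow_add] at h1
  exact ⟨rfl, hω.pow_inj hi hi' (mul_left_cancel₀ (pow_ne_zero _ ω.ne_zero) h1), rfl⟩

/-- Conjugation by `g` acts on the classes by `σ`. -/
theorem cls_conj {g : GL3} {u v : ℕ × ℕ} (hx : Cls W X Y (g * X * g⁻¹) u.1 u.2)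
    (hy : Cls W X Y (g * Y * g⁻¹) v.1 v.2) {r : GL3} {i j : ℕ} (hr : Cls W X Y r i j) :
    Cls W X Y (g * r * g⁻¹) (i * u.1 + j * v.1) (i * u.2 + j * v.2) := by
  obtain ⟨k, rfl⟩ := hr
  have e : g * (W ^ k * X ^ i * Y ^ j) * g⁻¹ =
      W ^ k * ((g * X * g⁻¹) ^ i * (g * Y * g⁻¹) ^ j) := by
    rw [conj_pow, conj_pow]
    calc _ = (g * W ^ k) * X ^ i * Y ^ j * g⁻¹ := by simp [mul_assoc]
      _ = _ := by rw [← h.wpow_comm]; simp [mul_assoc]
  rw [e]
  have := h.cls_mul (cls_w k) (h.cls_mul (h.cls_pow hx i) (h.cls_pow hy j))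
  simpa using this

theorem a_cls {r : GL3} {i j : ℕ} (hr : Cls W X Y r i j) :
    Cls W X Y (A * r * A⁻¹) (j % 3) (2 * i % 3) := by
  have hx : Cls W X Y (A * X * A⁻¹) 0 2 := ⟨0, by rw [h.a_x]; simp⟩
  have hy : Cls W X Y (A * Y * A⁻¹) 1 0 := ⟨0, by rw [h.a_y]; simp⟩
  have := h.cls_mod (h.cls_conj (u := (0, 2)) (v := (1, 0)) hx hy hr)
  simpa [mul_comm] using this

theorem b_cls {r : GL3} {i j : ℕ} (hr : Cls W X Y r i j) :
    Cls W X Y (B * r * B⁻¹) ((i + 2 * j) % 3) ((2 * i + 2 * j) % 3) := by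
  have hx : Cls W X Y (B * X * B⁻¹) 1 2 := ⟨2, by rw [h.b_x]; simp⟩
  have hy : Cls W X Y (B * Y * B⁻¹) 2 2 := ⟨1, by rw [h.b_y]; simp⟩
  have := h.cls_mod (h.cls_conj (u := (1, 2)) (v := (2, 2)) hx hy hr)
  simpa [mul_comm] using this

/-- Each non-central class is the image of that of `X` under the normaliser. -/
theorem exists_move {M : Subgroup GL3} (hA : A ∈ M) (hB : B ∈ M) {i j : ℕ} (hi : i < 3) (hj : j < 3)
    (h0 : ¬ (i = 0 ∧ j = 0)) :
    ∃ g ∈ M, (∀ r, InR (ω : L) r → InR (ω : L) (g * r * g⁻¹)) ∧ Cls W X Y (g * X * g⁻¹) i j := by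
  let Good := fun (g : GL3) (i j : ℕ) =>
    g ∈ M ∧ (∀ r, InR (ω : L) r → InR (ω : L) (g * r * g⁻¹)) ∧ Cls W X Y (g * X * g⁻¹) i j
  have s1 : Good 1 1 0 := ⟨M.one_mem, fun r hr => by simpa using hr, 0, by simp⟩
  have sA : ∀ {g i j}, Good g i j → Good (A * g) (j % 3) (2 * i % 3) := by
    rintro g i j ⟨hg, hn, hc⟩
    refine ⟨M.mul_mem hA hg, fun r hr => ?_, ?_⟩
    · obtain ⟨i', j', hr'⟩ := h.inR_iff.1 (hn r hr)
      rw [show A * g * r * (A * g)⁻¹ = A * (g * r * g⁻¹) * A⁻¹ by group]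
      exact h.inR_iff.2 ⟨_, _, h.a_cls hr'⟩
    · rw [show A * g * X * (A * g)⁻¹ = A * (g * X * g⁻¹) * A⁻¹ by group]
      exact h.a_cls hc
  have sB : ∀ {g i j}, Good g i j → Good (B * g) ((i + 2 * j) % 3) ((2 * i + 2 * j) % 3) := by
    rintro g i j ⟨hg, hn, hc⟩
    refine ⟨M.mul_mem hB hg, fun r hr => ?_, ?_⟩
    · obtain ⟨i', j', hr'⟩ := h.inR_iff.1 (hn r hr)
      rw [show B * g * r * (B * g)⁻¹ = B * (g * r * g⁻¹) * B⁻¹ by group]
      exact h.inR_iff.2 ⟨_, _, h.b_cls hr'⟩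
    · rw [show B * g * X * (B * g)⁻¹ = B * (g * X * g⁻¹) * B⁻¹ by group]
      exact h.b_cls hc
  have hall : ∃ g, Good g i j := by
    have a1 : Good (A * 1) 0 2 := @sA 1 1 0 s1
    have a2 : Good (A * (A * 1)) 2 0 := @sA (A * 1) 0 2 a1
    have a3 : Good (A * (A * (A * 1))) 0 1 := @sA (A * (A * 1)) 2 0 a2
    have b1 : Good (B * 1) 1 2 := @sB 1 1 0 s1
    have b2 : Good (B * (B * 1)) 2 0 := @sB (B * 1) 1 2 b1
    have b3 : Good (B * (B * (B * 1))) 2 1 := @sB (B * (B * 1)) 2 0 b2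
    have ab : Good (A * (B * 1)) 2 2 := @sA (B * 1) 1 2 b1
    have ba : Good (B * (A * 1)) 1 1 := @sB (A * 1) 0 2 a1
    rcases (show i = 0 ∨ i = 1 ∨ i = 2 by omega) with rfl | rfl | rfl <;>
      rcases (show j = 0 ∨ j = 1 ∨ j = 2 by omega) with rfl | rfl | rfl
    exacts [absurd ⟨rfl, rfl⟩ h0, ⟨_, a3⟩, ⟨_, a1⟩, ⟨_, s1⟩, ⟨_, ba⟩, ⟨_, b1⟩, ⟨_, a2⟩, ⟨_, b3⟩,
      ⟨_, ab⟩]
  obtain ⟨g, hg⟩ := hall
  exact ⟨g, hg⟩

end RGen

end CfsgLib.SLThree90
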