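import Cfsg.Agent.SLThree90.Centraliser

/-!
Interfaces between the pieces of the proof that `3^(1+2).Q₈` is maximal in dimension three.
-/

set_option autoImplicit false

namespace CfsgLib.SLThree90

open Matrix

variable {L : Type*} [Field L]

/-- No element has two equal eigenvalues and order at least three modulo scalars. -/
def NoHom (M : Subgroup (GL (Fin 3) L)) : Prop :=
  ∀ P : GL (Fin 3) L, ∀ g ∈ cnj P M, ∀ α β : L,
    (g : Matrix (Fin 3) (Fin 3) L) = diagonal ![α, β, β] → β ^ 2 = α ^ 2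

/-- An isolated involution with solvable centraliser. -/
def HasIsolated (M : Subgroup (GL (Fin 3) L)) : Prop :=
  ∃ t ∈ M, orderOf t = 2 ∧
    (∀ g ∈ M, Commute t (g * t * g⁻¹) → g * t * g⁻¹ = t) ∧
    Group.IsSolvable ↥(M ⊓ Subgroup.centralizer ({t} : Set (GL (Fin 3) L)))

/-- The remaining case: one class of involutions with centralisers of semidihedral type. -/
structure DihData (p : ℕ) (ω : Lˣ) (M : Subgroup (GL (Fin 3) L)) (n : ℕ) : Prop
    extends Ambient p ω M where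
  noHom : NoHom M
  four_dvd : 4 ∣ n
  three_not_dvd : ¬ 3 ∣ n
  one_class : ∀ s ∈ M, ∀ u ∈ M, orderOf s = 2 → orderOf u = 2 →
    ∃ g ∈ M, g * s * g⁻¹ = u
  card_cent : ∀ s ∈ M, orderOf s = 2 →
    Nat.card ↥(M ⊓ Subgroup.centralizer ({s} : Set (GL (Fin 3) L))) = 12 * n
  card_refl : ∀ s ∈ M, orderOf s = 2 →
    Nat.card {u : GL (Fin 3) L // u ∈ M ∧ orderOf u = 2 ∧ u ≠ s ∧ u * s = s * u} = n
  /-- common centraliser of two commuting involutions -/
  pair : ∀ s ∈ M, ∀ u ∈ M, orderOf s = 2 → orderOf u = 2 → s ≠ u → s * u = u * s →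
    ∀ g ∈ M, g * s = s * g → g * u = u * g →
    ∃ c : Lˣ, g = sc3 c ∨ g * s = sc3 c ∨ g * u = sc3 c ∨ g * (s * u) = sc3 c
  /-- the eigenvalue on the centre of an involution has sixth power one -/
  corner : ∀ P : GL (Fin 3) L, t0 ∈ cnj P M → ∀ g ∈ cent (cnj P M), (g 0 0) ^ 6 = 1

end CfsgLib.SLThree90
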