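import Cfsg.Agent.SLThree90.Cases
import Cfsg.Agent.SLThree90.Interface

/-!
An element with two equal eigenvalues whose ratio does not square to one gives an isolated
involution with solvable centraliser.
-/

set_option autoImplicit false

namespace CfsgLib.SLThree90

open Matrix
open scoped MatrixGroups commutatorElement

variable {L : Type*} [Field L] {p : ℕ} {M : Subgroup (GL (Fin 3) L)} {ω : Lˣ}

local notation "GL3" => GL (Fin 3) L
local notation "Mat3" => Matrix (Fin 3) (Fin 3) L
local notation "Mat2" => Matrix (Fin 2) (Fin 2) L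

/-- Values of conjugates from an intertwining identity. -/
theorem conj_val_of_mul_eq {Q g : GL3} {H : Mat3} (h : (g : Mat3) * (Q : Mat3) = (Q : Mat3) * H) :
    ((Q⁻¹ * g * Q : GL3) : Mat3) = H := by
  rw [Units.val_mul, Units.val_mul, mul_assoc, h, ← mul_assoc, ← Units.val_mul, inv_mul_cancel,
    Units.val_one, one_mul]

/-- The product rule in the Heisenberg algebra spanned by `e ψ`, `u e` and `u ψ`. -/
theorem heis_commutator {e u ψ : Fin 3 → L} (heu : e ⬝ᵥ u = 0) (hψe : ψ ⬝ᵥ e = 0)
    (hψu : ψ ⬝ᵥ u = 0) (hee : e ⬝ᵥ e = 1) (r s t r' s' t' : L) :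
    (1 + (r • vecMulVec e ψ + s • vecMulVec u e + t • vecMulVec u ψ)) *
      (1 + (r' • vecMulVec e ψ + s' • vecMulVec u e + t' • vecMulVec u ψ)) =
    (1 + (s * r' - s' * r) • vecMulVec u ψ) *
      ((1 + (r' • vecMulVec e ψ + s' • vecMulVec u e + t' • vecMulVec u ψ)) *
        (1 + (r • vecMulVec e ψ + s • vecMulVec u e + t • vecMulVec u ψ))) := by
  have z : ∀ v : Fin 3 → L, vecMulVec v (0 : Fin 3 → L) = 0 := fun v => by ext i j; simp [vecMulVec]
  simp only [mul_add, add_mul, mul_one, one_mul, smul_mul_assoc, mul_smul_comm,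
    Matrix.vecMulVec_mul_vecMulVec, heu, hψe, hψu, hee, zero_smul, one_smul, z, smul_zero,
    add_zero, zero_add, smul_smul]
  ext i j
  simp only [Matrix.add_apply, Matrix.smul_apply, smul_eq_mul]
  ring

theorem Ambient.exists_noncomm_conj (ha : Ambient p ω M) {h : GL3} (hM : h ∈ M)
    (hns : ¬ ∃ c : L, (h : Mat3) = c • 1) : ∃ g ∈ M, h * (g * h * g⁻¹) ≠ g * h * g⁻¹ * h := by
  by_contra hc
  push Not at hc
  set S : Set GL3 := {x | ∃ g ∈ M, x = g * h * g⁻¹} with hS
  have hcomm : ∀ x ∈ S, ∀ y ∈ S, x * y = y * x := by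
    rintro _ ⟨a, ha', rfl⟩ _ ⟨b, hb', rfl⟩
    have h1 := congrArg (fun w => a * w * a⁻¹) (hc (a⁻¹ * b) (M.mul_mem (M.inv_mem ha') hb'))
    simpa [mul_assoc] using h1
  apply hns
  refine ha.no_ab (Subgroup.closure S) ?_ ?_ ?_ h
    (Subgroup.subset_closure ⟨1, M.one_mem, by simp⟩)
  · rw [Subgroup.closure_le]
    rintro _ ⟨g, hg, rfl⟩
    exact M.mul_mem (M.mul_mem hg hM) (M.inv_mem hg)
  · intro g hg x hx
    have hsub : Subgroup.closure S ≤ (Subgroup.closure S).comap (MulAut.conj g).toMonoidHom := by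
      rw [Subgroup.closure_le]
      rintro _ ⟨a, ha', rfl⟩
      exact Subgroup.subset_closure ⟨g * a, M.mul_mem hg ha', by simp [mul_assoc]⟩
    exact hsub hx
  · have h1 : Subgroup.closure S ≤ Subgroup.centralizer S := by
      rw [Subgroup.closure_le]
      exact fun x hx => Subgroup.mem_centralizer_iff.2 fun y hy => hcomm y hy x hx
    have h2 : Subgroup.closure S ≤ Subgroup.centralizer (Subgroup.closure S : Set GL3) := by
      rw [Subgroup.centralizer_closure]
      exact h1
    exact fun x hx y hy => (Subgroup.mem_centralizer_iff.1 (h2 hx) y hy).symm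

/-- A homology and a noncommuting conjugate lie in the centraliser of a common involution. -/
theorem Ambient.exists_plane_pair (ha : Ambient p ω M) {h : GL3} (hM : h ∈ M) {α β : L}
    (hh : (h : Mat3) = diagonal ![α, β, β]) (hne : β ^ 2 ≠ α ^ 2) :
    ∃ P : GL3, ∃ a b : cent (SLThree90.cnj P M), a * b ≠ b * a ∧
      (((ha.cnj P).blk a : GL (Fin 2) L) : Mat2) = diagonal ![α / β, 1] ∧
      (((ha.cnj P).blk b : GL (Fin 2) L) : Mat2).trace = 1 + α / β ∧
      (((ha.cnj P).blk b : GL (Fin 2) L) : Mat2).det = α / β := by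
  have hdet : α * β * β = 1 := by
    have := ha.det_one h hM
    rw [hh, det_diagonal, Fin.prod_univ_three] at this
    simpa using this
  have hα : α ≠ 0 := fun h0 => by simp [h0] at hdet
  have hβ : β ≠ 0 := fun h0 => by simp [h0] at hdet
  set δ := α - β with hδ
  have hδ0 : δ ≠ 0 := fun h0 => hne (by rw [sub_eq_zero.1 h0])
  have hns : ¬ ∃ c : L, (h : Mat3) = c • 1 := by
    rintro ⟨c, hc⟩
    rw [hh] at hc
    have e0 := congrFun (congrFun hc 0) 0
    have e1 := congrFun (congrFun hc 1) 1
    simp at e0 e1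
    exact hne (by rw [e0, e1])
  obtain ⟨g, hg, hnc⟩ := ha.exists_noncomm_conj hM hns
  set h' := g * h * g⁻¹ with hh'
  have hM' : h' ∈ M := M.mul_mem (M.mul_mem hg hM) (M.inv_mem hg)
  set x := g 0 0
  set y := g 1 0
  set z := g 2 0
  set a := (g⁻¹ : GL3) 0 0
  set b := (g⁻¹ : GL3) 0 1
  set c := (g⁻¹ : GL3) 0 2
  have hone : a * x + b * y + c * z = 1 := by
    have h1 : ((g⁻¹ : GL3) : Mat3) * (g : Mat3) = 1 := by
      rw [← Units.val_mul, inv_mul_cancel, Units.val_one]
    have := congrFun (congrFun h1 0) 0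
    rwa [Matrix.mul_apply, Fin.sum_univ_three, Matrix.one_apply_eq] at this
  set H : Mat3 := !![β + δ * (x * a), δ * (x * b), δ * (x * c);
    δ * (y * a), β + δ * (y * b), δ * (y * c); δ * (z * a), δ * (z * b), β + δ * (z * c)] with hH
  have hval : (h' : Mat3) = H := by
    have e : (h : Mat3) = β • 1 + δ • vecMulVec (Pi.single 0 1) (Pi.single 0 1) := by
      rw [hh]
      ext i j
      fin_cases i <;> fin_cases j <;> simp [vecMulVec, hδ]
    rw [hh', Units.val_mul, Units.val_mul, e, mul_add, add_mul, conj_smul_one]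
    rw [mul_smul_comm, smul_mul_assoc, Matrix.mul_vecMulVec, Matrix.vecMulVec_mul]
    ext i j
    fin_cases i <;> fin_cases j <;> simp [hH, vecMulVec, x, y, z, a, b, c]
  set D : Mat3 := diagonal ![α⁻¹, β⁻¹, β⁻¹] with hD
  have hinv : ((h⁻¹ : GL3) : Mat3) = D := by
    refine left_inv_eq_right_inv (a := (h : Mat3)) ?_ ?_
    · rw [← Units.val_mul, inv_mul_cancel, Units.val_one]
    · rw [hh, hD, diagonal_mul_diagonal, ← diagonal_one]
      congr 1
      funext i
      fin_cases i <;> simp [hα, hβ]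
  have hsame : ((y = 0 ∧ z = 0) ∨ (b = 0 ∧ c = 0)) → False := by
    intro hor
    apply hnc
    have hxa : x * a = 1 := by
      rcases hor with ⟨h1, h2⟩ | ⟨h1, h2⟩ <;> rw [h1, h2] at hone <;> linear_combination hone
    have h1 : h⁻¹ * h' = 1 := by
      refine ha.eq_one_of_sq_zero (M.mul_mem (M.inv_mem hM) hM') ?_
      rw [Units.val_mul, hinv, hval]
      have e00 : α⁻¹ * (β + δ * (x * a)) = 1 := by
        rw [hxa, hδ, mul_one, add_sub_cancel, inv_mul_cancel₀ hα]
      rcases hor with ⟨hy, hz⟩ | ⟨hb, hc⟩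
      · ext i j
        fin_cases i <;> fin_cases j <;>
          simp [hD, hH, Matrix.mul_apply, Fin.sum_univ_three, e00, hy, hz, hβ]
      · ext i j
        fin_cases i <;> fin_cases j <;>
          simp [hD, hH, Matrix.mul_apply, Fin.sum_univ_three, e00, hb, hc, hβ]
    rw [← inv_mul_eq_one.1 h1]
  simp only [imp_false, not_or, not_and] at hsame
  by_cases hm : b * y + c * z = 0
  · exfalso
    have hxa : x * a = 1 := by linear_combination hone - hm
    set e : Fin 3 → L := Pi.single 0 1 with he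
    set u : Fin 3 → L := ![0, y, z] with hu
    set ψ : Fin 3 → L := ![0, b, c] with hψ
    set C := h' * h⁻¹ with hC
    set E := h * C * h⁻¹ with hE
    have eE : vecMulVec e ψ = !![0, b, c; 0, 0, 0; 0, 0, 0] := by
      ext i j
      fin_cases i <;> fin_cases j <;> simp [Matrix.vecMulVec_apply, he, hψ]
    have eF : vecMulVec u e = !![0, 0, 0; y, 0, 0; z, 0, 0] := by
      ext i j
      fin_cases i <;> fin_cases j <;> simp [Matrix.vecMulVec_apply, he, hu]
    have eG : vecMulVec u ψ = !![0, 0, 0; 0, y * b, y * c; 0, z * b, z * c] := by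
      ext i j
      fin_cases i <;> fin_cases j <;> simp [Matrix.vecMulVec_apply, hu, hψ]
    have hCv : (C : Mat3) = 1 + ((δ * x / β) • vecMulVec e ψ + (δ * a / α) • vecMulVec u e +
        (δ / β) • vecMulVec u ψ) := by
      rw [hC, Units.val_mul, hinv, hval, eE, eF, eG]
      ext i j
      fin_cases i <;> fin_cases j <;>
        simp [hH, hD, Matrix.mul_apply, Fin.sum_univ_three] <;>
        field_simp
      all_goals first
        | linear_combination δ * hxa + hδ
        | ring
    have hEv : (E : Mat3) = 1 + ((δ * x * α / β ^ 2) • vecMulVec e ψ +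
        (δ * a * β / α ^ 2) • vecMulVec u e + (δ / β) • vecMulVec u ψ) := by
      rw [hE, Units.val_mul, Units.val_mul, hCv, hinv, hh, eE, eF, eG]
      ext i j
      fin_cases i <;> fin_cases j <;>
        simp [hD, Matrix.mul_apply, Fin.sum_univ_three] <;>
        field_simp
      all_goals ring
    have hCM : C ∈ M := M.mul_mem hM' (M.inv_mem hM)
    have hEM : E ∈ M := M.mul_mem (M.mul_mem hM hCM) (M.inv_mem hM)
    set k := δ * a / α * (δ * x * α / β ^ 2) - δ * a * β / α ^ 2 * (δ * x / β) with hk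
    have hψu : ψ ⬝ᵥ u = 0 := by
      simp [hψ, hu, dotProduct, Fin.sum_univ_three]
      exact hm
    have key := heis_commutator (e := e) (u := u) (ψ := ψ) (by simp [he, hu])
      (by simp [he, hψ]) hψu (by simp [he])
      (δ * x / β) (δ * a / α) (δ / β) (δ * x * α / β ^ 2) (δ * a * β / α ^ 2) (δ / β)
    rw [← hCv, ← hEv, ← hk] at key
    have hX : ((C * E * (E * C)⁻¹ : GL3) : Mat3) = 1 + k • vecMulVec u ψ := by
      rw [Units.val_mul, Units.val_mul, key, mul_assoc, ← Units.val_mul E C, ← Units.val_mul,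
        mul_inv_cancel, Units.val_one, mul_one]
    have hX1 := ha.eq_one_of_sq_zero (M.mul_mem (M.mul_mem hCM hEM) (M.inv_mem (M.mul_mem hEM hCM)))
      (by
        rw [hX, add_sub_cancel_left, smul_mul_assoc, mul_smul_comm, Matrix.vecMulVec_mul_vecMulVec,
          hψu, zero_smul]
        ext i j
        simp [vecMulVec])
    rw [hX1, Units.val_one] at hX
    have h0 : k • vecMulVec u ψ = 0 := left_eq_add.1 hX
    have hk0 : k ≠ 0 := by
      have : k = δ ^ 2 * (α ^ 2 - β ^ 2) / (α ^ 2 * β ^ 2) := by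
        rw [hk, show δ * a / α * (δ * x * α / β ^ 2) = δ ^ 2 * (x * a) / β ^ 2 by field_simp,
          show δ * a * β / α ^ 2 * (δ * x / β) = δ ^ 2 * (x * a) / α ^ 2 by field_simp, hxa]
        field_simp
      rw [this]
      exact div_ne_zero (mul_ne_zero (pow_ne_zero _ hδ0) (sub_ne_zero.2 (Ne.symm hne)))
        (mul_ne_zero (pow_ne_zero _ hα) (pow_ne_zero _ hβ))
    have h0' := (smul_eq_zero.1 h0).resolve_left hk0
    obtain ⟨hyz, hbc⟩ := hsame
    have f := fun i j => congrFun (congrFun h0' i) j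
    have f11 := f 1 1
    have f12 := f 1 2
    have f21 := f 2 1
    have f22 := f 2 2
    simp [hu, hψ, vecMulVec] at f11 f12 f21 f22
    tauto
  · set Qm : Mat3 := !![0, 1, 0; -c, 0, y; b, 0, z] with hQm
    have hQdet : Qm.det = b * y + c * z := by
      rw [hQm, Matrix.det_fin_three]
      simp
      ring
    let Q : GL3 := GeneralLinearGroup.mkOfDetNeZero Qm (by rw [hQdet]; exact hm)
    have hQv : (Q : Mat3) = Qm := rfl
    have v1 : ((Q⁻¹ * h * Q : GL3) : Mat3) = diagonal ![β, α, β] := by
      refine conj_val_of_mul_eq ?_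
      rw [hQv, hh, hQm]
      ext i j
      fin_cases i <;> fin_cases j <;> simp [Matrix.mul_apply, Fin.sum_univ_three, mul_comm]
    have v2 : ((Q⁻¹ * h' * Q : GL3) : Mat3) = !![β, 0, 0;
        0, β + δ * (x * a), δ * (x * (b * y + c * z));
        0, δ * a, β + δ * (b * y + c * z)] := by
      refine conj_val_of_mul_eq ?_
      rw [hQv, hval, hQm, hH]
      ext i j
      fin_cases i <;> fin_cases j <;> simp [Matrix.mul_apply, Fin.sum_univ_three] <;> ring
    refine ⟨Q⁻¹, ⟨Q⁻¹ * h * Q, ?_⟩, ⟨Q⁻¹ * h' * Q, ?_⟩, ?_, ?_, ?_, ?_⟩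
    · refine (mem_cent_iff ha.two_ne_zero).2 ⟨?_, ?_⟩
      · rw [mem_cnj]; simpa [mul_assoc] using hM
      · rw [v1]; simp
    · refine (mem_cent_iff ha.two_ne_zero).2 ⟨?_, ?_⟩
      · rw [mem_cnj]; simpa [mul_assoc] using hM'
      · rw [v2]; simp
    · intro he
      apply hnc
      have h1 := congrArg (fun w : cent (SLThree90.cnj Q⁻¹ M) => Q * (w : GL3) * Q⁻¹) he
      simpa [mul_assoc] using h1
    · rw [Local.blk_val, blkMat]
      dsimp only
      rw [v1]
      ext i j
      fin_cases i <;> fin_cases j <;> simp [hβ]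
      field_simp
    · rw [Local.blk_val, blkMat]
      dsimp only
      rw [v2]
      simp [Matrix.trace_fin_two]
      field_simp
      linear_combination δ * hone + hδ
    · rw [Local.det_blk]
      dsimp only
      rw [v2]
      simp
      field_simp
      linear_combination -hdet

/-- A homology of order at least three modulo scalars forces the image `A₄`. -/
theorem Ambient.exists_altFour [IsAlgClosed L] (ha : Ambient p ω M) {h : GL3} (hM : h ∈ M)
    {α β : L} (hh : (h : Mat3) = diagonal ![α, β, β]) (hne : β ^ 2 ≠ α ^ 2) :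
    α ^ 3 = β ^ 3 ∧ ∃ P : GL3, IsAltFourShape (ha.cnj P).proj.range := by
  obtain ⟨P, a, b, hab, hA, htr, hdb⟩ := ha.exists_plane_pair hM hh hne
  have hdet : α * β * β = 1 := by
    have := ha.det_one h hM
    rw [hh, det_diagonal, Fin.prod_univ_three] at this
    simpa using this
  have hβ : β ≠ 0 := fun h0 => by simp [h0] at hdet
  set l := α / β with hl
  have hl2 : l * l ≠ 1 := fun h1 => hne (by
    rw [hl] at h1
    field_simp at h1
    linear_combination -h1)
  have h2 := ha.two_ne_zero
  have hA' : (((ha.cnj P).blk a : GL (Fin 2) L) : Mat2).trace = 1 + l := by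
    rw [hA, Matrix.trace_fin_two]; simp [add_comm]
  have hnsq : ∀ c : cent (SLThree90.cnj P M), (((ha.cnj P).blk c : GL (Fin 2) L) : Mat2).trace = 1 + l →
      ¬ IsScalarTwo (((ha.cnj P).blk c : GL (Fin 2) L) : Mat2) → (ha.cnj P).proj c ^ 2 ≠ 1 := by
    intro c hc hns hsq
    rw [← map_pow, Local.proj_eq_one, pow_two, map_mul, Units.val_mul] at hsq
    have := trace_zero_of_sq hns hsq.eq
    rw [hc] at this
    exact hl2 (by linear_combination (l - 1) * this)
  have hAns : ¬ IsScalarTwo (((ha.cnj P).blk a : GL (Fin 2) L) : Mat2) := by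
    rintro ⟨-, -, h00⟩
    rw [hA] at h00
    simp at h00
    exact hl2 (by rw [h00, one_mul])
  have hBns : ¬ IsScalarTwo (((ha.cnj P).blk b : GL (Fin 2) L) : Mat2) := fun hs => hab
    ((ha.cnj P).commute_of_blk (Units.ext (by
      simp only [Units.val_mul]
      rw [hs.eq, mul_smul_comm, smul_mul_assoc, mul_one, one_mul])))
  rcases (ha.cnj P).classify with hc | ⟨n, R, hR⟩ | hA4 | hbad
  · exact absurd (hc a b) hab
  · exfalso
    have hin : ∀ c : cent (SLThree90.cnj P M), (ha.cnj P).proj c ^ 2 ≠ 1 →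
        (⟨(ha.cnj P).proj c, c, rfl⟩ : (ha.cnj P).proj.range) ∈ R := by
      intro c hc
      by_contra hc'
      refine hc ?_
      rw [pow_two]
      simpa [Subtype.ext_iff] using hR.sq _ hc'
    obtain ⟨g0, hg0⟩ := hR.cyclic
    have hcR : ∀ u v : R, u * v = v * u := fun u v => by
      obtain ⟨i, rfl⟩ := hg0 u
      obtain ⟨j, rfl⟩ := hg0 v
      show g0 ^ i * g0 ^ j = g0 ^ j * g0 ^ i
      exact zpow_mul_comm _ _ _
    have hpc : (ha.cnj P).proj (a * b) = (ha.cnj P).proj (b * a) := by
      have := hcR ⟨_, hin a (hnsq a hA' hAns)⟩ ⟨_, hin b (hnsq b htr hBns)⟩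
      simp only [Subtype.ext_iff, Subgroup.coe_mul] at this
      rw [map_mul, map_mul, this]
    obtain ⟨u, hu⟩ := ProjGenLinGroup.mk_eq_mk_iff.mp hpc
    have hv : (((ha.cnj P).blk b : GL (Fin 2) L) : Mat2) * (((ha.cnj P).blk a : GL (Fin 2) L) : Mat2) =
        (u : L) • ((((ha.cnj P).blk a : GL (Fin 2) L) : Mat2) * (((ha.cnj P).blk b : GL (Fin 2) L) : Mat2)) := by
      have h1 := congrArg (Units.val (α := Mat2)) hu
      simp only [MonoidHom.coe_comp, Function.comp_apply, map_mul, Units.val_mul] at h1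
      rw [← h1]
      simp [← Matrix.smul_one_eq_diagonal]
    have hd := congrArg Matrix.det hv
    rw [Matrix.det_smul, Fintype.card_fin, Matrix.det_mul, Matrix.det_mul] at hd
    have hu2 : (u : L) * u = 1 :=
      mul_right_cancel₀ (mul_ne_zero ((ha.cnj P).blk a).det_ne_zero ((ha.cnj P).blk b).det_ne_zero)
        (by linear_combination -hd)
    rcases mul_self_eq_one_iff.1 hu2 with hu1 | hu1
    · rw [hu1, one_smul] at hv
      exact hab ((ha.cnj P).commute_of_blk (Units.ext (by simp only [Units.val_mul]; exact hv.symm)))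
    · rw [hu1, neg_smul, one_smul] at hv
      have := trace_zero_of_anti h2 (B := (ha.cnj P).blk b)
        (by rw [hv, neg_neg])
      rw [hA'] at this
      exact hl2 (by linear_combination (l - 1) * this)
  · refine ⟨?_, P, hA4⟩
    have h3 : (ha.cnj P).proj (a ^ 3) = 1 := by
      rcases hA4.exp ⟨(ha.cnj P).proj a, a, rfl⟩ with e | e
      · exact absurd (by simpa [Subtype.ext_iff] using e) (hnsq a hA' hAns)
      · rw [map_pow]; simpa [Subtype.ext_iff] using e
    rw [Local.proj_eq_one, map_pow, Units.val_pow_eq_pow_val, hA, diagonal_pow] at h3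
    have := h3.2.2
    simp [hl, div_pow, div_eq_one_iff_eq (pow_ne_zero 3 hβ)] at this
    exact this
  · exact absurd hbad (ha.cnj P).not_bad

theorem Local.kerProj_comm (h : Local p M) {k g : cent M} (hk : h.proj k = 1) : k * g = g * k :=
  h.commute_of_blk (Units.ext (by
    simp only [Units.val_mul]
    rw [(h.proj_eq_one.1 hk).eq, mul_smul_comm, smul_mul_assoc, mul_one, one_mul]))

theorem orderOf_t0 (h2 : (2 : L) ≠ 0) : orderOf (t0 : GL3) = 2 := by
  refine orderOf_eq_prime (by rw [pow_two]; exact Units.ext t0Mat_mul_self) fun h1 => ?_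
  have := congrArg (fun w : GL3 => w 1 1) h1
  simp [t0, t0Mat] at this
  exact h2 (by linear_combination -this)

/-- Without elements of determinant `-1` in the image, `diag(1, -1, -1)` is isolated. -/
theorem Local.hasIsolated_of_det (h : Local p M) (ht : t0 ∈ M)
    (hs : Group.IsSolvable h.proj.range)
    (hd : ∀ u : cent M, (h.blk u : Mat2).det ≠ -1) : HasIsolated M := by
  refine ⟨t0, ht, orderOf_t0 h.two_ne_zero, fun g hg hc => ?_, ?_⟩
  · have hu : g * t0 * g⁻¹ ∈ cent M := Subgroup.mem_inf.2 ⟨M.mul_mem (M.mul_mem hg ht) (M.inv_mem hg),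
      Subgroup.mem_centralizer_iff.2 fun x hx => by
        rw [Set.mem_singleton_iff.1 hx]; exact hc.eq⟩
    set u : cent M := ⟨g * t0 * g⁻¹, hu⟩ with hudef
    have hu2 : u * u = 1 := Subtype.ext (by
      change g * t0 * g⁻¹ * (g * t0 * g⁻¹) = 1
      rw [show g * t0 * g⁻¹ * (g * t0 * g⁻¹) = g * (t0 * t0) * g⁻¹ by group,
        show (t0 : GL3) * t0 = 1 from Units.ext t0Mat_mul_self, mul_one, mul_inv_cancel])
    set B := (h.blk u : Mat2) with hB
    have hB2 : B * B = 1 := by rw [hB, ← Units.val_mul, ← map_mul, hu2, map_one, Units.val_one]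
    have hsc : IsScalarTwo B := by
      by_contra hns
      have ht0 := trace_zero_of_sq hns (c := 1) (by rw [hB2, one_smul])
      have h1 := sq_of_trace_zero ht0
      rw [hB2] at h1
      have := congrFun (congrFun h1 0) 0
      simp at this
      exact hd u (by linear_combination this)
    have hB00 := hsc.eq
    set b := B 0 0 with hb
    have hb2 : b * b = 1 := by
      have := congrFun (congrFun hB2 0) 0
      rw [hB00] at this
      simpa [smul_smul] using this
    have hu0 : (u : GL3) 0 0 = 1 := by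
      have h1 := h.det_blk u
      rw [← hB, hB00, Matrix.det_smul, Fintype.card_fin, Matrix.det_one, mul_one, pow_two, hb2] at h1
      have h2 := h.corner_mul u u
      rw [hu2] at h2
      simp at h2
      have h0 := h.corner_ne_zero u.2
      rw [inv_pow, eq_comm, inv_eq_one] at h1
      linear_combination h1 + (u : GL3) 0 0 * h2
    obtain ⟨u01, u02, u10, u20⟩ := h.zeros u.2
    obtain ⟨u11, u12, u21, u22⟩ := h.blk_entries u
    rw [hu0, one_mul, ← hB, hB00] at u11 u12 u21 u22
    simp at u11 u12 u21 u22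
    refine Units.ext ?_
    change ((u : GL3) : Mat3) = t0Mat
    rcases mul_self_eq_one_iff.1 hb2 with hb1 | hb1
    · exfalso
      have h1 : g * t0 * g⁻¹ = 1 := Units.ext (by
        change ((u : GL3) : Mat3) = 1
        ext i j
        fin_cases i <;> fin_cases j <;>
          simp [hu0, u01, u02, u10, u20, u11, u12, u21, u22, hb1])
      have h3 : t0 = (1 : GL3) := by
        have := congrArg (fun w => g⁻¹ * w * g) h1
        simpa [mul_assoc] using this
      have h4 := orderOf_t0 h.two_ne_zero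
      rw [h3, orderOf_one] at h4
      omega
    · ext i j
      fin_cases i <;> fin_cases j <;>
        simp [t0Mat, hu0, u01, u02, u10, u20, u11, u12, u21, u22, hb1]
  · haveI : Group.IsSolvable h.proj.ker := Group.isSolvable_of_comm fun a b =>
      Subtype.ext (h.kerProj_comm a.2)
    exact Group.isSolvable_of_ker_le_range h.proj.ker.subtype h.proj.rangeRestrict
      (fun x hx => ⟨⟨x, congrArg Subtype.val hx⟩, rfl⟩)

theorem HasIsolated.of_cnj {P : GL3} (h : HasIsolated (SLThree90.cnj P M)) : HasIsolated M := by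
  obtain ⟨t, ht, ho, hiso, hs⟩ := h
  refine ⟨P⁻¹ * t * P, mem_cnj.1 ht, ?_, fun g hg hc => ?_, ?_⟩
  · have := orderOf_injective (MulAut.conj P⁻¹).toMonoidHom (MulAut.conj P⁻¹).injective t
    simpa [ho] using this
  · have h1 := hiso _ (conj_mem_cnj (P := P) hg)
      (by simpa [mul_assoc] using hc.map (MulAut.conj P).toMonoidHom)
    have h2 := congrArg (fun w => P⁻¹ * w * P) h1
    simpa [mul_assoc] using h2
  · let f : ↥(M ⊓ Subgroup.centralizer ({P⁻¹ * t * P} : Set GL3)) →*
        ↥(SLThree90.cnj P M ⊓ Subgroup.centralizer ({t} : Set GL3)) :=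
      ((MulAut.conj P).toMonoidHom.comp
        (M ⊓ Subgroup.centralizer ({P⁻¹ * t * P} : Set GL3)).subtype).codRestrict _ fun x => by
        refine Subgroup.mem_inf.2 ⟨⟨_, (Subgroup.mem_inf.1 x.2).1, rfl⟩, ?_⟩
        rw [Subgroup.mem_centralizer_singleton_iff]
        have := Subgroup.mem_centralizer_singleton_iff.1 (Subgroup.mem_inf.1 x.2).2
        simpa [mul_assoc] using congrArg (fun w => P * w * P⁻¹) this
    refine Group.isSolvable_of_isSolvable_injective (f := f) fun x y he => Subtype.ext ?_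
    exact (MulAut.conj P).injective (congrArg Subtype.val he)

/-- Either no element has a repeated eigenvalue of order at least three, or there is an isolated
involution with solvable centraliser. -/
theorem Ambient.noHom_or_isolated [IsAlgClosed L] (ha : Ambient p ω M) :
    NoHom M ∨ HasIsolated M := by
  by_cases hN : NoHom M
  · exact Or.inl hN
  right
  simp only [NoHom, not_forall] at hN
  obtain ⟨P, g, hg, α, β, hv, hne⟩ := hN
  obtain ⟨-, Q, hA⟩ := (ha.cnj P).exists_altFour hg hv hne
  refine HasIsolated.of_cnj (P := P) (HasIsolated.of_cnj (P := Q) ?_)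
  set ha' := (ha.cnj P).cnj Q with hha'
  refine ha'.hasIsolated_of_det (ha'.t0_mem_of_four hA.four) hA.solvable fun u hu => ?_
  have hker : ∀ k : cent (SLThree90.cnj Q (SLThree90.cnj P M)), ha'.proj k = 1 →
      (ha'.blk k : Mat2).det ≠ -1 := by
    intro k hk hdk
    obtain ⟨k01, k10, k00⟩ := ha'.proj_eq_one.1 hk
    set l := (ha'.blk k : Mat2) 0 0 with hl
    rw [(ha'.proj_eq_one.1 hk).eq, ← hl, Matrix.det_smul, Fintype.card_fin, Matrix.det_one,
      mul_one] at hdk
    obtain ⟨z01, z02, z10, z20⟩ := ha'.zeros k.2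
    obtain ⟨z11, z12, z21, z22⟩ := ha'.blk_entries k
    rw [k01, mul_zero] at z12
    rw [k10, mul_zero] at z21
    rw [← k00] at z22
    set γ := (k : GL3) 0 0 with hγ
    have hkv : ((k : GL3) : Mat3) = diagonal ![γ, γ * l, γ * l] := by
      ext i j
      fin_cases i <;> fin_cases j <;> simp [z01, z02, z10, z20, z12, z21, z11, z22, ← hγ, ← hl]
    have hγ0 := ha'.corner_ne_zero k.2
    have hne' : (γ * l) ^ 2 ≠ γ ^ 2 := fun he => ha.two_ne_zero <| by
      have : l ^ 2 = 1 := mul_left_cancel₀ (pow_ne_zero 2 hγ0) (by linear_combination he)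
      linear_combination hdk - this
    obtain ⟨h3, -⟩ := ha'.exists_altFour (cent_le _ k.2) hkv hne'
    have hl3 : l ^ 3 = 1 := mul_left_cancel₀ (pow_ne_zero 3 hγ0) (by linear_combination -h3)
    have : l = -1 := by linear_combination -hl3 + l * hdk
    rw [this] at hdk
    exact ha.two_ne_zero (by linear_combination hdk)
  rcases hA.exp ⟨ha'.proj u, u, rfl⟩ with e | e
  · obtain ⟨⟨_, a, rfl⟩, ⟨_, b, rfl⟩, hab⟩ := hA.invol _ e
    have hab' : ha'.proj ⁅a, b⁆ = ha'.proj u := by
      have := congrArg Subtype.val hab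
      simpa [commutatorElement_def] using this
    refine hker (⁅a, b⁆⁻¹ * u) (by rw [map_mul, map_inv, hab', inv_mul_cancel]) ?_
    rw [map_mul, Units.val_mul, Matrix.det_mul, hu, map_inv, Matrix.coe_units_inv,
      Matrix.det_nonsing_inv, Ring.inverse_eq_inv', ha'.det_blk, ha'.corner_comm]
    simp
  · refine hker (u ^ 3) (by simpa [Subtype.ext_iff] using e) ?_
    rw [map_pow, Units.val_pow_eq_pow_val, Matrix.det_pow, hu]
    ring

end CfsgLib.SLThree90
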