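import Cfsg.Agent.SLThree90.Centraliser

/-!
An overgroup of the standard `3^(1+2).Q₈` contains a quaternion group around a conjugate of
`diag(1, -1, -1)`.
-/

set_option autoImplicit false

namespace CfsgLib.SLThree90

open Matrix

variable {L : Type*} [Field L] {p : ℕ} {M : Subgroup (GL (Fin 3) L)} {ω : Lˣ}

local notation "GL3" => GL (Fin 3) L
local notation "Mat3" => Matrix (Fin 3) (Fin 3) L
local notation "Mat2" => Matrix (Fin 2) (Fin 2) L

theorem quat_relations {w : L} (hw : w ^ 2 + w + 1 = 0) (h3 : (3 : L) ≠ 0) :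
    aMat w * aMat w = tMat ∧ bMat w * bMat w = tMat ∧ bMat w * aMat w = aMat w * bMat w * tMat ∧
      (tMat : Mat3) * tMat = 1 := by
  set d := w - w ^ 2 with hd
  have hdd : d * d = -3 := by
    rw [hd]
    linear_combination (w ^ 2 - 3 * w + 3) * hw
  have hd0 : d ≠ 0 := fun h0 => h3 (by rw [h0] at hdd; linear_combination hdd)
  have hinv : d⁻¹ * d⁻¹ = -3⁻¹ := by rw [← mul_inv, hdd, inv_neg]
  have hw3 : w ^ 3 = 1 := by linear_combination (w - 1) * hw
  refine ⟨?_, ?_, ?_, ?_⟩
  · rw [aMat, ← hd, smul_mul_assoc, mul_smul_comm, smul_smul, hinv]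
    ext i j
    fin_cases i <;> fin_cases j <;>
      simp [tMat, Matrix.mul_apply, Fin.sum_univ_three] <;> field_simp <;>
      grind
  · rw [bMat, ← hd, smul_mul_assoc, mul_smul_comm, smul_smul, hinv]
    ext i j
    fin_cases i <;> fin_cases j <;>
      simp [tMat, Matrix.mul_apply, Fin.sum_univ_three] <;> field_simp <;>
      grind
  · rw [aMat, bMat, ← hd]
    simp only [smul_mul_assoc, mul_smul_comm, smul_smul]
    congr 1
    ext i j
    fin_cases i <;> fin_cases j <;>
      simp [tMat, Matrix.mul_apply, Fin.sum_univ_three] <;> grind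
  · ext i j
    fin_cases i <;> fin_cases j <;> simp [tMat, Matrix.mul_apply, Fin.sum_univ_three]

/-- The quaternion pair around a conjugate of `diag(1, -1, -1)`. -/
theorem Extra.exists_pair [IsAlgClosed L] (h : Extra p M ω) :
    ∃ (P : GL3) (a b : cent (SLThree90.cnj P M)),
      ((h.toLocal.cnj P).blk a : Mat2) * (h.toLocal.cnj P).blk b =
        -(((h.toLocal.cnj P).blk b : Mat2) * (h.toLocal.cnj P).blk a) ∧
      ((h.toLocal.cnj P).blk a : Mat2) * (h.toLocal.cnj P).blk a = -1 ∧
      ((h.toLocal.cnj P).blk b : Mat2) * (h.toLocal.cnj P).blk b = -1 := by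
  obtain ⟨A, hA, hAv⟩ := h.a_mem
  obtain ⟨B, hB, hBv⟩ := h.b_mem
  have hw : (ω : L) ^ 2 + (ω : L) + 1 = 0 := by
    have h1 := (IsPrimitiveRoot.coe_units_iff.2 h.omega).geom_sum_eq_zero (by norm_num)
    simp [Finset.sum_range_succ] at h1
    linear_combination h1
  obtain ⟨e1, e2, e3, e4⟩ := quat_relations hw h.three_ne_zero
  set s := A * A with hs
  have hsv : (s : Mat3) = tMat := by rw [hs, Units.val_mul, hAv, e1]
  have hs1 : s ≠ 1 := by
    intro h1
    have := congrFun (congrFun (hsv.symm.trans (congrArg Units.val h1)) 0) 0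
    simp [tMat] at this
    exact h.two_ne_zero (by linear_combination -this)
  obtain ⟨P, hP⟩ := exists_conj_t0 h.two_ne_zero (s := s)
    (Units.ext (by rw [Units.val_mul, hsv, e4, Units.val_one])) hs1
    (h.det_one _ (M.mul_mem hA hA))
  have hBB : B * B = s := Units.ext (by rw [Units.val_mul, hBv, e2, hsv])
  have hBA : B * A = A * B * s := Units.ext (by
    rw [Units.val_mul, Units.val_mul, Units.val_mul, hsv, hBv, hAv, e3])
  have hmem : ∀ g ∈ M, g * s = s * g → P * g * P⁻¹ ∈ cent (SLThree90.cnj P M) := fun g hg hc =>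
    Subgroup.mem_inf.2 ⟨conj_mem_cnj hg, Subgroup.mem_centralizer_singleton_iff.2 (by
      rw [← hP, show P * g * P⁻¹ * (P * s * P⁻¹) = P * (g * s) * P⁻¹ by group, hc]
      group)⟩
  set a : cent (SLThree90.cnj P M) := ⟨_, hmem A hA (by rw [hs, mul_assoc])⟩ with ha
  set b : cent (SLThree90.cnj P M) := ⟨_, hmem B hB (by rw [← hBB, mul_assoc])⟩ with hb
  have hL := h.toLocal.cnj P
  have hneg : ∀ c : cent (SLThree90.cnj P M), (c : GL3) = P * s * P⁻¹ →
      (hL.blk c : Mat2) = -1 := by
    intro c hc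
    rw [hL.blk_val, blkMat, hc, hP]
    ext i j
    fin_cases i <;> fin_cases j <;> simp [t0, t0Mat]
  have haa : (hL.blk a : Mat2) * hL.blk a = -1 := by
    rw [← Units.val_mul, ← map_mul]
    refine hneg _ ?_
    change P * A * P⁻¹ * (P * A * P⁻¹) = _
    rw [hs]
    group
  refine ⟨P, a, b, ?_, haa, ?_⟩
  · have he : b * a = a * b * (a * a) := Subtype.ext (by
      change P * B * P⁻¹ * (P * A * P⁻¹) =
        P * A * P⁻¹ * (P * B * P⁻¹) * (P * A * P⁻¹ * (P * A * P⁻¹))
      rw [show P * B * P⁻¹ * (P * A * P⁻¹) = P * (B * A) * P⁻¹ by group, hBA, hs]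
      group)
    have h2 : (hL.blk (a * a) : Mat2) = -1 := by rw [map_mul, Units.val_mul, haa]
    have := congrArg (fun g => (hL.blk g : Mat2)) he
    simp only [map_mul, Units.val_mul, haa, mul_neg, mul_one] at this
    rw [this, neg_neg]
  · rw [← Units.val_mul, ← map_mul]
    refine hneg _ ?_
    change P * B * P⁻¹ * (P * B * P⁻¹) = _
    rw [← hBB]
    group

end CfsgLib.SLThree90
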