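import Cfsg.Agent.SLThree90.Interface

/-!
The standard generators of `3^(1+2).Q₈`: their relations, the images modulo scalars, and the
characterisation of `R` as the matrices of determinant one commuting with `X` and `Y` modulo
scalars.
-/

set_option autoImplicit false

namespace CfsgLib.SLThree90

open Matrix

variable {L : Type*} [Field L]

local notation "GL3" => GL (Fin 3) L
local notation "Mat3" => Matrix (Fin 3) (Fin 3) L

theorem omega_rel {w : L} (hw : IsPrimitiveRoot w 3) : w ^ 2 + w + 1 = 0 := by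
  have h := hw.geom_sum_eq_zero (by norm_num)
  simp [Finset.sum_range_succ] at h
  linear_combination h

theorem omega_cube {w : L} (hw : IsPrimitiveRoot w 3) : w ^ 3 = 1 := hw.pow_eq_one

theorem yMat_sq : (yMat : Mat3) ^ 2 = !![0, 1, 0; 0, 0, 1; 1, 0, 0] := by
  rw [pow_two]
  ext i j
  fin_cases i <;> fin_cases j <;> simp [yMat, Matrix.mul_apply, Fin.sum_univ_three]

theorem xMat_sq {w : L} (hw : IsPrimitiveRoot w 3) :
    xMat w ^ 2 = !![1, 0, 0; 0, w ^ 2, 0; 0, 0, w] := by
  rw [pow_two]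
  ext i j
  fin_cases i <;> fin_cases j <;> simp [xMat, Matrix.mul_apply, Fin.sum_univ_three] <;>
    first | ring1 | linear_combination w * omega_cube hw

theorem xMat_cube {w : L} (hw : IsPrimitiveRoot w 3) : xMat w ^ 3 = 1 := by
  rw [pow_succ, xMat_sq hw]
  ext i j
  fin_cases i <;> fin_cases j <;> simp [xMat, Matrix.mul_apply, Fin.sum_univ_three] <;>
    linear_combination omega_cube hw

theorem yMat_cube : (yMat : Mat3) ^ 3 = 1 := by
  rw [pow_succ, yMat_sq]
  ext i j
  fin_cases i <;> fin_cases j <;> simp [yMat, Matrix.mul_apply, Fin.sum_univ_three]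

theorem xy_comm {w : L} (hw : IsPrimitiveRoot w 3) : xMat w * yMat = w • (yMat * xMat w) := by
  ext i j
  fin_cases i <;> fin_cases j <;> simp [xMat, yMat, Matrix.mul_apply, Fin.sum_univ_three] <;>
    first | ring1 | linear_combination omega_cube hw | linear_combination -omega_cube hw

theorem aMat_mul_y {w : L} (hw : IsPrimitiveRoot w 3) : aMat w * yMat = xMat w * aMat w := by
  rw [aMat, smul_mul_assoc, mul_smul_comm]
  congr 1
  have h3 := omega_cube hw
  ext i j
  fin_cases i <;> fin_cases j <;> simp [xMat, yMat, Matrix.mul_apply, Fin.sum_univ_three] <;>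
    first
      | ring1
      | (ring_nf
         try simp only [pow_eq_pow_mod _ h3, Nat.reduceMod]
         try ring_nf
         try exact Or.inl trivial)

theorem aMat_mul_x {w : L} (hw : IsPrimitiveRoot w 3) :
    aMat w * xMat w = yMat ^ 2 * aMat w := by
  rw [aMat, smul_mul_assoc, mul_smul_comm, yMat_sq]
  congr 1
  have h3 := omega_cube hw
  ext i j
  fin_cases i <;> fin_cases j <;> simp [xMat, Matrix.mul_apply, Fin.sum_univ_three] <;>
    first
      | ring1
      | (ring_nf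
         try simp only [pow_eq_pow_mod _ h3, Nat.reduceMod]
         try ring_nf
         try exact Or.inl trivial)

theorem bMat_mul_line {w : L} (hw : IsPrimitiveRoot w 3) :
    bMat w * (xMat w ^ 2 * yMat) = w • (xMat w * bMat w) := by
  rw [bMat, smul_mul_assoc, mul_smul_comm, smul_comm w, xMat_sq hw]
  congr 1
  have h3 := omega_cube hw
  ext i j
  fin_cases i <;> fin_cases j <;> simp [xMat, yMat, Matrix.mul_apply, Fin.sum_univ_three] <;>
    first
      | ring1
      | (ring_nf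
         try simp only [pow_eq_pow_mod _ h3, Nat.reduceMod]
         try ring_nf
         try exact Or.inl trivial)

theorem bMat_mul_line2 {w : L} (hw : IsPrimitiveRoot w 3) :
    bMat w * (xMat w * yMat ^ 2) = w • (xMat w ^ 2 * bMat w) := by
  rw [bMat, smul_mul_assoc, mul_smul_comm, smul_comm w, xMat_sq hw, yMat_sq]
  congr 1
  have h3 := omega_cube hw
  ext i j
  fin_cases i <;> fin_cases j <;> simp [xMat, Matrix.mul_apply, Fin.sum_univ_three] <;>
    first
      | ring1
      | (ring_nf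
         try simp only [pow_eq_pow_mod _ h3, Nat.reduceMod]
         try ring_nf
         try exact Or.inl trivial)

/-- The map to the projective group. -/
def pj : GL3 →* GL3 ⧸ Subgroup.center GL3 := QuotientGroup.mk' _

theorem pj_eq_one {g : GL3} : pj g = 1 ↔ ∃ c : L, (g : Mat3) = c • 1 := by
  rw [pj, QuotientGroup.mk'_apply, QuotientGroup.eq_one_iff,
    Matrix.GeneralLinearGroup.mem_center_iff_val_mem_range_scalar]
  constructor
  · rintro ⟨c, hc⟩
    exact ⟨c, by rw [← hc, Matrix.scalar_apply, smul_one_eq_diagonal]⟩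
  · rintro ⟨c, hc⟩
    exact ⟨c, by rw [hc, Matrix.scalar_apply, smul_one_eq_diagonal]⟩

theorem pj_sc3 (c : Lˣ) : pj (sc3 c : GL3) = 1 := pj_eq_one.2 ⟨c, sc3_val c⟩

theorem pj_eq_iff {g h : GL3} : pj g = pj h ↔ ∃ c : L, (g : Mat3) = c • (h : Mat3) := by
  rw [← div_eq_one, ← map_div, pj_eq_one]
  constructor
  · rintro ⟨c, hc⟩
    refine ⟨c, ?_⟩
    have h1 : ((g / h * h : GL3) : Mat3) = c • (h : Mat3) := by
      rw [Units.val_mul, hc, smul_mul_assoc, one_mul]
    rwa [div_mul_cancel] at h1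
  · rintro ⟨c, hc⟩
    refine ⟨c, ?_⟩
    rw [div_eq_mul_inv, Units.val_mul, hc, smul_mul_assoc, ← Units.val_mul, mul_inv_cancel,
      Units.val_one]

theorem pj_commute_iff {g h : GL3} :
    Commute (pj g) (pj h) ↔ ∃ c : L, (g : Mat3) * (h : Mat3) = c • ((h : Mat3) * (g : Mat3)) := by
  simp only [commute_iff_eq, ← map_mul, pj_eq_iff, Units.val_mul]

/-- A matrix of determinant one commuting with `X` and `Y` modulo scalars lies in `R`. -/
theorem inR_of_commute {w : L} (hw : IsPrimitiveRoot w 3) {g gx gy : GL3}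
    (hgx : (gx : Mat3) = xMat w) (hgy : (gy : Mat3) = yMat) (hdet : (g : Mat3).det = 1)
    (hx : Commute (pj g) (pj gx)) (hy : Commute (pj g) (pj gy)) : InR w g := by
  obtain ⟨c, hc⟩ := pj_commute_iff.1 hx
  obtain ⟨d, hd⟩ := pj_commute_iff.1 hy
  rw [hgx] at hc
  rw [hgy] at hd
  have h3 := omega_cube hw
  have hw0 : w ≠ 0 := hw.ne_zero (by norm_num)
  have h21 : w ^ 2 ≠ 1 := hw.pow_ne_one_of_pos_of_lt (by norm_num) (by norm_num)
  have hw1 : w ≠ 1 := hw.ne_one (by norm_num)
  have e : ∀ r s : Fin 3, ((g : Mat3) * xMat w : Mat3) r s =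
      (c • (xMat w * (g : Mat3)) : Mat3) r s := fun r s => by rw [hc]
  have f : ∀ r s : Fin 3, ((g : Mat3) * yMat : Mat3) r s =
      (d • (yMat * (g : Mat3)) : Mat3) r s := fun r s => by rw [hd]
  have e00 := e 0 0; have e01 := e 0 1; have e02 := e 0 2
  have e10 := e 1 0; have e11 := e 1 1; have e12 := e 1 2
  have e20 := e 2 0; have e21 := e 2 1; have e22 := e 2 2
  have f02 := f 0 2; have f00 := f 0 0; have f01 := f 0 1
  have f10 := f 1 0; have f11 := f 1 1; have f12 := f 1 2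
  have f20 := f 2 0; have f21 := f 2 1; have f22 := f 2 2
  simp only [Matrix.smul_apply, Matrix.mul_apply, Fin.sum_univ_three, smul_eq_mul] at e00 e01 e02
  simp only [Matrix.smul_apply, Matrix.mul_apply, Fin.sum_univ_three, smul_eq_mul] at e10 e11 e12
  simp only [Matrix.smul_apply, Matrix.mul_apply, Fin.sum_univ_three, smul_eq_mul] at e20 e21 e22
  simp only [Matrix.smul_apply, Matrix.mul_apply, Fin.sum_univ_three, smul_eq_mul] at f00 f01 f02
  simp only [Matrix.smul_apply, Matrix.mul_apply, Fin.sum_univ_three, smul_eq_mul] at f10 f11 f12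
  simp only [Matrix.smul_apply, Matrix.mul_apply, Fin.sum_univ_three, smul_eq_mul] at f20 f21 f22
  simp [xMat] at e00 e01 e02
  simp [xMat] at e10 e11 e12
  simp [xMat] at e20 e21 e22
  simp [yMat] at f00 f01 f02
  simp [yMat] at f10 f11 f12
  simp [yMat] at f20 f21 f22
  have hval : ∀ (k i j : ℕ), ∃ k' i' j' : Fin 3,
      (w ^ k • (xMat w ^ i * yMat ^ j) : Mat3) =
        w ^ (k' : ℕ) • (xMat w ^ (i' : ℕ) * yMat ^ (j' : ℕ)) := fun k i j => by
    refine ⟨⟨k % 3, Nat.mod_lt _ (by norm_num)⟩, ⟨i % 3, Nat.mod_lt _ (by norm_num)⟩,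
      ⟨j % 3, Nat.mod_lt _ (by norm_num)⟩, ?_⟩
    rw [pow_eq_pow_mod k h3, pow_eq_pow_mod i (xMat_cube hw), pow_eq_pow_mod j yMat_cube]
  rw [Matrix.det_fin_three] at hdet
  suffices ∃ k i j : ℕ, (g : Mat3) = w ^ k • (xMat w ^ i * yMat ^ j) by
    obtain ⟨k, i, j, hg⟩ := this
    obtain ⟨k', i', j', h'⟩ := hval k i j
    exact ⟨k', i', j', hg.trans h'⟩
  have key : ∀ a : L, a ^ 3 = 1 → ∃ k : ℕ, a = w ^ k := fun a ha => by
    obtain ⟨k, -, hk⟩ := hw.eq_pow_of_pow_eq_one ha
    exact ⟨k, hk.symm⟩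
  have hdiag : ∀ i : ℕ, xMat w ^ i = !![1, 0, 0; 0, w ^ i, 0; 0, 0, (w ^ i) ^ 2] := fun i => by
    induction i with
    | zero => ext r s; fin_cases r <;> fin_cases s <;> simp
    | succ i ih =>
      rw [pow_succ, ih]
      ext r s
      fin_cases r <;> fin_cases s <;> simp [xMat, Matrix.mul_apply, Fin.sum_univ_three] <;> ring
  have h1w : (1 : L) - w ≠ 0 := sub_ne_zero.2 (Ne.symm hw1)
  have h1w2 : (1 : L) - w ^ 2 ≠ 0 := sub_ne_zero.2 (Ne.symm h21)
  by_cases g00 : g 0 0 = 0
  · by_cases g10 : g 1 0 = 0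
    · -- support of `Y²`
      have g20 : g 2 0 ≠ 0 := fun h0 => by
        rw [g00, g10, h0] at hdet
        simp at hdet
      have hcw : c * w ^ 2 = 1 := mul_right_cancel₀ g20 (by linear_combination -e20)
      have hc' : c = w := by linear_combination w * hcw - c * h3
      rw [hc'] at e02 e11 e21 e22
      have g22 : g 2 2 = 0 := (mul_eq_zero.1 (show (w ^ 2 - 1) * g 2 2 = 0 by
        linear_combination e22 + (g : Mat3) 2 2 * h3)).resolve_left (sub_ne_zero.2 h21)
      have g11 : g 1 1 = 0 := (mul_eq_zero.1 (show (w - w ^ 2) * g 1 1 = 0 by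
        linear_combination e11)).resolve_left (by
          rw [show w - w ^ 2 = w * (1 - w) by ring]
          exact mul_ne_zero hw0 h1w)
      have g02 : g 0 2 = 0 := (mul_eq_zero.1 (show (w ^ 2 - w) * g 0 2 = 0 by
        linear_combination e02)).resolve_left (by
          rw [show w ^ 2 - w = -(w * (1 - w)) by ring]
          exact neg_ne_zero.2 (mul_ne_zero hw0 h1w))
      have g21 : g 2 1 = 0 := (mul_eq_zero.1 (show (w - 1) * g 2 1 = 0 by
        linear_combination e21 + (g : Mat3) 2 1 * h3)).resolve_left (sub_ne_zero.2 hw1)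
      have hd12 : g 1 2 = d * g 0 1 := by linear_combination f11
      have hd20 : g 2 0 = d * g 1 2 := by linear_combination f22
      have hd01 : g 0 1 = d * g 2 0 := by linear_combination f00
      rw [g00, g10, g22, g11, g02, g21] at hdet
      have g01 : g 0 1 ≠ 0 := fun h0 => g20 (by rw [hd20, hd12, h0]; ring)
      have hd3 : d ^ 3 = 1 := mul_right_cancel₀ g01 (by
        linear_combination -hd01 - d * hd20 - d ^ 2 * hd12)
      have ha3 : (g 0 1) ^ 3 = 1 := by
        rw [hd20, hd12] at hdet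
        linear_combination hdet - (g : Mat3) 0 1 ^ 3 * hd3
      obtain ⟨k, hk⟩ := key _ ha3
      obtain ⟨i, hi⟩ := key _ hd3
      refine ⟨k, i, 2, ?_⟩
      rw [hdiag, yMat_sq, ← hk, ← hi]
      ext r s
      fin_cases r <;> fin_cases s <;>
        simp [Matrix.mul_apply, Fin.sum_univ_three, g00, g10, g22, g11, g02, g21, hd12,
          hd20] <;> ring
    · -- support of `Y`
      have hcw : c * w = 1 := mul_right_cancel₀ g10 (by linear_combination -e10)
      have hc' : c = w ^ 2 := by linear_combination w ^ 2 * hcw - c * h3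
      rw [hc'] at e01 e11 e12 e20 e22
      have g11 : g 1 1 = 0 := (mul_eq_zero.1 (show (w - 1) * g 1 1 = 0 by
        linear_combination e11 + (g : Mat3) 1 1 * h3)).resolve_left (sub_ne_zero.2 hw1)
      have g12 : g 1 2 = 0 := (mul_eq_zero.1 (show (w ^ 2 - 1) * g 1 2 = 0 by
        linear_combination e12 + (g : Mat3) 1 2 * h3)).resolve_left (sub_ne_zero.2 h21)
      have g01 : g 0 1 = 0 := (mul_eq_zero.1 (show (w - w ^ 2) * g 0 1 = 0 by
        linear_combination e01)).resolve_left (by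
          rw [show w - w ^ 2 = w * (1 - w) by ring]
          exact mul_ne_zero hw0 h1w)
      have g20 : g 2 0 = 0 := (mul_eq_zero.1 (show (1 - w) * g 2 0 = 0 by
        linear_combination e20 + (w * (g : Mat3) 2 0) * h3)).resolve_left h1w
      have g22 : g 2 2 = 0 := (mul_eq_zero.1 (show (w ^ 2 - w) * g 2 2 = 0 by
        linear_combination e22 + (w * (g : Mat3) 2 2) * h3)).resolve_left (by
          rw [show w ^ 2 - w = -(w * (1 - w)) by ring]
          exact neg_ne_zero.2 (mul_ne_zero hw0 h1w))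
      have hd10 : g 1 0 = d * g 0 2 := by linear_combination f12
      have hd21 : g 2 1 = d * g 1 0 := by linear_combination f20
      have hd02 : g 0 2 = d * g 2 1 := by linear_combination f01
      rw [g00, g11, g12, g01, g20, g22] at hdet
      have g02 : g 0 2 ≠ 0 := fun h0 => g10 (by rw [hd10, h0, mul_zero])
      have hd3 : d ^ 3 = 1 := mul_right_cancel₀ g02 (by
        linear_combination -hd02 - d * hd21 - d ^ 2 * hd10)
      have ha3 : (g 0 2) ^ 3 = 1 := by
        rw [hd21, hd10] at hdet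
        linear_combination hdet - (g : Mat3) 0 2 ^ 3 * hd3
      obtain ⟨k, hk⟩ := key _ ha3
      obtain ⟨i, hi⟩ := key _ hd3
      refine ⟨k, i, 1, ?_⟩
      rw [hdiag, pow_one, ← hk, ← hi]
      ext r s
      fin_cases r <;> fin_cases s <;>
        simp [yMat, Matrix.mul_apply, Fin.sum_univ_three, g00, g11, g12, g01, g20, g22, hd10,
          hd21] <;> ring
  · -- diagonal support
    have hc' : c = 1 := mul_right_cancel₀ g00 (by linear_combination -e00)
    subst hc'
    have g01 : g 0 1 = 0 := (mul_eq_zero.1 (show (w - 1) * g 0 1 = 0 by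
      linear_combination e01)).resolve_left (sub_ne_zero.2 hw1)
    have g02 : g 0 2 = 0 := (mul_eq_zero.1 (show (w ^ 2 - 1) * g 0 2 = 0 by
      linear_combination e02)).resolve_left (sub_ne_zero.2 h21)
    have g10 : g 1 0 = 0 := (mul_eq_zero.1 (show (1 - w) * g 1 0 = 0 by
      linear_combination e10)).resolve_left h1w
    have g20 : g 2 0 = 0 := (mul_eq_zero.1 (show (1 - w ^ 2) * g 2 0 = 0 by
      linear_combination e20)).resolve_left h1w2
    have g12 : g 1 2 = 0 := (mul_eq_zero.1 (show (w ^ 2 - w) * g 1 2 = 0 by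
      linear_combination e12)).resolve_left (by
        rw [show w ^ 2 - w = -(w * (1 - w)) by ring]
        exact neg_ne_zero.2 (mul_ne_zero hw0 h1w))
    have g21 : g 2 1 = 0 := (mul_eq_zero.1 (show (w - w ^ 2) * g 2 1 = 0 by
      linear_combination e21)).resolve_left (by
        rw [show w - w ^ 2 = w * (1 - w) by ring]
        exact mul_ne_zero hw0 h1w)
    have hd11 : g 1 1 = d * g 0 0 := by linear_combination f10
    have hd22 : g 2 2 = d * g 1 1 := by linear_combination f21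
    have hd00 : g 0 0 = d * g 2 2 := by linear_combination f02
    rw [g01, g02, g10, g20, g12, g21] at hdet
    have hd3 : d ^ 3 = 1 := mul_right_cancel₀ g00 (by
      linear_combination -hd00 - d * hd22 - d ^ 2 * hd11)
    have ha3 : (g 0 0) ^ 3 = 1 := by
      rw [hd22, hd11] at hdet
      linear_combination hdet - (g : Mat3) 0 0 ^ 3 * hd3
    obtain ⟨k, hk⟩ := key _ ha3
    obtain ⟨i, hi⟩ := key _ hd3
    refine ⟨k, i, 0, ?_⟩
    rw [hdiag, pow_zero, mul_one, ← hk, ← hi]
    ext r s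
    fin_cases r <;> fin_cases s <;> simp [g01, g02, g10, g20, g12, g21, hd11,
        hd22] <;> ring

variable {p : ℕ} {M : Subgroup (GL (Fin 3) L)} {ω : Lˣ}

/-- Standard generators and their images modulo scalars. -/
structure StdGens (M : Subgroup GL3) (w : L) (gx gy ga gb : GL3) : Prop where
  prim : IsPrimitiveRoot w 3
  gx_mem : gx ∈ M
  gy_mem : gy ∈ M
  ga_mem : ga ∈ M
  gb_mem : gb ∈ M
  gx_val : (gx : Mat3) = xMat w
  gy_val : (gy : Mat3) = yMat
  ga_val : (ga : Mat3) = aMat w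
  gb_val : (gb : Mat3) = bMat w

theorem Extra.exists_gens (h : Extra p M ω) :
    ∃ gx gy ga gb, StdGens M (ω : L) gx gy ga gb := by
  obtain ⟨gx, hx, hxv⟩ := h.x_mem
  obtain ⟨gy, hy, hyv⟩ := h.y_mem
  obtain ⟨ga, ha, hav⟩ := h.a_mem
  obtain ⟨gb, hb, hbv⟩ := h.b_mem
  exact ⟨gx, gy, ga, gb, IsPrimitiveRoot.coe_units_iff.2 h.omega, hx, hy, ha, hb, hxv, hyv, hav,
    hbv⟩

variable {w : L} {gx gy ga gb : GL (Fin 3) L}

theorem StdGens.x_ne_one (s : StdGens M w gx gy ga gb) : pj gx ≠ 1 := by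
  intro h
  obtain ⟨c, hc⟩ := pj_eq_one.1 h
  rw [s.gx_val] at hc
  have h0 := congrArg (fun m : Mat3 => m 0 0) hc
  have h1 := congrArg (fun m : Mat3 => m 1 1) hc
  simp [xMat] at h0 h1
  exact s.prim.ne_one (by norm_num) (h1.trans h0.symm)

theorem StdGens.x_cube (s : StdGens M w gx gy ga gb) : pj gx ^ 3 = 1 := by
  rw [← map_pow, pj_eq_one]
  exact ⟨1, by rw [Units.val_pow_eq_pow_val, s.gx_val, xMat_cube s.prim, one_smul]⟩

theorem StdGens.y_cube (s : StdGens M w gx gy ga gb) : pj gy ^ 3 = 1 := by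
  rw [← map_pow, pj_eq_one]
  exact ⟨1, by rw [Units.val_pow_eq_pow_val, s.gy_val, yMat_cube, one_smul]⟩

theorem StdGens.xy (s : StdGens M w gx gy ga gb) : Commute (pj gx) (pj gy) :=
  pj_commute_iff.2 ⟨w, by rw [s.gx_val, s.gy_val, xy_comm s.prim]⟩

theorem StdGens.a_y (s : StdGens M w gx gy ga gb) : pj ga * pj gy * (pj ga)⁻¹ = pj gx := by
  rw [mul_inv_eq_iff_eq_mul, ← map_mul, ← map_mul, pj_eq_iff]
  exact ⟨1, by rw [one_smul, Units.val_mul, Units.val_mul, s.ga_val, s.gy_val, s.gx_val,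
    aMat_mul_y s.prim]⟩

theorem StdGens.a_x (s : StdGens M w gx gy ga gb) : pj ga * pj gx * (pj ga)⁻¹ = pj gy ^ 2 := by
  rw [mul_inv_eq_iff_eq_mul, ← map_mul, ← map_pow, ← map_mul, pj_eq_iff]
  exact ⟨1, by rw [one_smul, Units.val_mul, Units.val_mul, Units.val_pow_eq_pow_val, s.ga_val,
    s.gy_val, s.gx_val, aMat_mul_x s.prim]⟩

theorem StdGens.b_line (s : StdGens M w gx gy ga gb) :
    pj gb * (pj gx ^ 2 * pj gy) * (pj gb)⁻¹ = pj gx := by
  rw [mul_inv_eq_iff_eq_mul, ← map_pow, ← map_mul, ← map_mul, ← map_mul, pj_eq_iff]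
  exact ⟨w, by rw [Units.val_mul, Units.val_mul, Units.val_mul, Units.val_pow_eq_pow_val, s.gb_val,
    s.gy_val, s.gx_val, bMat_mul_line s.prim]⟩

theorem StdGens.inR_iff (s : StdGens M w gx gy ga gb) {g : GL3} :
    InR w g ↔ (g : Mat3).det = 1 ∧ Commute (pj g) (pj gx) ∧ Commute (pj g) (pj gy) := by
  refine ⟨?_, fun h => inR_of_commute s.prim s.gx_val s.gy_val h.1 h.2.1 h.2.2⟩
  rintro ⟨k, i, j, hg⟩
  have he : pj g = pj gx ^ (i : ℕ) * pj gy ^ (j : ℕ) := by
    rw [← map_pow, ← map_pow, ← map_mul, pj_eq_iff]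
    exact ⟨_, by rw [Units.val_mul, Units.val_pow_eq_pow_val, Units.val_pow_eq_pow_val, s.gx_val,
      s.gy_val]; exact hg⟩
  refine ⟨?_, ?_, ?_⟩
  · have hx1 : (xMat w).det = 1 := by
      rw [Matrix.det_fin_three]
      simp [xMat]
      linear_combination omega_cube s.prim
    have hy1 : (yMat : Mat3).det = 1 := by
      rw [Matrix.det_fin_three]
      simp [yMat]
    rw [hg, Matrix.det_smul, Matrix.det_mul, Matrix.det_pow, Matrix.det_pow, hx1, hy1, one_pow,
      one_pow, mul_one, mul_one, Fintype.card_fin, ← pow_mul, mul_comm, pow_mul, omega_cube s.prim,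
      one_pow]
  · rw [he]
    exact ((Commute.refl _).pow_left _).mul_left (s.xy.symm.pow_left _)
  · rw [he]
    exact (s.xy.pow_left _).mul_left ((Commute.refl _).pow_left _)

/-- Modulo scalars `R` is `{xⁱ yʲ}`. -/
theorem StdGens.exists_exp (s : StdGens M w gx gy ga gb) {g : GL3} (hg : InR w g) :
    ∃ i j : Fin 3, pj g = pj gx ^ (i : ℕ) * pj gy ^ (j : ℕ) := by
  obtain ⟨k, i, j, he⟩ := hg
  refine ⟨i, j, ?_⟩
  rw [← map_pow, ← map_pow, ← map_mul, pj_eq_iff]
  exact ⟨_, by rw [Units.val_mul, Units.val_pow_eq_pow_val, Units.val_pow_eq_pow_val, s.gx_val,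
    s.gy_val]; exact he⟩

/-- Every non-trivial element of `R` modulo scalars is moved to `x` or `x²` by `A`, `B`. -/
theorem StdGens.exists_conj_x (s : StdGens M w gx gy ga gb) (i j : Fin 3)
    (hne : pj gx ^ (i : ℕ) * pj gy ^ (j : ℕ) ≠ 1) :
    ∃ g ∈ M, MulAut.conj (pj g) (pj gx ^ (i : ℕ) * pj gy ^ (j : ℕ)) = pj gx ∨
      MulAut.conj (pj g) (pj gx ^ (i : ℕ) * pj gy ^ (j : ℕ)) = pj gx ^ 2 := by
  have ay : MulAut.conj (pj ga) (pj gy) = pj gx := s.a_y
  have ax : MulAut.conj (pj ga) (pj gx) = pj gy ^ 2 := s.a_x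
  have bl : MulAut.conj (pj gb) (pj gx ^ 2 * pj gy) = pj gx := s.b_line
  have hc := s.xy
  have hx3 := s.x_cube
  have sqline : (pj gx ^ 2 * pj gy) ^ 2 = pj gx * pj gy ^ 2 := by
    rw [(hc.pow_left 2).mul_pow, ← pow_mul, pow_eq_pow_mod _ hx3]
    norm_num
  have axy : MulAut.conj (pj ga) (pj gx * pj gy) = (pj gx ^ 2 * pj gy) ^ 2 := by
    rw [map_mul, ax, ay, sqline, (hc.pow_right 2).eq]
  have bA : MulAut.conj (pj (gb * ga)) (pj gx * pj gy) = pj gx ^ 2 := by
    rw [map_mul pj, map_mul MulAut.conj, MulAut.mul_apply, axy, map_pow, bl]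
  fin_cases i <;> fin_cases j <;> simp only [pow_zero, pow_one, one_mul, mul_one] at hne ⊢
  · exact absurd rfl hne
  · exact ⟨ga, s.ga_mem, Or.inl ay⟩
  · exact ⟨ga, s.ga_mem, Or.inr (by rw [map_pow, ay])⟩
  · exact ⟨1, M.one_mem, Or.inl (by simp)⟩
  · exact ⟨gb * ga, M.mul_mem s.gb_mem s.ga_mem, Or.inr bA⟩
  · exact ⟨gb, s.gb_mem, Or.inr (by rw [← sqline, map_pow, bl])⟩
  · exact ⟨1, M.one_mem, Or.inr (by simp)⟩
  · exact ⟨gb, s.gb_mem, Or.inl bl⟩
  · refine ⟨gb * ga, M.mul_mem s.gb_mem s.ga_mem, Or.inl ?_⟩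
    rw [show pj gx ^ 2 * pj gy ^ 2 = (pj gx * pj gy) ^ 2 from (hc.mul_pow 2).symm, map_pow, bA,
      ← pow_mul, pow_eq_pow_mod _ hx3]
    norm_num

end CfsgLib.SLThree90
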