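import Mathlib

/-!
The index equation of the overgroups of the normaliser of a Singer cycle in three dimensions:
both indices are `1` modulo the order of the cycle, so one of them is `1` or `q³`.
-/

set_option autoImplicit false

namespace CfsgLib.SLThree90

theorem singer_arith_table : ∀ i : Fin 9, ∀ t : Fin 9, ∀ q : Fin 132,
    7 ≤ q.val → 0 < i.val → 0 < t.val → i.val * t.val ≤ 8 →
    i.val * t.val * (q.val * q.val + q.val + 1) + 12 * i.val * q.val + 3 * t.val + 27 * q.val =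
      9 * q.val * q.val + 18 + 15 * i.val + 3 * i.val * i.val →
    q.val = 4 ∨ q.val = 10 := by
  decide +kernel

theorem singer_arith_three {q i j c : ℕ} (hq : 7 ≤ q) (h10 : q ≠ 10) (hc : 3 * c = q ^ 2 + q + 1)
    (hi : 1 ≤ i) (hij : i ≤ j) (heq : 3 * ((1 + i * c) * (1 + j * c)) = q ^ 3 * (q - 1) ^ 2 * (q + 1)) :
    1 + i * c = q ^ 3 ∨ 1 + j * c = q ^ 3 := by
  obtain ⟨r, rfl⟩ : ∃ r, q = r + 1 := ⟨q - 1, by omega⟩
  simp only [Nat.add_sub_cancel] at heq
  set Q : ℤ := (r : ℤ) + 1 with hQdef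
  set I : ℤ := (i : ℤ) with hIdef
  set J : ℤ := (j : ℤ) with hJdef
  set C : ℤ := (c : ℤ) with hCdef
  have hQ : 7 ≤ Q := by omega
  have hC : 3 * C = Q ^ 2 + Q + 1 := by rw [hQdef, hCdef]; exact_mod_cast hc
  have hI : 1 ≤ I := by omega
  have hJ : I ≤ J := by omega
  have hE : 3 * ((1 + I * C) * (1 + J * C)) = Q ^ 3 * (Q - 1) ^ 2 * (Q + 1) := by
    rw [hQdef, hIdef, hJdef, hCdef]
    push_cast at *
    rw [show (r : ℤ) + 1 - 1 = r by ring]
    exact_mod_cast heq
  have hC0 : 0 < C := by nlinarith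
  have hT : I + J + I * J * C = 4 * Q - 5 + 3 * ((Q - 1) * (Q - 2)) * C := by
    have h1 : 3 * C * (I + J + I * J * C - (4 * Q - 5 + 3 * ((Q - 1) * (Q - 2)) * C)) = 0 := by
      linear_combination hE -
        ((3 * (Q - 1) + (Q - 2)) + (Q - 1) * (Q - 2) * (Q ^ 2 + Q + 1 + 3 * C)) * hC
    rcases mul_eq_zero.1 h1 with h | h
    · omega
    · omega
  obtain ⟨t, ht⟩ : ∃ t : ℤ, I * J = 3 * ((Q - 1) * (Q - 2)) - t := ⟨_, (sub_sub_cancel _ _).symm⟩
  have hS : I + J = 4 * Q - 5 + t * C := by rw [ht] at hT; linarith [hT]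
  rcases lt_trichotomy t 0 with h | h | h
  · have h1 : I + J ≤ 4 := by nlinarith
    nlinarith
  · subst h
    have h2 : (I - 3 * (Q - 1)) * (I - (Q - 2)) = 0 := by
      have hJ' : J = 4 * Q - 5 - I := by linarith
      rw [hJ'] at ht
      linarith [ht]
    have hcube : ∀ x : ℕ, (x : ℤ) = 3 * (Q - 1) → 1 + x * c = (r + 1) ^ 3 := fun x hx => by
      have : (1 : ℤ) + x * C = Q ^ 3 := by rw [hx]; linear_combination (Q - 1) * hC
      rw [hQdef, hCdef] at this
      exact_mod_cast this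
    rcases mul_eq_zero.1 h2 with h | h
    · exact Or.inl (hcube i (by omega))
    · exact Or.inr (hcube j (by omega))
  · exfalso
    have hQQ : (Q - 1) * (Q - 2) < Q ^ 2 + Q + 1 := by nlinarith only [hQ]
    have h17 : I < 18 := by
      by_contra h18
      have h1 : t * C ≥ C := le_mul_of_one_le_left hC0.le (by omega)
      have h2 : I * C ≤ I * (I + J) := mul_le_mul_of_nonneg_left (by omega) (by omega)
      have h3 : I * (I + J) ≤ 2 * (I * J) := by
        have : I * I ≤ I * J := mul_le_mul_of_nonneg_left hJ (by omega)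
        linarith
      have h4' : 18 * C ≤ I * C := mul_le_mul_of_nonneg_right (by omega) hC0.le
      omega
    have hkey : I * t * (Q ^ 2 + Q + 1) + 3 * I * (4 * Q - 5 - I) + 3 * t =
        9 * ((Q - 1) * (Q - 2)) := by
      linear_combination 3 * ht - 3 * I * hS - I * t * hC
    have h8 : I * t ≤ 8 := by
      by_contra h9
      have h1 : 9 * (Q ^ 2 + Q + 1) ≤ I * t * (Q ^ 2 + Q + 1) :=
        mul_le_mul_of_nonneg_right (by omega) (by positivity)
      have h2 : 0 ≤ 3 * I * (4 * Q - 5 - I) := mul_nonneg (by omega) (by omega)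
      linarith
    have hi8 : I ≤ 8 := le_trans (le_mul_of_one_le_right (by omega) (by omega)) h8
    have ht8 : t ≤ 8 := le_trans (le_mul_of_one_le_left (by omega) hI) h8
    have hQb : Q < 132 := by
      by_contra hb
      have h1 : I * t * (Q ^ 2 + Q + 1) ≤ 8 * (Q ^ 2 + Q + 1) :=
        mul_le_mul_of_nonneg_right h8 (by positivity)
      have h2 : I * (4 * Q - 5 - I) ≤ 8 * (4 * Q - 5 - I) :=
        mul_le_mul_of_nonneg_right hi8 (by omega)
      nlinarith only [h1, h2, hb, hkey, ht8, hI]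
    obtain ⟨u, rfl⟩ := Int.eq_ofNat_of_zero_le h.le
    have h0 := singer_arith_table ⟨i, by omega⟩ ⟨u, by omega⟩ ⟨r + 1, by omega⟩
      (show 7 ≤ r + 1 by omega) (show 0 < i by omega)
      (show 0 < u by omega) (show i * u ≤ 8 by rw [hIdef] at h8; exact_mod_cast h8)
      (show i * u * ((r + 1) * (r + 1) + (r + 1) + 1) + 12 * i * (r + 1) + 3 * u + 27 * (r + 1) =
          9 * (r + 1) * (r + 1) + 18 + 15 * i + 3 * i * i by
        zify
        rw [← hQdef, ← hIdef]
        linarith [hkey])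
    have h1 : r + 1 = 4 ∨ r + 1 = 10 := h0
    omega

theorem singer_arith_one {q i j : ℕ} (hq : 2 ≤ q) (hi : 1 ≤ i) (hj : 1 ≤ j)
    (heq : 3 * ((1 + i * (q ^ 2 + q + 1)) * (1 + j * (q ^ 2 + q + 1))) =
      q ^ 3 * (q - 1) ^ 2 * (q + 1)) :
    1 + i * (q ^ 2 + q + 1) = q ^ 3 ∨ 1 + j * (q ^ 2 + q + 1) = q ^ 3 := by
  obtain ⟨r, rfl⟩ : ∃ r, q = r + 1 := ⟨q - 1, by omega⟩
  simp only [Nat.add_sub_cancel] at heq
  set Q : ℤ := (r : ℤ) + 1 with hQdef
  set I : ℤ := (i : ℤ) with hIdef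
  set J : ℤ := (j : ℤ) with hJdef
  have hQ : 2 ≤ Q := by omega
  have hI : 1 ≤ I := by omega
  have hJ : 1 ≤ J := by omega
  set m : ℤ := Q ^ 2 + Q + 1 with hm
  have hm0 : 0 < m := by nlinarith
  have hE : 3 * ((1 + I * m) * (1 + J * m)) = Q ^ 3 * (Q - 1) ^ 2 * (Q + 1) := by
    rw [hm, hQdef, hIdef, hJdef]
    push_cast at *
    rw [show (r : ℤ) + 1 - 1 = r by ring]
    exact_mod_cast heq
  have hT : 3 * (I + J) + 3 * (I * J) * m = 4 * Q - 5 + (Q - 1) * (Q - 2) * m := by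
    have h1 : m * (3 * (I + J) + 3 * (I * J) * m - (4 * Q - 5 + (Q - 1) * (Q - 2) * m)) = 0 := by
      rw [hm] at hE ⊢
      linear_combination hE
    rcases mul_eq_zero.1 h1 with h | h
    · omega
    · omega
  have hle : 3 * (I * J) ≤ (Q - 1) * (Q - 2) := by
    by_contra h
    have h1 : ((Q - 1) * (Q - 2) + 1) * m ≤ 3 * (I * J) * m :=
      mul_le_mul_of_nonneg_right (by omega) hm0.le
    nlinarith
  have hge : (Q - 1) * (Q - 2) ≤ 3 * (I * J) := by
    by_contra h
    have h1 : (3 * (I * J) + 1) * m ≤ (Q - 1) * (Q - 2) * m :=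
      mul_le_mul_of_nonneg_right (by omega) hm0.le
    nlinarith [mul_nonneg (sub_nonneg.2 hI) (sub_nonneg.2 hJ)]
  have hP : 3 * (I * J) = (Q - 1) * (Q - 2) := le_antisymm hle hge
  have hS : 3 * (I + J) = 4 * Q - 5 := by rw [hP] at hT; linarith
  have h2 : (3 * I - 3 * (Q - 1)) * (3 * I - (Q - 2)) = 0 := by
    linear_combination 3 * I * hS - 3 * hP
  have hcube : ∀ x : ℕ, (x : ℤ) = Q - 1 → 1 + x * ((r + 1) ^ 2 + (r + 1) + 1) = (r + 1) ^ 3 :=
    fun x hx => by
      have : (1 : ℤ) + x * m = Q ^ 3 := by rw [hx, hm]; ring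
      rw [hm, hQdef] at this
      exact_mod_cast this
  rcases mul_eq_zero.1 h2 with h | h
  · exact Or.inl (hcube i (by omega))
  · exact Or.inr (hcube j (by omega))

/-- If both indices are `1` modulo the order of a Singer cycle, one of them is `1` or `q³`. -/
theorem singer_arith {q c k k' : ℕ} (hq : 2 ≤ q) (h4 : q ≠ 4) (h10 : q ≠ 10)
    (hc : q ^ 2 + q + 1 = (if q % 3 = 1 then 3 else 1) * c)
    (heq : 3 * (k * k') = q ^ 3 * (q - 1) ^ 2 * (q + 1)) (hk : k ≡ 1 [MOD c])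
    (hk' : k' ≡ 1 [MOD c]) : k = 1 ∨ k' = 1 ∨ k = q ^ 3 ∨ k' = q ^ 3 := by
  have hpos : 0 < q ^ 3 * (q - 1) ^ 2 * (q + 1) := by
    have : 0 < q - 1 := by omega
    positivity
  have hk0 : k ≠ 0 := fun h => by rw [h] at heq; simp at heq; omega
  have hk0' : k' ≠ 0 := fun h => by rw [h] at heq; simp at heq; omega
  obtain ⟨i, hi⟩ : c ∣ k - 1 := (Nat.modEq_iff_dvd' (by omega)).1 hk.symm
  obtain ⟨j, hj⟩ : c ∣ k' - 1 := (Nat.modEq_iff_dvd' (by omega)).1 hk'.symm
  have hki : k = 1 + i * c := by rw [mul_comm]; omega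
  have hkj : k' = 1 + j * c := by rw [mul_comm]; omega
  rcases Nat.eq_zero_or_pos i with hi0 | hi0
  · left; rw [hki, hi0, zero_mul, add_zero]
  rcases Nat.eq_zero_or_pos j with hj0 | hj0
  · right; left; rw [hkj, hj0, zero_mul, add_zero]
  subst hki hkj
  split_ifs at hc with h3
  · rcases le_total i j with h | h
    · have := singer_arith_three (by omega) h10 hc.symm hi0 h heq
      tauto
    · have := singer_arith_three (by omega) h10 hc.symm hj0 h (by rw [← heq]; ring)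
      tauto
  · rw [one_mul] at hc
    subst hc
    have := singer_arith_one hq hi0 hj0 heq
    tauto

end CfsgLib.SLThree90
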