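import Cfsg.Prelude.Def_GeometricClasses
import Cfsg.Agent.C3Max.Basic
import Cfsg.Agent.Classical.FullCentres

/-!
A cubic field of three by three matrices: its norm one elements, their scalars, the Frobenius map
in the normaliser and the structure of the normaliser inside the special linear group.
-/

set_option autoImplicit false
set_option linter.unusedSectionVars false

namespace CfsgLib.SLThree90.Singer

open Matrix Module

variable {F L : Type*} [Field F] [Fintype F] [Field L] [Algebra F L] [Finite L]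


variable (θ : L →ₐ[F] Matrix (Fin 3) (Fin 3) F) (h3 : finrank F L = 3)

/-- The units of the field as matrices. -/
noncomputable def unit : Lˣ →* GL (Fin 3) F := Units.map (θ : L →* Matrix (Fin 3) (Fin 3) F)

theorem val_unit (x : Lˣ) : (unit θ x : Matrix (Fin 3) (Fin 3) F) = θ (x : L) := rfl

theorem unit_injective : Function.Injective (unit θ) := fun x y h =>
  Units.ext ((θ : L →+* Matrix (Fin 3) (Fin 3) F).injective (congrArg Units.val h))

include h3

theorem fd : FiniteDimensional F L := Module.finite_of_finrank_eq_succ h3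

theorem prime_finrank : (finrank F L).Prime := by rw [h3]; exact Nat.prime_three

theorem natCard_field : Nat.card L = Fintype.card F ^ 3 := by
  haveI := fd h3
  rw [Module.natCard_eq_pow_finrank (K := F) (V := L), h3, Nat.card_eq_fintype_card]

/-- The field acts simply transitively on the vectors. -/
theorem bij (v : Fin 3 → F) (hv : v ≠ 0) : Function.Bijective fun x : L => θ x *ᵥ v := by
  have hinj : Function.Injective fun x : L => θ x *ᵥ v := by
    intro x y h
    by_contra hne
    apply hv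
    have h1 : θ (x - y) *ᵥ v = 0 := by rw [map_sub, sub_mulVec]; exact sub_eq_zero.2 h
    calc v = θ ((x - y)⁻¹ * (x - y)) *ᵥ v := by
          rw [inv_mul_cancel₀ (sub_ne_zero.2 hne), map_one, one_mulVec]
      _ = 0 := by rw [map_mul, ← mulVec_mulVec, h1, mulVec_zero]
  refine hinj.bijective_of_nat_card_le ?_
  rw [natCard_field h3]
  simp

/-- The vectors as the field. -/
noncomputable def lineEquiv (v : Fin 3 → F) (hv : v ≠ 0) : L ≃ₗ[F] (Fin 3 → F) :=
  LinearEquiv.ofBijective
    { toFun := fun x => θ x *ᵥ v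
      map_add' := fun x y => by rw [map_add, add_mulVec]
      map_smul' := fun c x => by rw [map_smul, smul_mulVec, RingHom.id_apply] }
    (bij θ h3 v hv)

theorem lineEquiv_apply (v : Fin 3 → F) (hv : v ≠ 0) (x : L) :
    lineEquiv θ h3 v hv x = θ x *ᵥ v := rfl

theorem det_eq_norm (x : L) : (θ x).det = Algebra.norm F x := by
  have hv : (Pi.single 0 1 : Fin 3 → F) ≠ 0 := by simp
  set e := lineEquiv θ h3 _ hv
  rw [Algebra.norm_apply, ← LinearMap.det_conj _ e, ← LinearMap.det_toLin']
  congr 1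
  refine LinearMap.ext fun y => ?_
  obtain ⟨z, rfl⟩ := e.surjective y
  simp only [LinearMap.comp_apply, LinearEquiv.coe_coe, LinearEquiv.symm_apply_apply,
    Matrix.toLin'_apply]
  show θ x *ᵥ e z = e (Algebra.lmul F L x z)
  show θ x *ᵥ (θ z *ᵥ _) = θ (x * z) *ᵥ _
  rw [mulVec_mulVec, map_mul]

/-- A matrix commuting with a non-scalar element of the field lies in the field. -/
theorem mem_range_of_commute {x : L} (hx : x ∉ (algebraMap F L).range) {g : Matrix (Fin 3) (Fin 3) F}
    (hg : g * θ x = θ x * g) : g ∈ θ.range := by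
  haveI := fd h3
  have hv : (Pi.single 0 1 : Fin 3 → F) ≠ 0 := by simp
  set v : Fin 3 → F := Pi.single 0 1
  set e := lineEquiv θ h3 v hv
  let T : L →ₗ[F] L := e.symm.toLinearMap ∘ₗ Matrix.toLin' g ∘ₗ e.toLinearMap
  have hT : ∀ y, T (x * y) = x * T y := by
    intro y
    apply e.injective
    show e (e.symm (g *ᵥ e (x * y))) = e (x * e.symm (g *ᵥ e y))
    rw [e.apply_symm_apply, lineEquiv_apply, lineEquiv_apply, lineEquiv_apply, map_mul, map_mul,
      ← mulVec_mulVec, mulVec_mulVec _ g, hg, ← mulVec_mulVec, ← mulVec_mulVec]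
    congr 1
    exact (e.apply_symm_apply _).symm
  refine ⟨T 1, ?_⟩
  refine Matrix.ext_of_mulVec_single fun i => ?_
  obtain ⟨z, hz⟩ := e.surjective (Pi.single i 1)
  rw [← hz]
  have h := congrArg e (C3Max.eq_mul_of_commute (prime_finrank h3) hx hT z)
  rw [show e (T z) = g *ᵥ e z from e.apply_symm_apply _] at h
  rw [h, mul_comm, lineEquiv_apply, lineEquiv_apply, map_mul, mulVec_mulVec]
  rfl

omit h3

/-- The norm on units. -/
noncomputable def nrm : Lˣ →* Fˣ := Units.map (Algebra.norm F)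

/-- The scalars among the units. -/
noncomputable def scal : Subgroup Lˣ := (Units.map (algebraMap F L : F →* L)).range

variable (F L) in
/-- The scalars of norm one. -/
noncomputable def scalOne : Subgroup (nrm : Lˣ →* Fˣ).ker := (scal (F := F) (L := L)).subgroupOf _

theorem mem_scal {x : Lˣ} : x ∈ (scal (F := F) : Subgroup Lˣ) ↔ (x : L) ∈ (algebraMap F L).range := by
  constructor
  · rintro ⟨t, rfl⟩; exact ⟨t, rfl⟩
  · rintro ⟨t, ht⟩
    have ht0 : t ≠ 0 := fun h => x.ne_zero (by rw [← ht, h, map_zero])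
    exact ⟨Units.mk0 t ht0, Units.ext ht⟩

/-- The order of the cycle modulo scalars. -/
def ord (F : Type*) [Fintype F] : ℕ :=
  (Fintype.card F ^ 2 + Fintype.card F + 1) / (if Fintype.card F % 3 = 1 then 3 else 1)

omit [Field F] in
theorem ord_spec (q : ℕ) (hq : Fintype.card F = q) :
    q ^ 2 + q + 1 = (if q % 3 = 1 then 3 else 1) * ord F ∧ Nat.Coprime (ord F) 3 := by
  subst hq
  set q := Fintype.card F
  rw [ord]
  split_ifs with h
  · obtain ⟨s, hs⟩ : ∃ s, q = 3 * s + 1 := ⟨q / 3, by omega⟩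
    have he : q ^ 2 + q + 1 = 3 * (3 * (s ^ 2 + s) + 1) := by rw [hs]; ring
    rw [he, Nat.mul_div_cancel_left _ (by norm_num)]
    refine ⟨rfl, ?_⟩
    rw [Nat.coprime_comm, Nat.prime_three.coprime_iff_not_dvd]
    omega
  · refine ⟨(by rw [Nat.div_one, one_mul]), ?_⟩
    rw [Nat.coprime_comm, Nat.prime_three.coprime_iff_not_dvd, Nat.div_one]
    rw [Nat.dvd_iff_mod_eq_zero, Nat.add_mod, Nat.add_mod (q ^ 2), Nat.pow_mod]
    have := Nat.mod_lt q (show 3 > 0 by norm_num)
    interval_cases hh : q % 3 <;> simp_all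

include h3

theorem natCard_normOne : Nat.card (nrm (F := F) (L := L)).ker = Fintype.card F ^ 2 + Fintype.card F + 1 := by
  haveI := fd h3
  have h := Subgroup.card_eq_card_quotient_mul_card_subgroup (nrm (F := F) (L := L)).ker
  rw [Nat.card_congr (QuotientGroup.quotientKerEquivOfSurjective (nrm (F := F) (L := L))
    (FiniteField.unitsMap_norm_surjective F L)).toEquiv, Nat.card_units, Nat.card_units,
    natCard_field h3, Nat.card_eq_fintype_card] at h
  have hq : 1 < Fintype.card F := Fintype.one_lt_card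
  set q := Fintype.card F
  have hkey : q ^ 3 - 1 = (q - 1) * (q ^ 2 + q + 1) := by
    obtain ⟨r, hr⟩ : ∃ r, q = r + 1 := ⟨q - 1, by omega⟩
    rw [hr, Nat.add_sub_cancel]
    have : (r + 1) ^ 3 = r * ((r + 1) ^ 2 + (r + 1) + 1) + 1 := by ring
    omega
  rw [hkey] at h
  exact (Nat.eq_of_mul_eq_mul_left (by omega) h).symm

theorem natCard_scalOne :
    Nat.card (scalOne F L) = if Fintype.card F % 3 = 1 then 3 else 1 := by
  classical
  haveI := fd h3
  have hinj : Function.Injective (Units.map (algebraMap F L : F →* L)) := fun a b h =>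
    Units.ext ((algebraMap F L).injective (congrArg Units.val h))
  have hnorm : ∀ t : Fˣ, nrm (Units.map (algebraMap F L : F →* L) t) = t ^ 3 := fun t =>
    Units.ext (by simp [nrm, Algebra.norm_algebraMap, h3])
  have hc : Nat.card (scalOne F L) = Nat.card (powMonoidHom 3 : Fˣ →* Fˣ).ker := by
    refine (Nat.card_congr (Equiv.ofBijective (fun t => (⟨⟨Units.map (algebraMap F L : F →* L) t.1,
      by rw [MonoidHom.mem_ker, hnorm]; exact t.2⟩, ⟨t.1, rfl⟩⟩ : scalOne F L)) ⟨?_, ?_⟩)).symm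
    · intro a b h
      exact Subtype.ext (hinj (congrArg (fun z : scalOne F L => (z : Lˣ)) h))
    · rintro ⟨⟨x, hx⟩, t, ht⟩
      have ht' : Units.map (algebraMap F L : F →* L) t = x := ht
      refine ⟨⟨t, ?_⟩, Subtype.ext (Subtype.ext ht')⟩
      rw [MonoidHom.mem_ker, powMonoidHom_apply, ← hnorm, ht']
      exact hx
  rw [hc, IsCyclic.card_powMonoidHom_ker, Nat.card_units, Nat.card_eq_fintype_card]
  have hq : 1 < Fintype.card F := Fintype.one_lt_card
  set q := Fintype.card F
  split_ifs with h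
  · exact Nat.gcd_eq_right (by omega)
  · rcases (Nat.dvd_prime Nat.prime_three).1 (Nat.gcd_dvd_right (q - 1) 3) with h1 | h1
    · exact h1
    · have : 3 ∣ q - 1 := h1 ▸ Nat.gcd_dvd_left (q - 1) 3
      omega

theorem index_scalOne : (scalOne F L).index = ord F := by
  have h := (scalOne F L).index_mul_card
  rw [natCard_normOne h3, natCard_scalOne h3, (ord_spec (F := F) _ rfl).1, mul_comm (_ : ℕ) (ord F)] at h
  exact Nat.eq_of_mul_eq_mul_right (by split_ifs <;> norm_num) h

/-- A norm one element with scalar cube is scalar. -/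
theorem scal_of_cube {x : Lˣ} (hx : nrm (F := F) x = 1) (hx3 : x ^ 3 ∈ scal (F := F)) :
    x ∈ scal (F := F) := by
  have hk : x ^ ord F ∈ scal (F := F) := by
    have := Subgroup.pow_index_mem (scalOne F L) ⟨x, hx⟩
    rw [index_scalOne h3] at this
    exact this
  have := (ord_spec (F := F) _ rfl).2
  have hg : Int.gcd (ord F : ℤ) 3 = 1 := Int.gcd_natCast_natCast (ord F) 3 ▸ this
  have he := Int.gcd_eq_gcd_ab (ord F : ℤ) 3
  rw [hg] at he
  have : x = (x ^ ord F) ^ Int.gcdA (ord F) 3 * (x ^ 3) ^ Int.gcdB (ord F) 3 := by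
    rw [← zpow_natCast x, ← zpow_natCast x 3, ← _root_.zpow_mul, ← _root_.zpow_mul, ← _root_.zpow_add]
    push_cast at he ⊢
    rw [← he, zpow_one]
  rw [this]
  exact mul_mem (zpow_mem hk _) (zpow_mem hx3 _)

omit h3

/-- The norm one elements as matrices. -/
noncomputable def cyc : Subgroup (GL (Fin 3) F) := (nrm (F := F) (L := L)).ker.map (unit θ)

/-- The normaliser of the field in the special linear group. -/
noncomputable def norms : Subgroup (GL (Fin 3) F) :=
  Cfsg.Geo.subalgebraNormalizer θ.range ⊓ Cfsg.Geo.specialLinear (Fin 3) F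

theorem mem_sl {g : GL (Fin 3) F} : g ∈ Cfsg.Geo.specialLinear (Fin 3) F ↔ (g : Matrix (Fin 3) (Fin 3) F).det = 1 := by
  rw [Cfsg.Geo.specialLinear, MonoidHom.mem_ker, Units.ext_iff]; rfl

/-- An element mapping the field into itself normalises it. -/
theorem mem_normalizer_of_le {g : GL (Fin 3) F}
    (h : ∀ x : L, (g : Matrix (Fin 3) (Fin 3) F) * θ x * ((g⁻¹ : GL (Fin 3) F) : Matrix (Fin 3) (Fin 3) F) ∈ θ.range) :
    g ∈ Cfsg.Geo.subalgebraNormalizer θ.range := by
  choose f hf using h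
  have hsurj : Function.Surjective f := by
    refine Finite.injective_iff_surjective.1 fun a b hab => (θ : L →+* Matrix (Fin 3) (Fin 3) F).injective ?_
    have h1 := (hf a).symm.trans ((congrArg θ hab).trans (hf b))
    have h2 := congrArg (fun z => ((g⁻¹ : GL (Fin 3) F) : Matrix (Fin 3) (Fin 3) F) * z * (g : Matrix (Fin 3) (Fin 3) F)) h1
    simpa [mul_assoc, ← Units.val_mul] using h2
  intro k
  constructor
  · rintro ⟨x, rfl⟩; exact ⟨f x, hf x⟩
  · rintro ⟨y, hy⟩
    obtain ⟨x, rfl⟩ := hsurj y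
    refine ⟨x, ?_⟩
    have h2 := congrArg (fun z => ((g⁻¹ : GL (Fin 3) F) : Matrix (Fin 3) (Fin 3) F) * z * (g : Matrix (Fin 3) (Fin 3) F)) ((hf x).symm.trans hy)
    simpa [mul_assoc, ← Units.val_mul] using h2

include h3

theorem mem_cyc {g : GL (Fin 3) F} :
    g ∈ cyc θ ↔ (g : Matrix (Fin 3) (Fin 3) F) ∈ θ.range ∧ g ∈ Cfsg.Geo.specialLinear (Fin 3) F := by
  constructor
  · rintro ⟨x, hx, rfl⟩
    refine ⟨⟨x, rfl⟩, mem_sl.2 ?_⟩
    rw [val_unit, det_eq_norm θ h3]
    exact congrArg Units.val (MonoidHom.mem_ker.1 hx)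
  · rintro ⟨⟨x, hx⟩, hg⟩
    have hx0 : x ≠ 0 := fun h => g.ne_zero (by rw [← hx, h, map_zero])
    refine ⟨Units.mk0 x hx0, MonoidHom.mem_ker.2 (Units.ext ?_), Units.ext hx⟩
    show Algebra.norm F x = 1
    rw [← det_eq_norm θ h3, show θ x = (g : Matrix (Fin 3) (Fin 3) F) from hx]
    exact mem_sl.1 hg

theorem cyc_le_norms : cyc θ ≤ norms θ := by
  intro g hg
  obtain ⟨⟨x, hx⟩, hsl⟩ := (mem_cyc θ h3).1 hg
  refine ⟨mem_normalizer_of_le θ fun y => ?_, hsl⟩
  refine ⟨y, ?_⟩
  have hc : (g : Matrix (Fin 3) (Fin 3) F) * θ y = θ y * (g : Matrix (Fin 3) (Fin 3) F) := by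
    rw [show (g : Matrix (Fin 3) (Fin 3) F) = θ x from hx.symm, ← map_mul, ← map_mul, mul_comm]
  show θ y = _
  rw [hc, mul_assoc, ← Units.val_mul, mul_inv_cancel, Units.val_one, mul_one]

theorem natCard_cyc : Nat.card (cyc θ) = Fintype.card F ^ 2 + Fintype.card F + 1 := by
  rw [cyc, ← natCard_normOne h3]
  exact Nat.card_congr (Subgroup.equivMapOfInjective _ _ (unit_injective θ)).toEquiv.symm

omit h3

/-- The automorphism of the field induced by an element of the normaliser. -/
noncomputable def aut (g : Cfsg.Geo.subalgebraNormalizer θ.range) : L ≃ₐ[F] L :=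
  ((AlgEquiv.ofInjective θ (θ : L →+* Matrix (Fin 3) (Fin 3) F).injective).trans
    { toFun := fun k => ⟨(g.1 : Matrix (Fin 3) (Fin 3) F) * k.1 * ((g.1⁻¹ : GL (Fin 3) F) : Matrix (Fin 3) (Fin 3) F), (g.2 k.1).1 k.2⟩
      invFun := fun k => ⟨((g.1⁻¹ : GL (Fin 3) F) : Matrix (Fin 3) (Fin 3) F) * k.1 * (g.1 : Matrix (Fin 3) (Fin 3) F), by
        refine (g.2 _).2 ?_
        simpa [mul_assoc, ← Units.val_mul] using k.2⟩
      left_inv := fun k => Subtype.ext (by simp [mul_assoc])
      right_inv := fun k => Subtype.ext (by simp [mul_assoc])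
      map_mul' := fun a b => Subtype.ext (by simp [mul_assoc])
      map_add' := fun a b => Subtype.ext (by simp [mul_add, add_mul])
      commutes' := fun c => Subtype.ext (by
        simp [Algebra.algebraMap_eq_smul_one, Matrix.smul_mul, Matrix.mul_smul]) }).trans
    (AlgEquiv.ofInjective θ (θ : L →+* Matrix (Fin 3) (Fin 3) F).injective).symm

theorem theta_aut (g : Cfsg.Geo.subalgebraNormalizer θ.range) (x : L) :
    θ (aut θ g x) = (g.1 : Matrix (Fin 3) (Fin 3) F) * θ x * ((g.1⁻¹ : GL (Fin 3) F) : Matrix (Fin 3) (Fin 3) F) := by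
  unfold aut
  set e := AlgEquiv.ofInjective θ (θ : L →+* Matrix (Fin 3) (Fin 3) F).injective
  have h : ∀ k, θ (e.symm k) = k.1 := fun k => by
    conv_rhs => rw [← e.apply_symm_apply k]
    rfl
  exact h _

theorem aut_mul (g h : Cfsg.Geo.subalgebraNormalizer θ.range) (x : L) :
    aut θ (g * h) x = aut θ g (aut θ h x) := by
  apply (θ : L →+* Matrix (Fin 3) (Fin 3) F).injective
  show θ _ = θ _
  rw [theta_aut, theta_aut, theta_aut]
  simp [mul_assoc]

/-- The map from the normaliser in the special linear group to the Galois group. -/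
noncomputable def toGal : norms θ →* (L ≃ₐ[F] L) where
  toFun g := aut θ ⟨g.1, g.2.1⟩
  map_one' := by
    ext x
    apply (θ : L →+* Matrix (Fin 3) (Fin 3) F).injective
    show θ _ = θ _
    rw [theta_aut]; simp
  map_mul' g h := by
    ext x
    exact aut_mul θ ⟨g.1, g.2.1⟩ ⟨h.1, h.2.1⟩ x

theorem theta_toGal (g : norms θ) (x : L) :
    θ (toGal θ g x) = (g.1 : Matrix (Fin 3) (Fin 3) F) * θ x * ((g.1⁻¹ : GL (Fin 3) F) : Matrix (Fin 3) (Fin 3) F) := theta_aut θ _ x

theorem conj_comm {g : GL (Fin 3) F} {x : L} (h : (g : Matrix (Fin 3) (Fin 3) F) * θ x * ((g⁻¹ : GL (Fin 3) F) : Matrix (Fin 3) (Fin 3) F) = θ x) :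
    (g : Matrix (Fin 3) (Fin 3) F) * θ x = θ x * (g : Matrix (Fin 3) (Fin 3) F) := by
  conv_rhs => rw [← h]
  rw [mul_assoc _ ((g⁻¹ : GL (Fin 3) F) : Matrix (Fin 3) (Fin 3) F), ← Units.val_mul, inv_mul_cancel, Units.val_one, mul_one]

include h3

theorem ker_toGal : (toGal θ).ker = (cyc θ).subgroupOf (norms θ) := by
  haveI := fd h3
  obtain ⟨l, hl⟩ : ∃ l : L, l ∉ (algebraMap F L).range := by
    by_contra! h
    have hs : Function.Surjective (algebraMap F L) := h
    have := Nat.card_le_card_of_surjective _ hs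
    rw [natCard_field h3, Nat.card_eq_fintype_card] at this
    have hq : 1 < Fintype.card F := Fintype.one_lt_card
    have h13 := Nat.pow_lt_pow_right hq (show 1 < 3 by norm_num)
    rw [pow_one] at h13
    omega
  ext g
  rw [MonoidHom.mem_ker, Subgroup.mem_subgroupOf, mem_cyc θ h3]
  refine ⟨fun h => ⟨mem_range_of_commute θ h3 hl (conj_comm θ ?_), g.2.2⟩, ?_⟩
  · rw [← theta_toGal, h]; rfl
  · rintro ⟨⟨x, hx⟩, -⟩
    ext y
    apply (θ : L →+* Matrix (Fin 3) (Fin 3) F).injective
    show θ _ = θ y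
    rw [theta_toGal, show (g.1 : Matrix (Fin 3) (Fin 3) F) = θ x from hx.symm, ← map_mul, mul_comm x, map_mul,
      show θ x = (g.1 : Matrix (Fin 3) (Fin 3) F) from hx, mul_assoc, ← Units.val_mul, mul_inv_cancel, Units.val_one,
      mul_one]

/-- The Frobenius map lies in the normaliser. -/
theorem exists_frobenius : ∃ g : norms θ, ∀ v : L, toGal θ g v = v ^ Fintype.card F ∧
    (g.1 : Matrix (Fin 3) (Fin 3) F) *ᵥ (θ v *ᵥ Pi.single 0 1) = θ (v ^ Fintype.card F) *ᵥ Pi.single 0 1 := by
  haveI := fd h3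
  have hv : (Pi.single 0 1 : Fin 3 → F) ≠ 0 := by simp
  set e := lineEquiv θ h3 _ hv with he
  set φ := FiniteField.frobeniusAlgHom F L with hφ
  have happ : ∀ z, φ z = z ^ Fintype.card F := fun z => rfl
  have hbij : Function.Bijective φ := φ.toRingHom.injective.bijective_of_finite
  set f : (Fin 3 → F) →ₗ[F] (Fin 3 → F) := e.toLinearMap ∘ₗ φ.toLinearMap ∘ₗ e.symm.toLinearMap
  have hdet : LinearMap.det f = 1 := by
    rw [LinearMap.det_conj]
    have h := FiniteField.minpoly_frobeniusAlgHom (K := F) (L := L)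
    rw [h3] at h
    have hdvd := LinearMap.minpoly_dvd_charpoly φ.toLinearMap
    rw [h] at hdvd
    have hdeg : (φ.toLinearMap).charpoly.natDegree = 3 := by
      rw [LinearMap.charpoly_natDegree, h3]
    have hc : (φ.toLinearMap).charpoly = Polynomial.X ^ 3 - 1 := by
      refine (Polynomial.eq_of_monic_of_dvd_of_natDegree_le ?_ (LinearMap.charpoly_monic _) hdvd ?_)
      · exact Polynomial.monic_X_pow_sub_C 1 three_ne_zero
      · rw [hdeg, ← map_one Polynomial.C, Polynomial.natDegree_X_pow_sub_C]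
    rw [LinearMap.det_eq_sign_charpoly_coeff, hc, h3]
    simp [Polynomial.coeff_X_pow]
    norm_num
  have hfe : IsUnit (LinearMap.toMatrix' f).det := by rw [LinearMap.det_toMatrix', hdet]; exact isUnit_one
  set g : GL (Fin 3) F := ((Matrix.isUnit_iff_isUnit_det _).2 hfe).unit
  have hg : ∀ y, (g : Matrix (Fin 3) (Fin 3) F) *ᵥ y = f y := fun y => LinearMap.toMatrix'_mulVec f y
  have hgz : ∀ z : L, (g : Matrix (Fin 3) (Fin 3) F) *ᵥ (θ z *ᵥ Pi.single 0 1) = θ (φ z) *ᵥ Pi.single 0 1 := fun z => by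
    rw [hg]
    show e (φ (e.symm (e z))) = _
    rw [e.symm_apply_apply]; rfl
  have hconj : ∀ x : L, (g : Matrix (Fin 3) (Fin 3) F) * θ x * ((g⁻¹ : GL (Fin 3) F) : Matrix (Fin 3) (Fin 3) F) = θ (φ x) := by
    intro x
    have hm : (g : Matrix (Fin 3) (Fin 3) F) * θ x = θ (φ x) * (g : Matrix (Fin 3) (Fin 3) F) := by
      refine Matrix.ext_of_mulVec_single fun i => ?_
      obtain ⟨z, hz⟩ := e.surjective (Pi.single i 1)
      rw [← hz, lineEquiv_apply, ← mulVec_mulVec, ← mulVec_mulVec, mulVec_mulVec _ (θ x),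
        ← map_mul, hgz, map_mul, map_mul, ← mulVec_mulVec, hgz]
    rw [hm, mul_assoc, ← Units.val_mul, mul_inv_cancel, Units.val_one, mul_one]
  refine ⟨⟨g, mem_normalizer_of_le θ fun x => ⟨φ x, (hconj x).symm⟩, mem_sl.2 ?_⟩, fun x => ⟨?_, hgz x⟩⟩
  · show (LinearMap.toMatrix' f).det = 1
    rw [LinearMap.det_toMatrix', hdet]
  · apply (θ : L →+* Matrix (Fin 3) (Fin 3) F).injective
    show θ _ = θ _
    rw [theta_toGal, hconj, happ]

theorem natCard_norms : Nat.card (norms θ) = 3 * (Fintype.card F ^ 2 + Fintype.card F + 1) := by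
  haveI := fd h3
  have hsurj : Function.Surjective (toGal θ) := by
    intro s
    obtain ⟨g, hg⟩ := exists_frobenius θ h3
    obtain ⟨n, hn⟩ := (FiniteField.bijective_frobeniusAlgHom_pow F L).2 s.toAlgHom
    refine ⟨g ^ n.1, AlgEquiv.ext fun x => ?_⟩
    have key : ∀ (k : ℕ) (y : L), (toGal θ (g ^ k)) y = (FiniteField.frobeniusAlgHom F L ^ k) y := by
      intro k
      induction k with
      | zero => intro y; rw [pow_zero, map_one]; rfl
      | succ k ih =>
        intro y
        rw [pow_succ, map_mul, pow_succ]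
        show toGal θ (g ^ k) (toGal θ g y) = _
        rw [ih, (hg y).1]
        rfl
    rw [key]
    exact DFunLike.congr_fun hn x
  have h := Subgroup.card_eq_card_quotient_mul_card_subgroup (toGal θ).ker
  rw [Nat.card_congr (QuotientGroup.quotientKerEquivOfSurjective _ hsurj).toEquiv,
    IsGalois.card_aut_eq_finrank, h3, ker_toGal θ h3,
    Nat.card_congr (Subgroup.subgroupOfEquivOfLe (cyc_le_norms θ h3)).toEquiv, natCard_cyc θ h3] at h
  exact h

omit h3 in
theorem unit_mem_scal_center {x : Lˣ} (hx : x ∈ scal (F := F)) (g : GL (Fin 3) F) :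
    g * unit θ x = unit θ x * g := by
  obtain ⟨t, ht⟩ := mem_scal.1 hx
  apply Units.ext
  rw [Units.val_mul, Units.val_mul, val_unit, ← ht, AlgHom.commutes, Algebra.commutes]

/-- An element of the normaliser commuting with a non-scalar of the field lies in the cycle. -/
theorem mem_cyc_of_commute {g : GL (Fin 3) F} (hg : g ∈ Cfsg.Geo.specialLinear (Fin 3) F) {x : Lˣ}
    (hx : x ∉ scal (F := F)) (h : g * unit θ x = unit θ x * g) : g ∈ cyc θ := by
  refine (mem_cyc θ h3).2 ⟨mem_range_of_commute θ h3 (x := (x : L)) (fun hh => hx (mem_scal.2 hh)) ?_, hg⟩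
  have := congrArg Units.val h
  rwa [Units.val_mul, Units.val_mul, val_unit] at this

/-- The cubes of the elements of the normaliser outside the cycle are scalar. -/
theorem cube_scal {g : GL (Fin 3) F} (hg : g ∈ norms θ) (hgc : g ∉ cyc θ) :
    ∃ x : Lˣ, x ∈ scal (F := F) ∧ unit θ x = g ^ 3 := by
  haveI := fd h3
  set s := toGal θ ⟨g, hg⟩
  have hcard : Nat.card (L ≃ₐ[F] L) = 3 := by rw [IsGalois.card_aut_eq_finrank, h3]
  haveI : Finite (L ≃ₐ[F] L) := Nat.finite_of_card_ne_zero (by rw [hcard]; norm_num)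
  have hs3 : s ^ 3 = 1 := by rw [← hcard]; exact pow_card_eq_one'
  have hker : (⟨g, hg⟩ : norms θ) ^ 3 ∈ (toGal θ).ker := by rw [MonoidHom.mem_ker, map_pow]; exact hs3
  rw [ker_toGal θ h3, Subgroup.mem_subgroupOf] at hker
  obtain ⟨x, hx, hxg⟩ := (hker : g ^ 3 ∈ cyc θ)
  refine ⟨x, ?_, hxg⟩
  by_contra hns
  refine hgc (mem_cyc_of_commute θ h3 hg.2 hns ?_)
  rw [hxg]
  show g * g ^ 3 = g ^ 3 * g
  rw [← pow_succ', ← pow_succ]

/-- An element of the normaliser outside the cycle centralises only scalars modulo scalars. -/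
theorem scal_of_comm {g : GL (Fin 3) F} (hg : g ∈ norms θ) (hgc : g ∉ cyc θ) {x : Lˣ}
    (hx : nrm (F := F) x = 1) {t : Lˣ} (ht : t ∈ scal (F := F))
    (h : g * unit θ x * g⁻¹ = unit θ (t * x)) : x ∈ scal (F := F) := by
  haveI := fd h3
  refine scal_of_cube h3 hx ?_
  by_contra hns
  have hnt : nrm (F := F) t = 1 := by
    have h1 := congrArg Matrix.GeneralLinearGroup.det h
    rw [map_mul, map_mul, map_inv, mul_comm, inv_mul_cancel_left, map_mul (unit θ), map_mul] at h1
    have h2 : Matrix.GeneralLinearGroup.det (unit θ t) = 1 := mul_eq_right.1 h1.symm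
    apply Units.ext
    show Algebra.norm F (t : L) = 1
    rw [← det_eq_norm θ h3, ← val_unit]
    exact congrArg Units.val h2
  have ht3 : t ^ 3 = 1 := by
    obtain ⟨s, hs⟩ := mem_scal.1 ht
    have h1 : Algebra.norm F (t : L) = 1 := congrArg Units.val hnt
    rw [← hs, Algebra.norm_algebraMap, h3] at h1
    exact Units.ext (by rw [Units.val_pow_eq_pow_val, ← hs, ← map_pow, h1, map_one, Units.val_one])
  refine hgc (mem_cyc_of_commute θ h3 hg.2 hns ?_)
  rw [← mul_inv_eq_iff_eq_mul, map_pow, ← conj_pow, h, ← map_pow, mul_pow, ht3, one_mul, map_pow]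

end CfsgLib.SLThree90.Singer
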