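import Cfsg.Agent.SLThree90.SingerCycle
import Cfsg.Agent.SLThree90.SingerArith
import Cfsg.Agent.SLThree90.Transvection

/-!
The index of the normaliser of a cubic field in a group between it and the special linear group is
one, the whole index, `q³` or the cofactor of `q³`; the value `q³` forces the special linear group.
-/

set_option autoImplicit false
set_option linter.unusedSectionVars false

namespace CfsgLib.SLThree90.Singer

open Matrix Module CfsgLib.TransvGL CfsgLib.FullCentres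
open scoped Pointwise

variable {F L : Type*} [Field F] [Fintype F] [Field L] [Algebra F L] [Finite L]
variable (θ : L →ₐ[F] Matrix (Fin 3) (Fin 3) F) (h3 : finrank F L = 3)
variable {M : Subgroup (GL (Fin 3) F)}

include h3

/-- An element of the cycle conjugated into the normaliser by an outside element is scalar. -/
theorem scal_of_conj_mem {g : GL (Fin 3) F} (hg : g ∈ Cfsg.Geo.specialLinear (Fin 3) F)
    (hgn : g ∉ norms θ) {x : Lˣ} (hx : nrm (F := F) x = 1)
    (h : g⁻¹ * unit θ x * g ∈ norms θ) : x ∈ scal (F := F) := by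
  haveI := fd h3
  refine scal_of_cube h3 hx ?_
  by_cases hc : g⁻¹ * unit θ x * g ∈ cyc θ
  · by_contra hns
    obtain ⟨y, hy, hyx⟩ := hc
    refine hgn ⟨mem_normalizer_of_le θ fun z => ?_, hg⟩
    refine mem_range_of_commute θ h3 (x := (x : L))
      (fun hh => hns (pow_mem (mem_scal.2 hh) 3)) ?_
    have hgy : (g : Matrix (Fin 3) (Fin 3) F) * θ (y : L) = θ (x : L) * (g : Matrix (Fin 3) (Fin 3) F) := by
      have h1 : g * unit θ y = unit θ x * g := by rw [hyx]; group
      exact congrArg Units.val h1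
    have hgy' : ((g⁻¹ : GL (Fin 3) F) : Matrix (Fin 3) (Fin 3) F) * θ (x : L) =
        θ (y : L) * ((g⁻¹ : GL (Fin 3) F) : Matrix (Fin 3) (Fin 3) F) := by
      have h1 : g⁻¹ * unit θ x = unit θ y * g⁻¹ := by rw [hyx]; group
      exact congrArg Units.val h1
    rw [mul_assoc, hgy', ← mul_assoc, mul_assoc _ (θ z), ← map_mul, mul_comm z, map_mul,
      ← mul_assoc (g : Matrix (Fin 3) (Fin 3) F), hgy]
    simp only [mul_assoc]
  · obtain ⟨s, hs, he⟩ := cube_scal θ h3 h hc
    have h2 : (g⁻¹ * unit θ x * g) ^ 3 = g⁻¹ * unit θ (x ^ 3) * g := by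
      rw [map_pow]
      simpa using conj_pow (a := g⁻¹) (b := unit θ x) (i := 3)
    have h4 : unit θ (x ^ 3) = unit θ s := by
      rw [h2] at he
      calc unit θ (x ^ 3) = g * (g⁻¹ * unit θ (x ^ 3) * g) * g⁻¹ := by group
        _ = g * unit θ s * g⁻¹ := by rw [he]
        _ = unit θ s := by rw [unit_mem_scal_center θ hs g, mul_assoc, mul_inv_cancel, mul_one]
    rw [unit_injective θ h4]
    exact hs

/-- The index of the normaliser in an overgroup is one modulo the order of the cycle. -/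
theorem index_modEq (hN : norms θ ≤ M) (hM : M ≤ Cfsg.Geo.specialLinear (Fin 3) F) :
    ((norms θ).subgroupOf M).index ≡ 1 [MOD ord F] := by
  classical
  haveI := fd h3
  set G := (nrm (F := F) (L := L)).ker with hG
  let ι : G →* M :=
    ((unit θ).comp G.subtype).codRestrict M fun x => hN (cyc_le_norms θ h3 ⟨x, x.2, rfl⟩)
  letI : MulAction G (M ⧸ (norms θ).subgroupOf M) := MulAction.compHom _ ι
  let X := M ⧸ (norms θ).subgroupOf M
  set x₀ : X := QuotientGroup.mk 1 with hx₀
  have hfix : MulAction.orbit G x₀ = {x₀} := by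
    refine Set.eq_singleton_iff_unique_mem.2 ⟨MulAction.mem_orbit_self _, ?_⟩
    rintro _ ⟨x, rfl⟩
    show ι x • (QuotientGroup.mk 1 : X) = x₀
    rw [MulAction.Quotient.smul_mk, hx₀, QuotientGroup.eq]
    simp only [smul_eq_mul, mul_one, Subgroup.mem_subgroupOf]
    exact (norms θ).inv_mem (cyc_le_norms θ h3 ⟨x, x.2, rfl⟩)
  have hreg : ∀ y : X, y ≠ x₀ → Nat.card (MulAction.orbit G y) = ord F := by
    intro y hy
    obtain ⟨g, rfl⟩ := QuotientGroup.mk_surjective y
    have hg : (g : GL (Fin 3) F) ∉ norms θ := fun h => hy (by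
      rw [hx₀, QuotientGroup.eq, Subgroup.mem_subgroupOf]
      simpa using (norms θ).inv_mem h)
    have hstab : MulAction.stabilizer G (QuotientGroup.mk g : X) = scalOne F L := by
      ext x
      rw [MulAction.mem_stabilizer_iff]
      change ι x • (QuotientGroup.mk g : X) = QuotientGroup.mk g ↔ x ∈ scalOne F L
      rw [MulAction.Quotient.smul_mk, QuotientGroup.eq, Subgroup.mem_subgroupOf, scalOne,
        Subgroup.mem_subgroupOf]
      constructor
      · intro h
        refine scal_of_conj_mem θ h3 (hM g.2) hg x.2 ?_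
        have h' := (norms θ).inv_mem h
        simpa [ι, mul_assoc] using h'
      · intro h
        have hc := unit_mem_scal_center θ h (g : GL (Fin 3) F)
        have : ((ι x • g)⁻¹ * g : M).1 = unit θ (x : Lˣ)⁻¹ := by
          show ((unit θ x) * (g : GL (Fin 3) F))⁻¹ * g = _
          rw [← hc, map_inv]; group
        rw [this]
        exact cyc_le_norms θ h3 ⟨_, G.inv_mem x.2, rfl⟩
    have h1 := Nat.card_congr (MulAction.orbitEquivQuotientStabilizer G (QuotientGroup.mk g : X))
    rw [h1, hstab]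
    exact index_scalOne h3
  rw [Subgroup.index_eq_card, Nat.card_congr (MulAction.selfEquivSigmaOrbits G X)]
  set Ω := MulAction.orbitRel.Quotient G X
  haveI : Fintype Ω := Fintype.ofFinite Ω
  rw [Nat.card_sigma]
  rw [show (∑ ω : Ω, Nat.card (MulAction.orbit G ω.out)) =
    Nat.card (MulAction.orbit G (Quotient.mk'' x₀ : Ω).out) +
      ∑ ω ∈ Finset.univ.erase (Quotient.mk'' x₀ : Ω), Nat.card (MulAction.orbit G ω.out) from
    (Finset.add_sum_erase _ _ (Finset.mem_univ _)).symm]
  have hout : (Quotient.mk'' x₀ : Ω).out = x₀ := by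
    have h : (Quotient.mk'' x₀ : Ω).out ∈ MulAction.orbit G x₀ :=
      MulAction.orbitRel_apply.1 (Quotient.mk_out x₀)
    rwa [hfix] at h
  rw [hout, hfix, Nat.card_unique]
  have hz : ∑ ω ∈ Finset.univ.erase (Quotient.mk'' x₀ : Ω), Nat.card (MulAction.orbit G ω.out) ≡ 0
      [MOD ord F] := by
    refine Nat.modEq_zero_iff_dvd.2 (Finset.dvd_sum fun ω hω => ?_)
    rw [hreg _ fun h => (Finset.mem_erase.1 hω).1 ?_]
    rw [← h]
    exact ω.out_eq'.symm
  simpa using hz.add_left 1

omit h3 in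
theorem natCard_sl :
    Nat.card (Cfsg.Geo.specialLinear (Fin 3) F) * (Fintype.card F - 1) =
      (Fintype.card F ^ 3 - 1) * (Fintype.card F ^ 3 - Fintype.card F) *
        (Fintype.card F ^ 3 - Fintype.card F ^ 2) := by
  classical
  have hd : Function.Surjective (Matrix.GeneralLinearGroup.det : GL (Fin 3) F →* Fˣ) := by
    intro t
    have hdet : (Matrix.diagonal fun i : Fin 3 => if i = 0 then (t : F) else 1).det = t := by
      simp [Matrix.det_diagonal, Fin.prod_univ_three]
    refine ⟨Matrix.GeneralLinearGroup.mkOfDetNeZero _ (hdet ▸ t.ne_zero), Units.ext ?_⟩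
    exact hdet
  have h := Subgroup.card_eq_card_quotient_mul_card_subgroup
    (Matrix.GeneralLinearGroup.det : GL (Fin 3) F →* Fˣ).ker
  rw [Nat.card_congr (QuotientGroup.quotientKerEquivOfSurjective _ hd).toEquiv, Nat.card_units,
    Nat.card_eq_fintype_card (α := F), Matrix.card_GL_field, Fin.prod_univ_three] at h
  rw [Cfsg.Geo.specialLinear, mul_comm _ (Fintype.card F - 1), ← h]
  simp

theorem le_sl : norms θ ≤ Cfsg.Geo.specialLinear (Fin 3) F := inf_le_right

theorem index_total (hq : 2 ≤ Fintype.card F) :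
    3 * ((norms θ).subgroupOf (Cfsg.Geo.specialLinear (Fin 3) F)).index =
      Fintype.card F ^ 3 * (Fintype.card F - 1) ^ 2 * (Fintype.card F + 1) := by
  have h := ((norms θ).subgroupOf (Cfsg.Geo.specialLinear (Fin 3) F)).index_mul_card
  rw [Nat.card_congr (Subgroup.subgroupOfEquivOfLe (le_sl θ h3)).toEquiv, natCard_norms θ h3] at h
  have hsl := natCard_sl (F := F)
  rw [← h] at hsl
  set q := Fintype.card F
  set I := ((norms θ).subgroupOf (Cfsg.Geo.specialLinear (Fin 3) F)).index
  clear_value q I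
  obtain ⟨r, rfl⟩ : ∃ r, q = r + 1 := ⟨q - 1, by omega⟩
  have e1 : (r + 1) ^ 3 - 1 = r * ((r + 1) ^ 2 + (r + 1) + 1) := by
    have : (r + 1) ^ 3 = r * ((r + 1) ^ 2 + (r + 1) + 1) + 1 := by ring
    omega
  have e2 : (r + 1) ^ 3 - (r + 1) = r * (r + 1) * (r + 2) := by
    have : (r + 1) ^ 3 = r * (r + 1) * (r + 2) + (r + 1) := by ring
    omega
  have e3 : (r + 1) ^ 3 - (r + 1) ^ 2 = r * (r + 1) ^ 2 := by
    have : (r + 1) ^ 3 = r * (r + 1) ^ 2 + (r + 1) ^ 2 := by ring
    omega
  rw [e1, e2, e3, Nat.add_sub_cancel] at hsl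
  rw [Nat.add_sub_cancel]
  have hpos : 0 < ((r + 1) ^ 2 + (r + 1) + 1) * r := Nat.mul_pos (by positivity) (by omega)
  exact Nat.eq_of_mul_eq_mul_left hpos (by linear_combination hsl)

/-- The four possibilities for an overgroup. -/
theorem index_cases (h4 : Fintype.card F ≠ 4) (hN : norms θ ≤ M)
    (hM : M ≤ Cfsg.Geo.specialLinear (Fin 3) F) :
    M = norms θ ∨ M = Cfsg.Geo.specialLinear (Fin 3) F ∨
      Fintype.card F ^ 3 ∣ Nat.card M ∨
      Fintype.card F ^ 3 * Nat.card M = Nat.card (Cfsg.Geo.specialLinear (Fin 3) F) := by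
  classical
  set q := Fintype.card F
  have hq : 2 ≤ q := Fintype.one_lt_card
  have h10 : q ≠ 10 := fun h => by
    obtain ⟨p, n, hp, hn, hpn⟩ := (isPrimePow_nat_iff _).1 (FiniteField.isPrimePow_card F)
    have hp10 : p ∣ 2 * 5 := by rw [show 2 * 5 = p ^ n by rw [hpn]; exact h.symm]; exact dvd_pow_self p hn.ne'
    rcases (Nat.Prime.dvd_mul hp).1 hp10 with hd | hd
    · have := (Nat.prime_dvd_prime_iff_eq hp Nat.prime_two).1 hd
      have h5 : (5 : ℕ) ∣ p ^ n := by rw [show p ^ n = 10 from hpn.trans h]; norm_num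
      have := (Nat.prime_dvd_prime_iff_eq (by norm_num : Nat.Prime 5) hp).1
        ((by norm_num : Nat.Prime 5).dvd_of_dvd_pow h5)
      omega
    · have := (Nat.prime_dvd_prime_iff_eq hp (by norm_num : Nat.Prime 5)).1 hd
      have h5 : (2 : ℕ) ∣ p ^ n := by rw [show p ^ n = 10 from hpn.trans h]; norm_num
      have := (Nat.prime_dvd_prime_iff_eq Nat.prime_two hp).1 (Nat.prime_two.dvd_of_dvd_pow h5)
      omega
  set k := ((norms θ).subgroupOf M).index with hk
  set k' := (M.subgroupOf (Cfsg.Geo.specialLinear (Fin 3) F)).index with hk'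
  have hkk : k * k' = ((norms θ).subgroupOf (Cfsg.Geo.specialLinear (Fin 3) F)).index :=
    Subgroup.relIndex_mul_relIndex _ _ _ hN hM
  have h1 := index_modEq θ h3 hN hM
  have h2 := index_modEq θ h3 (le_sl θ h3) le_rfl
  rw [← hkk] at h2
  have h3' : k' ≡ 1 [MOD ord F] := by
    have := (h1.mul_right k').symm.trans h2
    rwa [one_mul] at this
  have heq := index_total θ h3 hq
  rw [← hkk] at heq
  have hcM : k * (3 * (q ^ 2 + q + 1)) = Nat.card M := by
    have h := ((norms θ).subgroupOf M).index_mul_card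
    rwa [Nat.card_congr (Subgroup.subgroupOfEquivOfLe hN).toEquiv, natCard_norms θ h3] at h
  have hcS : k' * Nat.card M = Nat.card (Cfsg.Geo.specialLinear (Fin 3) F) := by
    have h := (M.subgroupOf (Cfsg.Geo.specialLinear (Fin 3) F)).index_mul_card
    rwa [Nat.card_congr (Subgroup.subgroupOfEquivOfLe hM).toEquiv] at h
  rcases singer_arith hq h4 h10 (ord_spec _ rfl).1 heq h1 h3' with h | h | h | h
  · left
    exact le_antisymm (fun x hx => Subgroup.mem_subgroupOf.1
      ((Subgroup.index_eq_one.1 h).symm ▸ Subgroup.mem_top (⟨x, hx⟩ : M))) hN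
  · right; left
    exact le_antisymm hM fun x hx => Subgroup.mem_subgroupOf.1
      ((Subgroup.index_eq_one.1 h).symm ▸ Subgroup.mem_top (⟨x, hx⟩ : Cfsg.Geo.specialLinear (Fin 3) F))
  · exact Or.inr (Or.inr (Or.inl ⟨3 * (q ^ 2 + q + 1), by rw [← h, hcM]⟩))
  · exact Or.inr (Or.inr (Or.inr (by rw [← h, hcS])))

theorem span_cyc_invariant {W : Submodule F (Fin 3 → F)}
    (hW : ∀ g ∈ cyc θ, ∀ x ∈ W, (g : Matrix (Fin 3) (Fin 3) F) *ᵥ x ∈ W) :
    W = ⊥ ∨ W = ⊤ := by
  haveI := fd h3
  rcases eq_or_ne W ⊥ with h | h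
  · exact Or.inl h
  right
  obtain ⟨v, hv, hv0⟩ := Submodule.exists_mem_ne_zero_of_ne_bot h
  let A : AddSubgroup L :=
    { carrier := {l | ∀ x ∈ W, θ l *ᵥ x ∈ W}
      zero_mem' := fun x _ => by rw [map_zero, zero_mulVec]; exact W.zero_mem
      add_mem' := fun ha hb x hx => by rw [map_add, add_mulVec]; exact W.add_mem (ha x hx) (hb x hx)
      neg_mem' := fun ha x hx => by rw [map_neg, neg_mulVec]; exact W.neg_mem (ha x hx) }
  have hA : (⊤ : AddSubgroup L) ≤ A := by
    rw [← FieldExtMax.closure_norm_one (F := F) (L := L) (by omega), AddSubgroup.closure_le]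
    intro l hl x hx
    have hl1 : Algebra.norm F l = 1 := hl
    have hl0 : l ≠ 0 := by
      intro h0
      rw [h0, Algebra.norm_zero] at hl1
      exact zero_ne_one hl1
    exact hW _ ⟨Units.mk0 l hl0, MonoidHom.mem_ker.2 (Units.ext hl1), rfl⟩ x hx
  refine eq_top_iff.2 fun y _ => ?_
  obtain ⟨l, rfl⟩ := (bij θ h3 v hv0).2 y
  exact hA (AddSubgroup.mem_top l) v hv

/-- An overgroup of order divisible by `q³` is the special linear group. -/
theorem sl_le_of_cube_dvd (hN : norms θ ≤ M) (hM : M ≤ Cfsg.Geo.specialLinear (Fin 3) F)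
    (hd : Fintype.card F ^ 3 ∣ Nat.card M) : Cfsg.Geo.specialLinear (Fin 3) F ≤ M := by
  classical
  haveI := fd h3
  suffices hfull : ∃ b : Fin 3 → F, b ≠ 0 ∧ Full M b by
    obtain ⟨b, hb, hbf⟩ := hfull
    have hirr : ∀ W : Submodule F (Fin 3 → F),
        (∀ g ∈ M, ∀ x ∈ W, (g : Matrix (Fin 3) (Fin 3) F) *ᵥ x ∈ W) → W = ⊥ ∨ W = ⊤ :=
      fun W hW => span_cyc_invariant θ h3 fun g hg => hW g (hN (cyc_le_norms θ h3 hg))
    have htop : fullSubmodule M = ⊤ := by
      refine (hirr (fullSubmodule M) fun g hg x hx => Full.image hx hg).resolve_left fun h => hb ?_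
      have : b ∈ fullSubmodule M := hbf
      rwa [h, Submodule.mem_bot] at this
    exact specialLinear_le_of_full (S := (fullSubmodule M : Set (Fin 3 → F)))
      (by rw [Submodule.span_eq, htop]) fun x hx => hx
  obtain ⟨p, n, hp, hn, hpn⟩ := (isPrimePow_nat_iff _).1 (FiniteField.isPrimePow_card F)
  haveI : Fact p.Prime := ⟨hp⟩
  haveI : CharP F p := by
    obtain ⟨n', hn', hcard⟩ := FiniteField.card F (ringChar F)
    have hr : ringChar F = p := by
      have : ringChar F ∣ p ^ n := hpn ▸ hcard ▸ dvd_pow_self _ n'.pos.ne'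
      exact (Nat.prime_dvd_prime_iff_eq hn' hp).1 (hn'.dvd_of_dvd_pow this)
    exact hr ▸ ringChar.charP F
  set S := Cfsg.Geo.specialLinear (Fin 3) F
  set q := Fintype.card F
  -- the Sylow subgroups have order `q³`
  have hval : (Nat.card S).factorization p = 3 * n := by
    have hq : 2 ≤ q := Fintype.one_lt_card
    have h := natCard_sl (F := F)
    obtain ⟨r, hr⟩ : ∃ r, q = r + 1 := ⟨q - 1, by omega⟩
    have e1 : q ^ 3 - q = q * (r * (r + 2)) := by
      have : q ^ 3 = q * (r * (r + 2)) + q := by rw [hr]; ring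
      omega
    have e2 : q ^ 3 - q ^ 2 = q ^ 2 * r := by
      have : q ^ 3 = q ^ 2 * r + q ^ 2 := by rw [hr]; ring
      omega
    have e0 : q ^ 3 - 1 = r * (q ^ 2 + q + 1) := by
      have : q ^ 3 = r * (q ^ 2 + q + 1) + 1 := by rw [hr]; ring
      omega
    rw [e0, e1, e2, show q - 1 = r by omega] at h
    have hS : Nat.card S = q ^ 3 * (r * (r * (r + 2)) * (q ^ 2 + q + 1)) :=
      Nat.eq_of_mul_eq_mul_right (show 0 < r by omega) (by linear_combination h)
    have hpq : p ∣ q := hpn ▸ dvd_pow_self p hn.ne'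
    have hnd : ¬ p ∣ r * (r * (r + 2)) * (q ^ 2 + q + 1) := by
      intro hh
      have h1 : ∀ x, p ∣ x → p ∣ x + 1 → False := fun x ha hb =>
        hp.one_lt.ne' (Nat.dvd_one.1 ((Nat.dvd_add_right ha).1 hb))
      rcases (Nat.Prime.dvd_mul hp).1 hh with hh | hh
      · rcases (Nat.Prime.dvd_mul hp).1 hh with hh | hh
        · exact h1 r hh (hr ▸ hpq)
        · rcases (Nat.Prime.dvd_mul hp).1 hh with hh | hh
          · exact h1 r hh (hr ▸ hpq)
          · exact h1 q hpq (hr ▸ hh)
      · exact h1 (q ^ 2 + q) (dvd_add (dvd_pow hpq two_ne_zero) hpq) hh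
    rw [hS, Nat.factorization_mul (by positivity)
      (Nat.mul_ne_zero (Nat.mul_ne_zero (by omega) (Nat.mul_ne_zero (by omega) (by omega))) (by positivity)),
      Finsupp.add_apply, Nat.factorization_eq_zero_of_not_dvd hnd, ← hpn, ← pow_mul,
      hp.factorization_pow, Finsupp.single_eq_same, add_zero, mul_comm]
  -- a Sylow subgroup inside `M`
  obtain ⟨Q, hQ⟩ := Sylow.exists_subgroup_card_pow_prime p (G := M) (n := 3 * n)
    (by rw [mul_comm 3 n, pow_mul, hpn]; exact hd)
  let QS : Subgroup S := (Q.map M.subtype).subgroupOf S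
  have hQS : Nat.card QS = p ^ (Nat.card S).factorization p := by
    rw [Nat.card_congr (Subgroup.subgroupOfEquivOfLe ((Subgroup.map_subtype_le Q).trans hM)).toEquiv,
      Subgroup.card_map_of_injective M.subtype_injective, hQ, hval]
  let P' : Sylow p S := Sylow.ofCard QS hQS
  -- the transvections with one centre
  set a : Fin 3 → F := Pi.single 0 1
  have ha : a ≠ 0 := by simp [a]
  let W : Submodule F (Module.Dual F (Fin 3 → F)) := LinearMap.ker (Module.Dual.eval F (Fin 3 → F) a)
  have hmem : ∀ φ : W, φ.1 a = 0 := fun φ => φ.2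
  let T : Subgroup S :=
    { carrier := {t | ∃ φ : W, (t : GL (Fin 3) F) = transv (hmem φ)}
      one_mem' := ⟨0, ext_mulVec fun x => by simp [transv_mulVec]⟩
      mul_mem' := by
        rintro s t ⟨φ, hφ⟩ ⟨ψ, hψ⟩
        exact ⟨φ + ψ, by rw [Subgroup.coe_mul, hφ, hψ, transv_mul_left] <;> rfl⟩
      inv_mem' := by
        rintro t ⟨φ, hφ⟩
        exact ⟨-φ, by rw [Subgroup.coe_inv, hφ, transv_inv] <;> rfl⟩ }
  have hpow : ∀ (k : ℕ) (φ : W), transv (hmem φ) ^ k = transv (hmem (k • φ)) := by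
    intro k
    induction k with
    | zero => intro φ; exact ext_mulVec fun x => by simp [transv_mulVec]
    | succ k ih =>
      intro φ
      rw [pow_succ, ih, transv_mul_left]
      exact transv_congr _ _ fun x => by rw [succ_nsmul]; rfl
  have hT : IsPGroup p T := by
    rintro ⟨t, φ, hφ⟩
    refine ⟨1, Subtype.ext (Subtype.ext ?_)⟩
    simp only [SubmonoidClass.coe_pow, Subgroup.coe_one]
    rw [hφ, pow_one, hpow]
    refine ext_mulVec fun x => ?_
    rw [transv_mulVec, ← Nat.cast_smul_eq_nsmul F, CharP.cast_eq_zero, zero_smul]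
    simp
  obtain ⟨P, hP⟩ := hT.exists_le_sylow
  obtain ⟨g, hg⟩ := MulAction.exists_smul_eq S P P'
  refine ⟨(g.1 : Matrix (Fin 3) (Fin 3) F) *ᵥ a, fun h => ha ?_, fun ψ hψ => ?_⟩
  · rw [← inv_mulVec_mulVec g.1 a, h, mulVec_zero]
  · set φ : Module.Dual F (Fin 3 → F) := ψ ∘ₗ Matrix.toLin' (g.1 : Matrix (Fin 3) (Fin 3) F) with hφ
    have hφa : φ a = 0 := by rwa [hφ, LinearMap.comp_apply, Matrix.toLin'_apply]
    refine ⟨hψ, ?_⟩
    set t : S := ⟨transv hφa, transv_mem_specialLinear hφa⟩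
    have h1 : (MulAut.conj g • t) ∈ (g • P : Sylow p S) := by
      show _ ∈ MulAut.conj g • (P : Subgroup S)
      exact Subgroup.smul_mem_pointwise_smul _ _ _ (hP ⟨⟨φ, hφa⟩, rfl⟩)
    rw [hg] at h1
    have h2 : ((MulAut.conj g • t : S) : GL (Fin 3) F) ∈ Q.map M.subtype := h1
    have h3' : ((MulAut.conj g • t : S) : GL (Fin 3) F) = transv hψ :=
      conj_transv g.1 hφa hψ rfl fun x => rfl
    exact h3' ▸ Subgroup.map_subtype_le Q h2

end CfsgLib.SLThree90.Singer
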