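import Cfsg.Agent.SLThree90.SingerSolvable

/-!
In odd characteristic no overgroup of the normaliser of a cubic field, without transvections, has
an involution: the axes of the involutions would be given by the trace form of the field.
-/

set_option autoImplicit false
set_option linter.unusedSectionVars false

namespace CfsgLib.SLThree90.Singer

open Matrix Module CfsgLib.TransvGL CfsgLib.FullCentres

variable {F L : Type*} [Field F] [Fintype F] [Field L] [Algebra F L] [Finite L]
variable (θ : L →ₐ[F] Matrix (Fin 3) (Fin 3) F) (h3 : finrank F L = 3)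
variable {M : Subgroup (GL (Fin 3) F)}

/-- An involutory homology in `M` with centre `P` and functional `φ`. -/
def Homology (M : Subgroup (GL (Fin 3) F)) (P : Fin 3 → F) (φ : Module.Dual F (Fin 3 → F)) : Prop :=
  P ≠ 0 ∧ φ P = 2 ∧
    ∃ t ∈ M, ∀ x, (t : Matrix (Fin 3) (Fin 3) F) *ᵥ x = -x + φ x • P

theorem Homology.unique (hno : ∀ a φ, Has M a φ → a = 0 ∨ φ = 0) {P : Fin 3 → F}
    {φ ψ : Module.Dual F (Fin 3 → F)} (h : Homology M P φ) (h' : Homology M P ψ) : φ = ψ := by
  obtain ⟨hP, hφ, t, ht, htx⟩ := h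
  obtain ⟨-, hψ, t', ht', htx'⟩ := h'
  have hker : (ψ - φ) P = 0 := by rw [LinearMap.sub_apply, hφ, hψ, sub_self]
  have hh : Has M P (ψ - φ) := by
    refine ⟨hker, ?_⟩
    convert M.mul_mem ht ht' using 1
    refine ext_mulVec fun x => ?_
    rw [transv_mulVec, Units.val_mul, ← mulVec_mulVec, htx', htx, map_add, map_neg, map_smul, hφ,
      LinearMap.sub_apply, smul_eq_mul]
    module
  rcases hno _ _ hh with h | h
  · exact absurd h hP
  · exact (sub_eq_zero.1 h).symm

theorem Homology.conj {P : Fin 3 → F} {φ : Module.Dual F (Fin 3 → F)} (h : Homology M P φ)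
    {g : GL (Fin 3) F} (hg : g ∈ M) :
    Homology M ((g : Matrix (Fin 3) (Fin 3) F) *ᵥ P)
      (φ ∘ₗ Matrix.toLin' ((g⁻¹ : GL (Fin 3) F) : Matrix (Fin 3) (Fin 3) F)) := by
  obtain ⟨hP, hφ, t, ht, htx⟩ := h
  refine ⟨fun h0 => hP ?_, ?_, g * t * g⁻¹, M.mul_mem (M.mul_mem hg ht) (M.inv_mem hg), fun x => ?_⟩
  · rw [← inv_mulVec_mulVec g P, h0, mulVec_zero]
  · rw [LinearMap.comp_apply, Matrix.toLin'_apply, inv_mulVec_mulVec, hφ]
  · rw [Units.val_mul, Units.val_mul, ← mulVec_mulVec, ← mulVec_mulVec, htx, mulVec_add, mulVec_neg,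
      mulVec_smul, mulVec_inv_mulVec, LinearMap.comp_apply, Matrix.toLin'_apply]

theorem Homology.smul {P : Fin 3 → F} {φ : Module.Dual F (Fin 3 → F)} (h : Homology M P φ) {s : F}
    (hs : s ≠ 0) : Homology M (s • P) (s⁻¹ • φ) := by
  obtain ⟨hP, hφ, t, ht, htx⟩ := h
  refine ⟨smul_ne_zero hs hP, ?_, t, ht, fun x => ?_⟩
  · rw [LinearMap.smul_apply, map_smul, hφ, smul_eq_mul, smul_eq_mul, inv_mul_cancel_left₀ hs]
  · rw [htx, LinearMap.smul_apply, smul_eq_mul, smul_smul, mul_assoc, mul_comm (φ x) s,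
      inv_mul_cancel_left₀ hs]

/-- A rank one endomorphism. -/
theorem exists_rank_one {f : (Fin 3 → F) →ₗ[F] (Fin 3 → F)}
    (h : finrank F (LinearMap.range f) = 1) :
    ∃ (v : Fin 3 → F) (φ : Module.Dual F (Fin 3 → F)), v ≠ 0 ∧ φ ≠ 0 ∧ ∀ x, f x = φ x • v := by
  obtain ⟨⟨v, hv⟩, hv0, hspan⟩ := finrank_eq_one_iff'.1 h
  choose c hc using fun x => hspan ⟨f x, LinearMap.mem_range_self f x⟩
  have hv' : v ≠ 0 := fun h0 => hv0 (Subtype.ext h0)
  have hc' : ∀ x, f x = c x • v := fun x => (congrArg Subtype.val (hc x)).symm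
  refine ⟨v, { toFun := c, map_add' := fun x y => ?_, map_smul' := fun s x => ?_ }, hv', fun h0 => ?_,
    hc'⟩
  · apply smul_left_injective F hv'
    show c (x + y) • v = (c x + c y) • v
    rw [add_smul, ← hc', ← hc', ← hc', map_add]
  · apply smul_left_injective F hv'
    show c (s • x) • v = (s * c x) • v
    rw [mul_smul, ← hc', ← hc', map_smul]
  · obtain ⟨y, hy⟩ := hv
    have hcy : c y = 0 := LinearMap.congr_fun h0 y
    rw [hc', hcy, zero_smul] at hy
    exact hv' hy.symm

/-- An involution is a homology. -/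
theorem exists_homology (h2 : (2 : F) ≠ 0) {t : GL (Fin 3) F} (ht : t ∈ M)
    (hdet : (t : Matrix (Fin 3) (Fin 3) F).det = 1) (ht1 : t ≠ 1) (htt : t * t = 1) :
    ∃ P φ, Homology M P φ := by
  set T := Matrix.toLin' (t : Matrix (Fin 3) (Fin 3) F) with hT
  have hTT : ∀ x, T (T x) = x := fun x => by
    rw [hT, Matrix.toLin'_apply, Matrix.toLin'_apply, mulVec_mulVec, ← Units.val_mul, htt,
      Units.val_one, one_mulVec]
  set A : (Fin 3 → F) →ₗ[F] (Fin 3 → F) := LinearMap.id + T with hA
  set B : (Fin 3 → F) →ₗ[F] (Fin 3 → F) := LinearMap.id - T with hB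
  have hrange : LinearMap.ker A = LinearMap.range B := by
    apply le_antisymm
    · intro x hx
      rw [LinearMap.mem_ker, hA, LinearMap.add_apply, LinearMap.id_apply] at hx
      refine ⟨(2 : F)⁻¹ • x, ?_⟩
      rw [map_smul, hB, LinearMap.sub_apply, LinearMap.id_apply, eq_neg_of_add_eq_zero_right hx,
        sub_neg_eq_add, ← two_smul F, inv_smul_smul₀ h2]
    · rintro _ ⟨x, rfl⟩
      rw [LinearMap.mem_ker, hA, hB, LinearMap.add_apply, LinearMap.id_apply, LinearMap.sub_apply,
        LinearMap.id_apply, map_sub, hTT]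
      abel
  have hsum := LinearMap.finrank_range_add_finrank_ker A
  rw [hrange, Module.finrank_fin_fun] at hsum
  have hAx : ∀ x, A x = x + T x := fun x => rfl
  have hBx : ∀ x, B x = x - T x := fun x => rfl
  have hk0 : finrank F (LinearMap.range A) ≠ 0 := by
    intro h
    rw [Submodule.finrank_eq_zero, LinearMap.range_eq_bot] at h
    have hTn : T = (-1 : F) • LinearMap.id := LinearMap.ext fun x => by
      have := LinearMap.congr_fun h x
      rw [hAx, LinearMap.zero_apply] at this
      rw [eq_neg_of_add_eq_zero_right this, LinearMap.smul_apply, LinearMap.id_apply, neg_one_smul]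
    have := congrArg LinearMap.det hTn
    rw [hT, LinearMap.det_toLin', hdet, LinearMap.det_smul, LinearMap.det_id, Module.finrank_fin_fun,
      mul_one] at this
    exact h2 (by linear_combination this)
  have hk3 : finrank F (LinearMap.range B) ≠ 0 := by
    intro h
    rw [Submodule.finrank_eq_zero, LinearMap.range_eq_bot] at h
    refine ht1 (ext_mulVec fun x => ?_)
    have := LinearMap.congr_fun h x
    rw [hBx, LinearMap.zero_apply, sub_eq_zero] at this
    rw [Units.val_one, one_mulVec]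
    exact this.symm
  by_cases hk : finrank F (LinearMap.range A) = 1
  · obtain ⟨v, φ, hv, hφ, hf⟩ := exists_rank_one hk
    refine ⟨v, φ, hv, ?_, t, ht, fun x => ?_⟩
    · obtain ⟨y, hy⟩ : ∃ y, φ y ≠ 0 := by
        by_contra! h
        exact hφ (LinearMap.ext h)
      have h1 : A (A y) = (2 : F) • A y := by
        rw [hAx, hAx, map_add, hTT, two_smul]; abel
      rw [hf y, map_smul, hf v, smul_smul, smul_smul] at h1
      exact mul_left_cancel₀ hy ((smul_left_injective F hv h1).trans (mul_comm _ _))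
    · rw [← hf, hAx, neg_add_cancel_left, hT, Matrix.toLin'_apply]
  exfalso
  have hB1 : finrank F (LinearMap.range B) = 1 := by omega
  obtain ⟨v, φ, hv, hφ, hf⟩ := exists_rank_one hB1
  have hTeq : T = LinearMap.transvection (-φ) v := LinearMap.ext fun x => by
    rw [LinearMap.transvection.apply, LinearMap.neg_apply, neg_smul, ← hf, hBx]
    abel
  have h1 : φ v = 0 := by
    have := congrArg LinearMap.det hTeq
    rw [hT, LinearMap.det_toLin', hdet, LinearMap.transvection.det, LinearMap.neg_apply] at this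
    linear_combination this
  obtain ⟨y, hy⟩ : ∃ y, φ y ≠ 0 := by
    by_contra! h
    exact hφ (LinearMap.ext h)
  have h1' : B (B y) = (2 : F) • B y := by
    rw [hBx, hBx, map_sub, hTT, two_smul]; abel
  rw [hf y, map_smul, hf v, h1, zero_smul, smul_zero, smul_smul] at h1'
  exact smul_ne_zero (mul_ne_zero h2 hy) hv h1'.symm

include h3

theorem exists_cube_root (a : F) (ha : a ≠ 0) :
    ∃ (w : L) (μ : F), w ≠ 0 ∧ μ ^ 3 = 1 ∧ w ^ Fintype.card F = μ • w ∧ Algebra.norm F w = a := by
  classical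
  haveI := fd h3
  haveI : Fintype L := Fintype.ofFinite L
  set q := Fintype.card F
  have hq : 1 < q := Fintype.one_lt_card
  by_cases h : q % 3 = 1
  · set u : Lˣ := Units.map (algebraMap F L : F →* L) (Units.mk0 a ha)
    have hcubes : ∃ v : Lˣ, v ^ 3 = u := by
      obtain ⟨g, hg⟩ := IsCyclic.exists_generator (α := Lˣ)
      obtain ⟨k, hk⟩ := (Submonoid.mem_powers_iff _ g).1 (mem_powers_iff_mem_zpowers.2 (hg u))
      have hord : orderOf g = q ^ 3 - 1 := by
        rw [orderOf_eq_card_of_forall_mem_zpowers hg, Nat.card_units, natCard_field h3]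
      obtain ⟨s, hs⟩ : ∃ s, q = 3 * s + 1 := ⟨q / 3, by omega⟩
      have hu : u ^ (q - 1) = 1 := Units.ext (by
        have := FiniteField.pow_card_sub_one_eq_one a ha
        simp only [u, Units.coe_map, MonoidHom.coe_coe, Units.val_pow_eq_pow_val, Units.val_mk0,
          ← map_pow, Units.val_one]
        rw [show a ^ (q - 1) = 1 from this, map_one])
      rw [← hk, ← pow_mul] at hu
      have hdvd := orderOf_dvd_of_pow_eq_one hu
      rw [hord, show q - 1 = 3 * s by omega,
        show q ^ 3 - 1 = 3 * s * (3 * (3 * s ^ 2 + 3 * s + 1)) by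
          have : q ^ 3 = 3 * s * (3 * (3 * s ^ 2 + 3 * s + 1)) + 1 := by rw [hs]; ring
          omega, mul_comm k] at hdvd
      obtain ⟨j, hj⟩ := (Dvd.intro _ rfl).trans (Nat.dvd_of_mul_dvd_mul_left (by omega) hdvd)
      exact ⟨g ^ j, by rw [← pow_mul, ← hk, hj, mul_comm]⟩
    obtain ⟨v, hv⟩ := hcubes
    have hv3 : (v : L) ^ 3 = algebraMap F L a := congrArg Units.val hv
    have hμ3 : ((v : L) ^ (q - 1)) ^ 3 = 1 := by
      rw [← pow_mul, mul_comm, pow_mul, hv3, ← map_pow, FiniteField.pow_card_sub_one_eq_one a ha, map_one]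
    have hfix : ((v : L) ^ (q - 1)) ^ q = (v : L) ^ (q - 1) := by
      obtain ⟨s, hs⟩ : ∃ s, q = 3 * s + 1 := ⟨q / 3, by omega⟩
      generalize hy : (v : L) ^ (q - 1) = y at hμ3 ⊢
      rw [hs, pow_succ, pow_mul, hμ3, one_pow, one_mul]
    obtain ⟨μ, hμ⟩ : (v : L) ^ (q - 1) ∈ (algebraMap F L).range := by
      have hmem : (v : L) ^ (q - 1) ∈ (⊥ : IntermediateField F L) := by
        rw [IsGalois.mem_bot_iff_fixed]
        intro σ
        obtain ⟨n, hn⟩ := (FiniteField.bijective_frobeniusAlgHom_pow F L).2 σ.toAlgHom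
        have key : ∀ k : ℕ, (FiniteField.frobeniusAlgHom F L ^ k) ((v : L) ^ (q - 1)) = (v : L) ^ (q - 1) := by
          intro k
          induction k with
          | zero => rfl
          | succ k ih =>
            rw [pow_succ]
            show (FiniteField.frobeniusAlgHom F L ^ k) (((v : L) ^ (q - 1)) ^ q) = _
            rw [hfix, ih]
        have := DFunLike.congr_fun hn ((v : L) ^ (q - 1))
        exact this.symm.trans (key _)
      exact IntermediateField.mem_bot.1 hmem
    have hμ1 : μ ^ 3 = 1 := (algebraMap F L).injective (by rw [map_pow, hμ, hμ3, map_one])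
    refine ⟨v, μ, v.ne_zero, hμ1, ?_, ?_⟩
    · rw [Algebra.smul_def, hμ, ← pow_succ, show q - 1 + 1 = q by omega]
    · apply (algebraMap F L).injective
      rw [FiniteField.algebraMap_norm_eq_pow, natCard_field h3, Nat.card_eq_fintype_card]
      have he : (q ^ 3 - 1) / (q - 1) = (q - 1) * (q + 2) + 3 := by
        refine Nat.div_eq_of_eq_mul_left (by omega) ?_
        obtain ⟨r, hr⟩ : ∃ r, q = r + 1 := ⟨q - 1, by omega⟩
        rw [hr, Nat.add_sub_cancel]
        have : (r + 1) ^ 3 = (r * (r + 1 + 2) + 3) * r + 1 := by ring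
        omega
      rw [he, pow_add, pow_mul, hv3, show q + 2 = 3 * ((q + 2) / 3) by omega, pow_mul, hμ3, one_pow,
        one_mul]
  · have hcop : Nat.Coprime 3 (Nat.card Fˣ) := by
      rw [Nat.card_units, Nat.card_eq_fintype_card, Nat.prime_three.coprime_iff_not_dvd]
      intro hd
      have hq' : 1 < Fintype.card F := hq
      omega
    obtain ⟨s, hs⟩ := (powCoprime hcop.symm).surjective (Units.mk0 a ha)
    refine ⟨algebraMap F L (s : F), 1, by simp, one_pow 3, ?_, ?_⟩
    · rw [one_smul, ← map_pow, FiniteField.pow_card]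
    · rw [Algebra.norm_algebraMap, h3]
      exact congrArg Units.val hs

/-- A norm one element of trace zero. -/
theorem exists_trace_zero : ∃ z : L, Algebra.norm F z = 1 ∧ Algebra.trace F L z = 0 := by
  classical
  haveI := fd h3
  set q := Fintype.card F
  obtain ⟨b, hb⟩ : ∃ b : F, ∀ x : F, x ^ 3 + b * x - 1 ≠ 0 := by
    by_contra! h
    choose x hx using h
    have hx0 : ∀ b, x b ≠ 0 := fun b h0 => by
      have := hx b
      rw [h0] at this
      norm_num at this
    have hinj : Function.Injective fun b => Units.mk0 (x b) (hx0 b) := fun b b' he => by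
      have he' : x b = x b' := congrArg Units.val he
      have h1 := hx b
      have h2 := hx b'
      rw [← he'] at h2
      exact mul_right_cancel₀ (hx0 b) (by linear_combination h1 - h2)
    have h1 := Nat.card_le_card_of_injective _ hinj
    rw [Nat.card_units, Nat.card_eq_fintype_card] at h1
    have : 1 < Fintype.card F := Fintype.one_lt_card
    omega
  set f : Polynomial F := Polynomial.X ^ 3 + Polynomial.C b * Polynomial.X - 1 with hf
  have hdeg : f.natDegree = 3 := by rw [hf]; compute_degree!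
  have hmon : f.Monic := by rw [hf]; monicity!
  have hirr : Irreducible f := by
    rw [Polynomial.irreducible_iff_roots_eq_zero_of_degree_le_three (by omega) (by omega)]
    refine Multiset.eq_zero_of_forall_notMem fun x hx => hb x ?_
    have := (Polynomial.mem_roots'.1 hx).2
    simpa [hf, Polynomial.IsRoot] using this
  haveI : Fact (Irreducible f) := ⟨hirr⟩
  have hfr : finrank F (AdjoinRoot f) = 3 := by
    rw [(AdjoinRoot.powerBasis hirr.ne_zero).finrank, AdjoinRoot.powerBasis_dim, hdeg]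
  obtain ⟨e⟩ := FiniteField.nonempty_algHom_of_finrank_dvd (F := F) (K := AdjoinRoot f) (L := L)
    (by rw [hfr, h3])
  haveI : FiniteDimensional F (AdjoinRoot f) := Module.finite_of_finrank_eq_succ hfr
  have hbe : Function.Bijective e := by
    refine ⟨e.toRingHom.injective, ?_⟩
    exact (LinearMap.injective_iff_surjective_of_finrank_eq_finrank (f := e.toLinearMap)
      (by rw [hfr, h3])).1 e.toRingHom.injective
  set E := AlgEquiv.ofBijective e hbe
  set pb := AdjoinRoot.powerBasis hirr.ne_zero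
  have hgen : pb.gen = AdjoinRoot.root f := AdjoinRoot.powerBasis_gen _
  have hdim : pb.dim = 3 := by rw [AdjoinRoot.powerBasis_dim, hdeg]
  have hmp : minpoly F pb.gen = f := by
    rw [hgen, AdjoinRoot.minpoly_root hirr.ne_zero, hmon.leadingCoeff, inv_one, Polynomial.C_1, mul_one]
  refine ⟨E (AdjoinRoot.root f), ?_, ?_⟩
  · rw [Algebra.norm_eq_of_algEquiv, ← hgen, Algebra.PowerBasis.norm_gen_eq_coeff_zero_minpoly, hmp, hdim, hf]
    simp
    norm_num
  · rw [Algebra.trace_eq_of_algEquiv, ← hgen, PowerBasis.trace_gen_eq_nextCoeff_minpoly, hmp,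
      Polynomial.nextCoeff, hdeg, if_neg (by norm_num), hf]
    simp [Polynomial.coeff_one]

/-- There is no involution in an overgroup without transvections. -/
theorem false_of_involution (h2 : (2 : F) ≠ 0) (hN : norms θ ≤ M)
    (hM : M ≤ Cfsg.Geo.specialLinear (Fin 3) F) (hno : ∀ a φ, Has M a φ → a = 0 ∨ φ = 0)
    {t : GL (Fin 3) F} (ht : t ∈ M) (ht1 : t ≠ 1) (htt : t * t = 1) : False := by
  classical
  haveI := fd h3
  set v₀ : Fin 3 → F := Pi.single 0 1
  have hv₀ : v₀ ≠ 0 := by simp [v₀]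
  set e := lineEquiv θ h3 v₀ hv₀ with he
  have hee : ∀ x, e x = θ x *ᵥ v₀ := fun x => rfl
  obtain ⟨P, φ, hP⟩ := exists_homology h2 ht (mem_sl.1 (hM ht)) ht1 htt
  obtain ⟨x, hx⟩ := e.surjective P
  have hx0 : x ≠ 0 := fun h => hP.1 (by rw [← hx, h, map_zero])
  obtain ⟨w, μ, hw0, hμ3, hwq, hwN⟩ := exists_cube_root (L := L) h3 (Algebra.norm F x)
    (Algebra.norm_ne_zero_iff.2 hx0)
  have hμ0 : μ ≠ 0 := fun h => by rw [h, zero_pow three_ne_zero] at hμ3; exact zero_ne_one hμ3
  -- transport by the cycle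
  have hmul : ∀ (y : Lˣ), Algebra.norm F (y : L) = 1 → ∀ {Q : L} {ψ : Module.Dual F (Fin 3 → F)},
      Homology M (e Q) ψ →
        Homology M (e (y * Q)) (ψ ∘ₗ Matrix.toLin' (θ ((y⁻¹ : Lˣ) : L))) := by
    intro y hy Q ψ hQ
    have h := hQ.conj (hN (cyc_le_norms θ h3 ⟨y, MonoidHom.mem_ker.2 (Units.ext hy), rfl⟩))
    rwa [← map_inv, val_unit, val_unit, hee, mulVec_mulVec, ← map_mul, ← hee] at h
  obtain ⟨ψ, hW⟩ : ∃ ψ, Homology M (e w) ψ := by
    set y : Lˣ := Units.mk0 (w * x⁻¹) (mul_ne_zero hw0 (inv_ne_zero hx0))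
    have h := hmul y (by
      show Algebra.norm F (w * x⁻¹) = 1
      rw [map_mul, hwN, ← map_mul, mul_inv_cancel₀ hx0, map_one]) (Q := x) (hx.symm ▸ hP)
    rw [show (y : L) * x = w from by simp [y, hx0]] at h
    exact ⟨_, h⟩
  -- the functional of the centre `w`
  obtain ⟨g, hg⟩ := exists_frobenius θ h3
  set Φ : L →ₗ[F] F := ψ ∘ₗ e.toLinearMap
  have hΦq : ∀ z : L, Φ (z ^ Fintype.card F) = μ * Φ z := by
    intro z
    have h := (hW.conj (hN g.2)).smul (inv_ne_zero hμ0)
    rw [hee, (hg w).2, hwq, map_smul, smul_mulVec, inv_smul_smul₀ hμ0, inv_inv, ← hee] at h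
    have := LinearMap.congr_fun (Homology.unique hno h hW) (e (z ^ Fintype.card F))
    rw [LinearMap.smul_apply, LinearMap.comp_apply, Matrix.toLin'_apply, hee, ← (hg z).2,
      inv_mulVec_mulVec] at this
    rw [← smul_eq_mul]
    show ψ (θ (z ^ Fintype.card F) *ᵥ v₀) = μ • ψ (θ z *ᵥ v₀)
    rw [← (hg z).2]
    exact this.symm
  obtain ⟨u, hu⟩ := C3Max.exists_trace_eq Φ
  set φF := FiniteField.frobeniusAlgHom F L
  have hbij : Function.Bijective φF := φF.toRingHom.injective.bijective_of_finite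
  have htr : ∀ z, Algebra.trace F L (z ^ Fintype.card F) = Algebra.trace F L z := fun z =>
    Algebra.trace_eq_of_algEquiv (AlgEquiv.ofBijective φF hbij) z
  have huw : u * w ∈ (algebraMap F L).range := by
    have hu1 : u = μ • u ^ Fintype.card F := by
      refine C3Max.eq_of_trace (F := F) fun l => ?_
      obtain ⟨z, rfl⟩ := hbij.2 l
      show Algebra.trace F L (z ^ Fintype.card F * u) = Algebra.trace F L (z ^ Fintype.card F * _)
      rw [mul_comm, ← hu, hΦq, hu, Algebra.mul_smul_comm, map_smul, ← mul_pow, htr, smul_eq_mul,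
        mul_comm u]
    have hfix : (u * w) ^ Fintype.card F = u * w := by
      conv_rhs => rw [hu1]
      rw [mul_pow, hwq, Algebra.mul_smul_comm, Algebra.smul_mul_assoc]
    have hmem : u * w ∈ (⊥ : IntermediateField F L) := by
      rw [IsGalois.mem_bot_iff_fixed]
      intro σ
      obtain ⟨n, hn⟩ := (FiniteField.bijective_frobeniusAlgHom_pow F L).2 σ.toAlgHom
      have key : ∀ k : ℕ, (FiniteField.frobeniusAlgHom F L ^ k) (u * w) = u * w := by
        intro k
        induction k with
        | zero => rfl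
        | succ k ih =>
          rw [pow_succ]
          show (FiniteField.frobeniusAlgHom F L ^ k) ((u * w) ^ Fintype.card F) = _
          rw [hfix, ih]
      exact (DFunLike.congr_fun hn (u * w)).symm.trans (key _)
    exact IntermediateField.mem_bot.1 hmem
  obtain ⟨s, hs⟩ := huw
  have hΦ : ∀ z, Φ z = s * Algebra.trace F L (z * w⁻¹) := fun z => by
    rw [hu, show u * z = s • (z * w⁻¹) by rw [Algebra.smul_def, hs]; field_simp, map_smul, smul_eq_mul]
  have h3s : s * 3 = 2 := by
    have h : Φ w = 2 := hW.2.1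
    rwa [hΦ, mul_inv_cancel₀ hw0, ← map_one (algebraMap F L), Algebra.trace_algebraMap, h3,
      nsmul_eq_mul, mul_one] at h
  have h30 : (3 : F) ≠ 0 := fun h => h2 (by rw [← h3s, h, mul_zero])
  have hs0 : s ≠ 0 := fun h => h2 (by rw [← h3s, h, zero_mul])
  -- a second centre on the axis
  obtain ⟨z, hzN, hzT⟩ := exists_trace_zero (F := F) (L := L) h3
  have hz0 : z ≠ 0 := fun h => by rw [h, Algebra.norm_zero] at hzN; exact zero_ne_one hzN
  obtain ⟨hW1, hW2, t', ht', htx⟩ := id hW
  set χ : Module.Dual F (Fin 3 → F) :=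
    ψ ∘ₗ Matrix.toLin' (θ (((Units.mk0 z hz0)⁻¹ : Lˣ) : L))
  have hZ : Homology M (e (z * w)) χ := hmul (Units.mk0 z hz0) hzN hW
  have hψz : ψ (e (z * w)) = 0 := by
    have h := hΦ (z * w)
    rw [mul_inv_cancel_right₀ hw0, hzT, mul_zero] at h
    exact h
  have htz : (t' : Matrix (Fin 3) (Fin 3) F) *ᵥ e (z * w) = -e (z * w) := by
    rw [htx, hψz, zero_smul, add_zero]
  have htw : (t' : Matrix (Fin 3) (Fin 3) F) *ᵥ e w = e w := by
    rw [htx, hW2, two_smul]; abel
  have hχw : χ (e w) = 0 := by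
    have h := (hZ.conj ht').smul (show (-1 : F) ≠ 0 from neg_ne_zero.2 one_ne_zero)
    rw [htz, smul_neg, neg_one_smul, neg_neg] at h
    have h' := LinearMap.congr_fun (Homology.unique hno h hZ) (e w)
    rw [LinearMap.smul_apply, LinearMap.comp_apply, Matrix.toLin'_apply] at h'
    conv_lhs at h' => rw [← htw, inv_mulVec_mulVec, smul_eq_mul, inv_neg, inv_one, neg_one_mul]
    exact (mul_eq_zero.1 (show (2 : F) * χ (e w) = 0 by linear_combination -h')).resolve_left h2
  have hzinv : Algebra.trace F L z⁻¹ = 0 := by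
    have h : Φ (z⁻¹ * w) = 0 := by
      show ψ (e (z⁻¹ * w)) = 0
      rw [hee, map_mul, ← mulVec_mulVec, ← hee]
      simpa [χ, hee] using hχw
    rw [hΦ, mul_inv_cancel_right₀ hw0] at h
    exact (mul_eq_zero.1 h).resolve_left hs0
  -- then `z` is a cube root of one
  have hcube : z ^ 3 = 1 := by
    have t1 := FiniteField.algebraMap_trace_eq_sum_pow F L (x := z)
    have t2 := FiniteField.algebraMap_trace_eq_sum_pow F L (x := z⁻¹)
    have n1 := FiniteField.algebraMap_norm_eq_prod_pow (K := F) (L := L) (x := z)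
    rw [hzT, map_zero, h3] at t1
    rw [hzinv, map_zero, h3] at t2
    rw [hzN, map_one, h3] at n1
    simp only [Finset.sum_range_succ, Finset.sum_range_zero, Finset.prod_range_succ,
      Finset.prod_range_zero, zero_add, one_mul, pow_zero, pow_one, inv_pow] at t1 t2 n1
    set B := z ^ Nat.card F
    set C := z ^ Nat.card F ^ 2
    have hB0 : B ≠ 0 := pow_ne_zero _ hz0
    have hC0 : C ≠ 0 := pow_ne_zero _ hz0
    field_simp at t2
    linear_combination (-(z ^ 2)) * t1 + z * t2 - n1
  have hscal : Units.mk0 z hz0 ∈ scal (F := F) :=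
    scal_of_cube h3 (Units.ext hzN) (by
      rw [show Units.mk0 z hz0 ^ 3 = 1 from Units.ext hcube]; exact one_mem _)
  obtain ⟨c, hc⟩ := mem_scal.1 hscal
  rw [show z = algebraMap F L c from hc.symm, Algebra.trace_algebraMap, h3, nsmul_eq_mul] at hzT
  rcases mul_eq_zero.1 hzT with h | h
  · exact h30 (by exact_mod_cast h)
  · exact hz0 (by rw [show z = algebraMap F L c from hc.symm, h, map_zero])

end CfsgLib.SLThree90.Singer
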