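import Cfsg.Agent.SLThree90.SingerIndex

/-!
In even characteristic a solvable overgroup of index `q³` of the normaliser of a cubic field is
the normaliser itself.
-/

set_option autoImplicit false
set_option linter.unusedSectionVars false

namespace CfsgLib.SLThree90.Singer

open Matrix Module

variable {F L : Type*} [Field F] [Fintype F] [Field L] [Algebra F L] [Finite L]
variable (θ : L →ₐ[F] Matrix (Fin 3) (Fin 3) F) (h3 : finrank F L = 3)
variable {M : Subgroup (GL (Fin 3) F)}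

/-- The scalars of norm one as matrices. -/
noncomputable def scalMat : Subgroup (GL (Fin 3) F) :=
  ((nrm (F := F) (L := L)).ker ⊓ scal (F := F)).map (unit θ)

theorem scalMat_comm {z : GL (Fin 3) F} (hz : z ∈ scalMat θ) (g : GL (Fin 3) F) : g * z = z * g := by
  obtain ⟨x, hx, rfl⟩ := hz
  exact unit_mem_scal_center θ hx.2 g

theorem scalMat_le_cyc : scalMat θ ≤ cyc θ := Subgroup.map_mono inf_le_left

theorem natCard_of_cube_mul
    (hcard : Fintype.card F ^ 3 * Nat.card M = Nat.card (Cfsg.Geo.specialLinear (Fin 3) F)) {r : ℕ}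
    (hr : Fintype.card F = r + 1) :
    Nat.card M = r ^ 2 * (r + 2) * (Fintype.card F ^ 2 + Fintype.card F + 1) := by
  have hS := natCard_sl (F := F)
  set q := Fintype.card F
  have hr0 : 0 < r := by
    have : 1 < q := Fintype.one_lt_card
    omega
  have e1 : q ^ 3 - q = q * (r * (r + 2)) := by
    have : q ^ 3 = q * (r * (r + 2)) + q := by rw [hr]; ring
    omega
  have e2 : q ^ 3 - q ^ 2 = q ^ 2 * r := by
    have : q ^ 3 = q ^ 2 * r + q ^ 2 := by rw [hr]; ring
    omega
  have e0 : q ^ 3 - 1 = r * (q ^ 2 + q + 1) := by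
    have : q ^ 3 = r * (q ^ 2 + q + 1) + 1 := by rw [hr]; ring
    omega
  rw [← hcard, e0, e1, e2, show q - 1 = r by omega] at hS
  exact Nat.eq_of_mul_eq_mul_right hr0
    (Nat.eq_of_mul_eq_mul_left (show 0 < q ^ 3 by positivity) (by linear_combination hS))

include h3

theorem natCard_scalMat_dvd : Nat.card (scalMat θ) ∣ 3 := by
  rw [scalMat, Subgroup.card_map_of_injective (unit_injective θ)]
  have h : Nat.card ↥((nrm (F := F) (L := L)).ker ⊓ scal (F := F)) = Nat.card (scalOne F L) := by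
    refine Nat.card_congr
      ⟨fun x => ⟨⟨x.1, x.2.1⟩, x.2.2⟩, fun x => ⟨x.1.1, x.1.2, x.2⟩, fun x => rfl, fun x => rfl⟩
  rw [h, natCard_scalOne h3]
  split_ifs <;> norm_num

theorem exists_cyc_not_scal : ∃ x : Lˣ, nrm (F := F) x = 1 ∧ x ∉ scal (F := F) := by
  by_contra! h
  have h1 : scalOne F L = ⊤ := eq_top_iff.2 fun x _ => h x.1 x.2
  have h2 := index_scalOne (F := F) (L := L) h3
  rw [h1, Subgroup.index_top] at h2
  have h4 := (ord_spec (F := F) _ rfl).1
  rw [← h2, mul_one] at h4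
  have : 1 < Fintype.card F := Fintype.one_lt_card
  have : 2 ^ 2 ≤ Fintype.card F ^ 2 := Nat.pow_le_pow_left (by omega) 2
  split_ifs at h4 <;> omega

theorem conj_mem_cyc {g : GL (Fin 3) F} (hg : g ∈ norms θ) {c : GL (Fin 3) F} (hc : c ∈ cyc θ) :
    g * c * g⁻¹ ∈ cyc θ := by
  obtain ⟨⟨x, hx⟩, hsl⟩ := (mem_cyc θ h3).1 hc
  refine (mem_cyc θ h3).2 ⟨(hg.1 _).1 ⟨x, hx⟩, ?_⟩
  exact (Cfsg.Geo.specialLinear (Fin 3) F).mul_mem
    ((Cfsg.Geo.specialLinear (Fin 3) F).mul_mem hg.2 hsl) ((Cfsg.Geo.specialLinear (Fin 3) F).inv_mem hg.2)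

/-- An element commuting modulo scalars with a non-scalar of the cycle lies in the normaliser. -/
theorem mem_norms_of_comm {g : GL (Fin 3) F} (hg : g ∈ Cfsg.Geo.specialLinear (Fin 3) F) {x : Lˣ}
    (hx : x ∉ scal (F := F)) {z : GL (Fin 3) F} (hz : z ∈ scalMat θ)
    (h : g * unit θ x * g⁻¹ = z * unit θ x) : g ∈ norms θ := by
  refine ⟨mem_normalizer_of_le θ fun y => ?_, hg⟩
  obtain ⟨t, ht, rfl⟩ := hz
  obtain ⟨s, hs⟩ := mem_scal.1 ht.2
  refine mem_range_of_commute θ h3 (x := (x : L)) (fun hh => hx (mem_scal.2 hh)) ?_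
  have h' : (g : Matrix (Fin 3) (Fin 3) F) * θ (x : L) * ((g⁻¹ : GL (Fin 3) F) : Matrix (Fin 3) (Fin 3) F)
      = s • θ (x : L) := by
    have := congrArg Units.val h
    rw [Units.val_mul, Units.val_mul, Units.val_mul, val_unit, val_unit, ← hs, AlgHom.commutes,
      ← Algebra.smul_def] at this
    exact this
  have hs0 : s ≠ 0 := fun h0 => t.ne_zero (by rw [← hs, h0, map_zero])
  set A := (g : Matrix (Fin 3) (Fin 3) F) with hA
  set B := ((g⁻¹ : GL (Fin 3) F) : Matrix (Fin 3) (Fin 3) F) with hB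
  have hBA : B * A = 1 := by rw [hA, hB, ← Units.val_mul, inv_mul_cancel, Units.val_one]
  have hcomm : ∀ u v : L, A * θ u * B * (A * θ v * B) = A * θ v * B * (A * θ u * B) := by
    intro u v
    calc A * θ u * B * (A * θ v * B) = A * θ u * (B * A) * θ v * B := by simp only [mul_assoc]
      _ = A * θ (u * v) * B := by rw [hBA, map_mul]; simp only [mul_assoc, one_mul]
      _ = A * θ v * (B * A) * θ u * B := by rw [hBA, mul_comm u, map_mul]; simp only [mul_assoc, one_mul]
      _ = _ := by simp only [mul_assoc]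
  have h2 := hcomm y (x : L)
  rw [h', Matrix.mul_smul, Matrix.smul_mul] at h2
  exact smul_right_injective _ hs0 h2

/-- A normal subgroup of an overgroup, abelian modulo scalars, has the full cofactor as its order. -/
theorem card_of_normal (h4 : Fintype.card F ≠ 4) (hN : norms θ ≤ M)
    (hM : M ≤ Cfsg.Geo.specialLinear (Fin 3) F)
    (hcard : Fintype.card F ^ 3 * Nat.card M = Nat.card (Cfsg.Geo.specialLinear (Fin 3) F))
    (hne : ¬ M ≤ norms θ) {D : Subgroup (GL (Fin 3) F)} (hD : D ≤ M)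
    (hnorm : ∀ g ∈ M, ∀ d ∈ D, g * d * g⁻¹ ∈ D)
    (hab : ∀ a ∈ D, ∀ b ∈ D, a * b * a⁻¹ * b⁻¹ ∈ scalMat θ) (hDZ : ¬ D ≤ scalMat θ) :
    ∃ z, z ∣ 3 ∧ 3 * Nat.card D =
      (Fintype.card F - 1) ^ 2 * (Fintype.card F + 1) * z := by
  classical
  haveI := fd h3
  have ha : ∀ x : Lˣ, nrm (F := F) x = 1 → unit θ x ∈ D → x ∈ scal (F := F) := by
    intro x hx hxD
    by_contra hns
    refine hne fun g hg => ?_
    by_contra hgn
    set d := g * unit θ x * g⁻¹ with hd
    have hdn : d ∈ norms θ := by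
      refine mem_norms_of_comm θ h3 (hM (hD (hnorm g hg _ hxD))) hns (hab d (hnorm g hg _ hxD) _ hxD) ?_
      group
    refine hns (scal_of_conj_mem θ h3 (g := g⁻¹) ((Cfsg.Geo.specialLinear (Fin 3) F).inv_mem (hM hg))
      (fun h => hgn (by simpa using (norms θ).inv_mem h)) hx ?_)
    rwa [inv_inv]
  have hb : ∀ d ∈ D, d ∈ norms θ → d ∈ scalMat θ := by
    intro d hdD hdn
    by_cases hdc : d ∈ cyc θ
    · obtain ⟨x, hx, rfl⟩ := hdc
      exact ⟨x, ⟨hx, ha x hx hdD⟩, rfl⟩
    exfalso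
    obtain ⟨x, hx, hns⟩ := exists_cyc_not_scal (F := F) (L := L) h3
    have hxn : unit θ x ∈ norms θ := cyc_le_norms θ h3 ⟨x, hx, rfl⟩
    have hc1 : unit θ x * d * (unit θ x)⁻¹ * d⁻¹ ∈ cyc θ := by
      rw [show unit θ x * d * (unit θ x)⁻¹ * d⁻¹ = unit θ x * (d * (unit θ x)⁻¹ * d⁻¹) by group]
      exact (cyc θ).mul_mem ⟨x, hx, rfl⟩ (conj_mem_cyc θ h3 hdn ((cyc θ).inv_mem ⟨x, hx, rfl⟩))
    have hc2 : unit θ x * d * (unit θ x)⁻¹ * d⁻¹ ∈ D :=
      D.mul_mem (hnorm _ (hN hxn) _ hdD) (D.inv_mem hdD)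
    obtain ⟨y, hy, hyd⟩ := hc1
    have hys := ha y hy (hyd.symm ▸ hc2)
    refine hns (inv_mem_iff.1 (scal_of_comm θ h3 hdn hdc (x := x⁻¹)
      (by rw [map_inv, hx, inv_one]) hys ?_))
    rw [map_mul, hyd, map_inv]
    have hcen := unit_mem_scal_center θ hys ((unit θ x)⁻¹)
    rw [hyd] at hcen
    rw [← hcen]
    group
  -- the product with the normaliser
  let D' : Subgroup M := D.subgroupOf M
  let N' : Subgroup M := (norms θ).subgroupOf M
  haveI : D'.Normal := ⟨fun d hd g => hnorm g.1 g.2 d.1 hd⟩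
  set M₁ : Subgroup (GL (Fin 3) F) := (N' ⊔ D').map M.subtype
  have hN₁ : norms θ ≤ M₁ := fun x hx =>
    ⟨⟨x, hN hx⟩, Subgroup.mem_sup_left hx, rfl⟩
  have hM₁ : M₁ ≤ M := Subgroup.map_subtype_le _
  have hc : Nat.card M₁ * Nat.card (D'.subgroupOf N') = Nat.card D * Nat.card (norms θ) := by
    rw [Subgroup.card_map_of_injective M.subtype_injective]
    have h1 := (D'.subgroupOf (N' ⊔ D')).index_mul_card
    have h2 : (D'.subgroupOf (N' ⊔ D')).index = (D'.subgroupOf N').index :=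
      Subgroup.relIndex_sup_right N' D'
    have h5 := (D'.subgroupOf N').index_mul_card
    rw [Nat.card_congr (Subgroup.subgroupOfEquivOfLe (le_sup_right : D' ≤ N' ⊔ D')).toEquiv,
      Nat.card_congr (Subgroup.subgroupOfEquivOfLe hD).toEquiv, h2] at h1
    rw [Nat.card_congr (Subgroup.subgroupOfEquivOfLe hN).toEquiv] at h5
    rw [← h1, ← h5]; ring
  have hz : Nat.card (D'.subgroupOf N') ∣ 3 := by
    let f : D'.subgroupOf N' →* scalMat θ :=
      { toFun := fun d => ⟨d.1.1.1, hb _ d.2 d.1.2⟩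
        map_one' := rfl
        map_mul' := fun _ _ => rfl }
    have hf : Function.Injective f := fun a b h =>
      Subtype.ext (Subtype.ext (Subtype.ext (congrArg (fun z : scalMat θ => (z : GL (Fin 3) F)) h)))
    exact (Subgroup.card_dvd_of_injective f hf).trans (natCard_scalMat_dvd θ h3)
  refine ⟨_, hz, ?_⟩
  set q := Fintype.card F
  have hq : 2 ≤ q := Fintype.one_lt_card
  -- the order of the product
  obtain ⟨r, hr⟩ : ∃ r, q = r + 1 := ⟨q - 1, by omega⟩
  have hcm : Nat.card M = r ^ 2 * (r + 2) * (q ^ 2 + q + 1) := natCard_of_cube_mul hcard hr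
  have hndvd : ¬ q ^ 3 ∣ Nat.card M := by
    intro h
    have hco : ∀ x, q ∣ x → Nat.Coprime q (x + 1) := by
      rintro x ⟨y, rfl⟩
      simp
    have hr1 : Nat.Coprime q r := by rw [hr]; simp
    have hr2 : Nat.Coprime q (r + 2) := by
      rw [show r + 2 = q + 1 by omega]; exact hco q dvd_rfl
    have hr3 : Nat.Coprime q (q ^ 2 + q + 1) := hco _ (dvd_add (dvd_pow_self q two_ne_zero) dvd_rfl)
    have hall : Nat.Coprime (q ^ 3) (r ^ 2 * (r + 2) * (q ^ 2 + q + 1)) :=
      Nat.Coprime.pow_left 3 (((hr1.pow_right 2).mul_right hr2).mul_right hr3)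
    rw [hcm] at h
    have h1 : 2 ^ 3 ≤ q ^ 3 := Nat.pow_le_pow_left hq 3
    rw [hall.eq_one_of_dvd h] at h1
    norm_num at h1
  have hM₁card : Nat.card M₁ = Nat.card M := by
    rcases index_cases θ h3 h4 hN₁ (hM₁.trans hM) with h | h | h | h
    · refine absurd (fun d hd => hb d hd ?_) hDZ
      rw [← h]
      exact ⟨⟨d, hD hd⟩, Subgroup.mem_sup_right hd, rfl⟩
    · rw [le_antisymm hM₁ (h ▸ hM)]
    · exact absurd (h.trans (Subgroup.card_dvd_of_le hM₁)) hndvd
    · exact Nat.eq_of_mul_eq_mul_left (show 0 < q ^ 3 by positivity) (h.trans hcard.symm)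
  rw [hM₁card, hcm, natCard_norms θ h3] at hc
  have hr' : q - 1 = r := by omega
  rw [hr', show q + 1 = r + 2 by omega]
  exact Nat.eq_of_mul_eq_mul_left (show 0 < q ^ 2 + q + 1 by positivity) (by linear_combination hc.symm)

/-- A solvable overgroup of index `q³` in even characteristic is the normaliser. -/
theorem le_norms_of_solvable (h4 : Fintype.card F ≠ 4) (heven : Even (Fintype.card F))
    (hN : norms θ ≤ M) (hM : M ≤ Cfsg.Geo.specialLinear (Fin 3) F)
    (hcard : Fintype.card F ^ 3 * Nat.card M = Nat.card (Cfsg.Geo.specialLinear (Fin 3) F))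
    (hsolv : Group.IsSolvable M) : M ≤ norms θ := by
  classical
  by_contra hne
  set Z : Subgroup M := (scalMat θ).subgroupOf M
  have htop : ¬ (⊤ : Subgroup M) ≤ Z := fun h => hne fun g hg =>
    cyc_le_norms θ h3 (scalMat_le_cyc θ (h (Subgroup.mem_top (⟨g, hg⟩ : M))))
  obtain ⟨n, hn, hn1⟩ : ∃ n, ¬ derivedSeries M n ≤ Z ∧ derivedSeries M (n + 1) ≤ Z := by
    obtain ⟨k, hk⟩ := (Group.isSolvable_def M).1 hsolv
    by_contra! h
    have : ∀ j, ¬ derivedSeries M j ≤ Z := by
      intro j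
      induction j with
      | zero => rwa [derivedSeries_zero]
      | succ j ih => exact h j ih
    exact this k (hk ▸ bot_le)
  set E := derivedSeries M n with hE
  haveI : E.Normal := derivedSeries_normal M n
  have hab : ∀ a ∈ E, ∀ b ∈ E, (a * b * a⁻¹ * b⁻¹ : M).1 ∈ scalMat θ := fun a ha b hb =>
    hn1 (by rw [derivedSeries_succ]; exact Subgroup.commutator_mem_commutator ha hb)
  haveI : Group.IsNilpotent E := by
    let Q := E ⧸ Subgroup.center E
    letI : CommGroup Q :=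
      { (inferInstance : Group Q) with
        mul_comm := by
          intro x y
          obtain ⟨a, rfl⟩ := QuotientGroup.mk_surjective x
          obtain ⟨b, rfl⟩ := QuotientGroup.mk_surjective y
          change (QuotientGroup.mk (a * b) : Q) = QuotientGroup.mk (b * a)
          rw [QuotientGroup.eq, Subgroup.mem_center_iff]
          intro g
          apply Subtype.ext
          apply Subtype.ext
          have hz := hab b⁻¹ (E.inv_mem b.2) a⁻¹ (E.inv_mem a.2)
          have h := scalMat_comm θ hz g.1.1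
          simp only [Subgroup.coe_mul, Subgroup.coe_inv, _root_.mul_inv_rev, inv_inv] at h ⊢
          simpa [mul_assoc] using h }
    exact isNilpotent_of_ker_le_center (QuotientGroup.mk' (Subgroup.center E))
      (by rw [QuotientGroup.ker_mk'])
  set q := Fintype.card F
  obtain ⟨r, hr⟩ : ∃ r, q = r + 1 := ⟨q - 1, by have : 1 < q := Fintype.one_lt_card; omega⟩
  have hcm := natCard_of_cube_mul hcard hr
  have hr1 : r ≠ 1 := by
    intro h
    subst h
    refine hne ?_
    have hNc := natCard_norms θ h3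
    have heq : norms θ = M := Subgroup.eq_of_le_of_card_ge hN (by rw [hcm, hNc]; exact le_of_eq (by ring))
    rw [heq]
  obtain ⟨r', hr'⟩ : Odd r := by
    obtain ⟨u, hu⟩ := heven
    refine ⟨u - 1, ?_⟩
    have : 1 < q := Fintype.one_lt_card
    omega
  have hr3 : 3 ≤ r := by omega
  have hodd2 : ∀ k, 2 ∣ k → ¬ k ∣ r := fun k hk h => by
    have := hk.trans h
    omega
  have hcop : Nat.Coprime r (r + 2) := by
    refine Nat.coprime_of_dvd fun k hk hkr hkr2 => hodd2 k ?_ hkr
    rw [(Nat.prime_dvd_prime_iff_eq hk Nat.prime_two).1 ((Nat.dvd_add_right hkr).1 hkr2)]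
  obtain ⟨l, hl, hl3, hldvd⟩ : ∃ l, l.Prime ∧ l ≠ 3 ∧ (l ∣ r ∨ l ∣ r + 2) := by
    by_contra! h
    have hpow : ∀ x, 2 ≤ x → (∀ l, l.Prime → l ∣ x → l = 3) → 3 ∣ x := fun x hx hall => by
      obtain ⟨l, hl, hlx⟩ := Nat.exists_prime_and_dvd (show x ≠ 1 by omega)
      exact hall l hl hlx ▸ hlx
    have h1 := hpow r (by omega) fun l hl hlx => by_contra fun hne => (h l hl hne).1 hlx
    have h2 := hpow (r + 2) (by omega) fun l hl hlx => by_contra fun hne => (h l hl hne).2 hlx
    omega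
  haveI : Fact l.Prime := ⟨hl⟩
  have hsub : ∀ {D : Subgroup M}, D.Normal → ∀ g ∈ M, ∀ d ∈ D.map M.subtype,
      g * d * g⁻¹ ∈ D.map M.subtype := by
    rintro D hD g hg _ ⟨d, hd, rfl⟩
    exact ⟨⟨g, hg⟩ * d * ⟨g, hg⟩⁻¹, hD.conj_mem d hd _, rfl⟩
  obtain ⟨z, hz, hEcard⟩ := card_of_normal θ h3 h4 hN hM hcard hne (Subgroup.map_subtype_le E)
    (hsub inferInstance) (by rintro _ ⟨a, ha, rfl⟩ _ ⟨b, hb, rfl⟩; exact hab a ha b hb)
    (fun h => hn fun x hx => h ⟨x, hx, rfl⟩)
  rw [Subgroup.card_map_of_injective M.subtype_injective, show Fintype.card F = r + 1 from hr,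
    Nat.add_sub_cancel] at hEcard
  have hlE : l ∣ Nat.card E := by
    have : l ∣ 3 * Nat.card E := by
      rw [hEcard]
      rcases hldvd with h | h
      · exact Dvd.dvd.mul_right (Dvd.dvd.mul_right (dvd_pow h two_ne_zero) _) _
      · exact Dvd.dvd.mul_right (Dvd.dvd.mul_left h _) _
    exact ((Nat.Prime.dvd_mul hl).1 this).resolve_left fun h =>
      hl3 ((Nat.prime_dvd_prime_iff_eq hl Nat.prime_three).1 h)
  obtain ⟨P⟩ : Nonempty (Sylow l E) := inferInstance
  haveI : (P : Subgroup E).Characteristic := Sylow.characteristic_of_normal P inferInstance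
  set D : Subgroup M := (P : Subgroup E).map E.subtype
  have hDn : D.Normal := inferInstance
  have hDE : D ≤ E := Subgroup.map_subtype_le _
  obtain ⟨a, hPcard⟩ := IsPGroup.iff_card.1 P.isPGroup'
  have hlP : l ∣ Nat.card (P : Subgroup E) := by
    rw [P.card_eq_multiplicity]
    exact dvd_pow_self l (hl.factorization_pos_of_dvd Nat.card_pos.ne' hlE).ne'
  have hDcard : Nat.card (D.map M.subtype) = l ^ a := by
    rw [Subgroup.card_map_of_injective M.subtype_injective,
      Subgroup.card_map_of_injective E.subtype_injective, hPcard]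
  obtain ⟨z', -, hP3⟩ := card_of_normal θ h3 h4 hN hM hcard hne (Subgroup.map_subtype_le D)
    (hsub hDn)
    (by rintro _ ⟨a, ha, rfl⟩ _ ⟨b, hb, rfl⟩; exact hab a (hDE ha) b (hDE hb))
    (fun h => by
      have h1 : Nat.card (D.map M.subtype) ∣ 3 :=
        (Subgroup.card_dvd_of_le h).trans (natCard_scalMat_dvd θ h3)
      rw [hDcard, ← hPcard] at h1
      exact hl3 ((Nat.prime_dvd_prime_iff_eq hl Nat.prime_three).1 (hlP.trans h1)))
  rw [hDcard, show Fintype.card F = r + 1 from hr, Nat.add_sub_cancel,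
    show r + 1 + 1 = r + 2 by omega] at hP3
  have hd1 : r ^ 2 * (r + 2) ∣ 3 * l ^ a := ⟨z', hP3⟩
  rcases hldvd with h | h
  · have hco : Nat.Coprime (r + 2) (l ^ a) := ((Nat.Coprime.coprime_dvd_left h hcop).pow_left a).symm
    have := Nat.le_of_dvd (by norm_num) (hco.dvd_of_dvd_mul_right ((Dvd.intro_left _ rfl).trans hd1))
    omega
  · have hco : Nat.Coprime (r ^ 2) (l ^ a) :=
      ((Nat.Coprime.coprime_dvd_right h hcop).pow 2 a)
    have := Nat.le_of_dvd (by norm_num) (hco.dvd_of_dvd_mul_right ((Dvd.intro _ rfl).trans hd1))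
    have h9 : 3 ^ 2 ≤ r ^ 2 := Nat.pow_le_pow_left hr3 2
    omega

end CfsgLib.SLThree90.Singer
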