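import Cfsg.Agent.SLThree90.StdMonoElem

/-!
A subgroup of SL in dimension three containing the monomial matrices and one more element is SL,
for at least five field elements.
-/

set_option autoImplicit false
set_option linter.unusedSectionVars false

namespace CfsgLib.SLThree90.Mono

open Matrix CfsgLib.TransvGL CfsgLib.MonoBasics CfsgLib.FullCentres CfsgLib.PseudoRefl
open CfsgLib.MonoGLOvergroup (scale scale_mulVec dual_ext)

variable {ι : Type} [Fintype ι] [DecidableEq ι] {F : Type*} [Field F]

local notation "ax" i:max => (Pi.single i (1 : F) : ι → F)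
local notation "pr" i:max => (LinearMap.proj i : Module.Dual F (ι → F))

/-- The scalar matrices. -/
def scal (c : Fˣ) : GL ι F := dg fun _ => c

theorem scal_mulVec (c : Fˣ) (x : ι → F) :
    ((scal c : GL ι F) : Matrix ι ι F) *ᵥ x = (c : F) • x := funext fun i => by
  rw [scal, dg_mulVec]; rfl

theorem scal_comm (c : Fˣ) (g : GL ι F) : g * scal c = scal c * g := ext_mulVec fun x => by
  rw [Units.val_mul, Units.val_mul, ← mulVec_mulVec, ← mulVec_mulVec, scal_mulVec, scal_mulVec,
    mulVec_smul]

theorem det_scal (c : Fˣ) :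
    Matrix.GeneralLinearGroup.det (scal c : GL ι F) = c ^ Fintype.card ι := by
  apply Units.ext
  show (Matrix.diagonal fun _ : ι => (c : F)).det = _
  rw [Matrix.det_diagonal, Finset.prod_const, Finset.card_univ, Units.val_pow_eq_pow_val]

theorem det_scale (k : ι) (δ : Fˣ) :
    Matrix.GeneralLinearGroup.det (dg (scale k δ) : GL ι F) = δ := by
  apply Units.ext
  show (Matrix.diagonal fun i => (scale k δ i : F)).det = _
  rw [Matrix.det_diagonal, ← Units.coe_prod]
  simp [scale]

/-- The elements some scalar multiple of which lies in `M`. -/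
def saturate (M : Subgroup (GL ι F)) : Subgroup (GL ι F) where
  carrier := {g | ∃ c, scal c * g ∈ M}
  one_mem' := ⟨1, by
    have : (scal (1 : Fˣ) : GL ι F) = 1 := ext_mulVec fun x => by simp [scal_mulVec]
    rw [this, one_mul]; exact M.one_mem⟩
  mul_mem' := by
    rintro g h ⟨c, hc⟩ ⟨d, hd⟩
    refine ⟨c * d, ?_⟩
    have : scal (c * d) * (g * h) = (scal c * g) * (scal d * h) := by
      rw [mul_assoc (scal c), ← mul_assoc g, scal_comm, mul_assoc (scal d), ← mul_assoc (scal c)]
      congr 1
      exact ext_mulVec fun x => by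
        simp [Units.val_mul, ← mulVec_mulVec, scal_mulVec, smul_smul]
    rw [this]; exact M.mul_mem hc hd
  inv_mem' := by
    rintro g ⟨c, hc⟩
    refine ⟨c⁻¹, ?_⟩
    have : scal c⁻¹ * g⁻¹ = (scal c * g)⁻¹ := by
      rw [_root_.mul_inv_rev, ← scal_comm, scal, scal, dg_inv]
    rw [this]; exact M.inv_mem hc

theorem mem_saturate {M : Subgroup (GL ι F)} {g : GL ι F} :
    g ∈ saturate M ↔ ∃ c, scal c * g ∈ M := Iff.rfl

variable [Fintype F] {M : Subgroup (GL ι F)} (hn : Fintype.card ι = 3) (hq : 5 ≤ Fintype.card F)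
  (hM : ∀ g ∈ Cfsg.Geo.specialLinear ι F, IsMono g → g ∈ M)
include hn hq hM

theorem mono_cube_mem {g : GL ι F} (hg : IsMono g) {γ : Fˣ}
    (hd : Matrix.GeneralLinearGroup.det g = γ ^ 3) : g ∈ saturate M := by
  refine ⟨γ⁻¹, hM _ ?_ ((isMono_dg _).mul hg)⟩
  show Matrix.GeneralLinearGroup.det (scal γ⁻¹ * g) = 1
  rw [map_mul, det_scal, hd, hn, ← mul_pow, inv_mul_cancel, one_pow]

/-- Every proper overgroup inside SL is the monomial group. -/
theorem specialLinear_le (hsl : M ≤ Cfsg.Geo.specialLinear ι F) {g : GL ι F} (hgM : g ∈ M)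
    (hg : ¬ IsMono g) : Cfsg.Geo.specialLinear ι F ≤ M := by
  classical
  obtain ⟨k, l, hkl, c, hc, h0, z, hT⟩ : MonoGLOvergroup.Elem (saturate M) := by
    refine exists_elem hn hq (fun k γ => mono_cube_mem hn hq hM (isMono_dg _) (det_scale k _))
      (fun x hx hx2 => mono_cube_mem hn hq hM hx (γ := Matrix.GeneralLinearGroup.det x) ?_)
      (fun x hx hxs => mono_cube_mem hn hq hM hx (γ := 1) (by rw [one_pow]; exact hxs))
      (g := g) ⟨1, ?_⟩ hg
    · have := congrArg Matrix.GeneralLinearGroup.det hx2
      rw [map_mul, map_one] at this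
      rw [pow_succ, pow_two, this, one_mul]
    · have : (scal (1 : Fˣ) : GL ι F) = 1 := ext_mulVec fun x => by simp [scal_mulVec]
      rw [this, one_mul]; exact hgM
  have hT' : Has M (ax k) (c • pr l) := by
    refine ⟨h0, ?_⟩
    have hz : scal z ∈ Cfsg.Geo.specialLinear ι F := by
      have h1 : Matrix.GeneralLinearGroup.det (scal z * transv h0) = 1 := hsl hT
      rw [map_mul, show Matrix.GeneralLinearGroup.det (transv h0) = 1 from transv_mem_specialLinear h0,
        mul_one] at h1
      exact h1
    have := M.mul_mem (M.inv_mem (hM _ hz (isMono_dg _))) hT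
    rwa [inv_mul_cancel_left] at this
  have htor : ∀ d : ι → Fˣ, ∏ i, d i = 1 → dg d ∈ M := fun d hd =>
    hM _ (dg_mem_specialLinear hd) (isMono_dg d)
  have hall : ∀ c' : F, Has M (ax k) (c' • pr l) := by
    intro c'
    by_cases hc' : c' = 0
    · rw [hc', zero_smul]; exact has_zero_right _
    obtain ⟨j, hj⟩ := Finset.exists_mem_notMem_of_card_lt_card (s := ({k, l} : Finset ι)) (t := Finset.univ)
      (by have := Finset.card_le_two (a := k) (b := l); rw [Finset.card_univ]; omega)
    simp only [Finset.mem_univ, Finset.mem_insert, Finset.mem_singleton, not_or, true_and] at hj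
    let δ : Fˣ := Units.mk0 (c' / c) (div_ne_zero hc' hc)
    have h1 := hT'.conj (htor _ (prod_torPair (Ne.symm hj.1) δ)) (ψ := c • pr l) fun x => by
      rw [LinearMap.smul_apply, LinearMap.smul_apply]
      show c • ((dg (torPair k j δ) : Matrix ι ι F) *ᵥ x) l = c • x l
      rw [dg_mulVec]
      simp [torPair, Ne.symm hkl, Ne.symm hj.2]
    rw [dg_mulVec_ax, has_smul_swap (Units.ne_zero _), smul_smul] at h1
    have e : ((torPair k j δ) k : F) * c = c' := by
      simp [torPair, δ, div_mul_cancel₀ _ hc]
    rwa [e] at h1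
  refine specialLinear_le_of_full (S := Set.range fun i => ax i) ?_ ?_
  · refine eq_top_iff.2 fun x _ => ?_
    rw [← Finset.univ_sum_single x]
    refine Submodule.sum_mem _ fun i _ => ?_
    rw [show Pi.single i (x i) = x i • ax i by simp [← Pi.single_smul']]
    exact Submodule.smul_mem _ _ (Submodule.subset_span ⟨i, rfl⟩)
  rintro _ ⟨k', rfl⟩ φ hφ
  have hφeq : φ = ∑ i, φ (ax i) • pr i := dual_ext fun i => by
    simp [LinearMap.sum_apply, Pi.single_apply]
  rw [hφeq]
  have key : ∀ S : Finset ι, Has M (ax k') (∑ i ∈ S, φ (ax i) • pr i) := by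
    intro S
    induction S using Finset.induction_on with
    | empty => simpa using has_zero_right (ax k')
    | insert l' S hl' ih =>
      rw [Finset.sum_insert hl']
      refine Has.add ?_ ih
      by_cases hlk : l' = k'
      · subst hlk; rw [hφ, zero_smul]; exact has_zero_right _
      obtain ⟨π, hπk, hπl⟩ : ∃ π : Equiv.Perm ι, π k = k' ∧ π l = l' := by
        set l1 := Equiv.swap k k' l with hl1
        refine ⟨(Equiv.swap k k').trans (Equiv.swap l1 l'), ?_, ?_⟩
        · rw [Equiv.trans_apply, Equiv.swap_apply_left]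
          refine Equiv.swap_apply_of_ne_of_ne (fun e => hkl ?_) (Ne.symm hlk)
          apply (Equiv.swap k k').injective
          rw [Equiv.swap_apply_left]; exact e
        · rw [Equiv.trans_apply, ← hl1, Equiv.swap_apply_left]
      obtain ⟨r, hr⟩ := Finset.exists_mem_notMem_of_card_lt_card (s := ({k, l} : Finset ι)) (t := Finset.univ)
        (by have := Finset.card_le_two (a := k) (b := l); rw [Finset.card_univ]; omega)
      simp only [Finset.mem_univ, Finset.mem_insert, Finset.mem_singleton, not_or, true_and] at hr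
      obtain ⟨s, hs1, hs2, hs3, hs4⟩ := exists_special_perm (F := F) π r
      have h1 := (hall (φ (ax l'))).conj (hM s hs1 hs2) (ψ := φ (ax l') • pr l') fun x => by
        rw [LinearMap.smul_apply, LinearMap.smul_apply]
        show φ (ax l') • ((s : Matrix ι ι F) *ᵥ x) l' = φ (ax l') • x l
        rw [hs4 x l' (fun e => hr.2 (π.injective (by rw [hπl, ← e]))), show π.symm l' = l by
          rw [← hπl, Equiv.symm_apply_apply]]
      rwa [hs3 k (Ne.symm hr.1), hπk] at h1
  exact key Finset.univ

end CfsgLib.SLThree90.Mono
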