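import Cfsg.Agent.Eq.Def_GeometricClasses
import Cfsg.Agent.Classical.DecompProj
import Cfsg.Agent.SLThree90.StdMonoThree

/-!
Decomposition stabilisers are maximal in SL of dimension three (adapted from SLFour90.DecompFour).
-/

set_option autoImplicit false
open Cfsg

namespace CfsgLib.SLThree90.Decomp

theorem isMaximal {F : Type*} [Field F] [Fintype F] (n : ℕ) (hn : n = 3) {t : ℕ} (D : Fin t → Submodule F (Fin n → F)) (hD : Cfsg.Geo.IsMDecomposition 1 D) (hq : 5 ≤ Fintype.card F) : Cfsg.Geo.IsMaximalIn (Cfsg.Geo.specialLinear (Fin n) F) (Cfsg.Geo.decompositionStabilizer D ⊓ Cfsg.Geo.specialLinear (Fin n) F) := by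
  classical
  open Matrix CfsgLib.DecompProj CfsgLib.TransvGL CfsgLib.MonoBasics in
  exact (by
    have htm := mul_eq_card hD
    rw [Fintype.card_fin] at htm
    have h2t := hD.two_le
    refine ⟨lt_of_le_of_ne inf_le_right ?_, fun M hHM hMK => ?_⟩
    · intro e
      obtain ⟨x, hx, hx0⟩ := exists_ne_zero hD ⟨0, by omega⟩
      obtain ⟨y, hy, hy0⟩ := exists_ne_zero hD ⟨1, by omega⟩
      have h01 : (⟨0, by omega⟩ : Fin t) ≠ ⟨1, by omega⟩ := by simp
      obtain ⟨ψ, hψ⟩ : ∃ ψ : Module.Dual F (Fin n → F), ψ x = 1 := by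
        obtain ⟨i, hi⟩ := Function.ne_iff.1 hx0
        exact ⟨(x i)⁻¹ • LinearMap.proj i, by simpa using inv_mul_cancel₀ hi⟩
      have hφ : (ψ ∘ₗ proj hD ⟨0, by omega⟩) y = 0 := by
        rw [LinearMap.comp_apply, proj_of_mem hD hy, if_neg h01, map_zero]
      have hT := transv_mem_specialLinear hφ
      rw [← e] at hT
      obtain ⟨j, hj⟩ := image_mem_of_stabilizer hT.1 hx
      refine not_mem_of_two hD h01 ?_ ?_ j hj
      all_goals rw [transv_mulVec, LinearMap.comp_apply, proj_of_mem hD hx, if_pos rfl, hψ, one_smul,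
        map_add, proj_of_mem hD hx, proj_of_mem hD hy]
      · rw [if_pos rfl, if_neg h01, add_zero]; exact hx0
      · rw [if_pos rfl, if_neg h01.symm, zero_add]; exact hy0
    by_cases hle : M ≤ Cfsg.Geo.decompositionStabilizer D
    · exact Or.inl (le_antisymm (le_inf hle hMK) hHM)
    obtain ⟨g, hgM, hgS⟩ := SetLike.not_le_iff_exists.1 hle
    refine Or.inr (le_antisymm hMK ?_)
    rw [mul_one] at htm
    subst htm
    choose v hv hv0 using exists_ne_zero hD
    have hspan : ∀ i, D i = Submodule.span F {v i} := fun i => by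
      refine (Submodule.eq_of_le_of_finrank_eq ?_ ?_).symm
      · rw [Submodule.span_le, Set.singleton_subset_iff]; exact hv i
      · rw [finrank_span_singleton (hv0 i), hD.finrank_eq]
    let L : (Fin t → F) →ₗ[F] (Fin t → F) := Fintype.linearCombination F v
    have hinj : Function.Injective L := by
      rw [injective_iff_map_eq_zero]
      intro x hx
      funext j
      have h := proj_eq_of_sum hD (y := fun i => x i • v i)
        (fun i => Submodule.smul_mem _ _ (hv i)) j
      rw [show ∑ i, x i • v i = 0 from hx, map_zero] at h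
      exact (smul_eq_zero.1 h.symm).resolve_right (hv0 j)
    set P : GL (Fin t) F := ofEquiv (LinearEquiv.ofInjectiveEndo L hinj) with hPdef
    have hP : ∀ i, (P : Matrix (Fin t) (Fin t) F) *ᵥ Pi.single i 1 = v i := fun i => by
      rw [hPdef, ofEquiv_mulVec, LinearEquiv.coe_ofInjectiveEndo]
      simp [L]
    have key : ∀ x : GL (Fin t) F, IsMono x →
        P * x * P⁻¹ ∈ Cfsg.Geo.decompositionStabilizer D := by
      intro x hx
      choose π hπ using hx
      refine mem_decompositionStabilizer_of_maps hD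
        (Equiv.ofBijective π (Finite.injective_iff_bijective.1 (mono_index_injective hπ)))
        fun i y hy => ?_
      rw [hspan] at hy
      obtain ⟨c, rfl⟩ := Submodule.mem_span_singleton.1 hy
      obtain ⟨d, hd⟩ := Submodule.mem_span_singleton.1 (hπ i)
      rw [mulVec_smul, ← hP i, Units.val_mul, Units.val_mul, ← mulVec_mulVec, ← mulVec_mulVec,
        inv_mulVec_mulVec, ← hd, mulVec_smul, hP, Equiv.ofBijective_apply, hspan]
      exact Submodule.smul_mem _ _ (Submodule.smul_mem _ _ (Submodule.mem_span_singleton_self _))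
    have hdet : ∀ x : GL (Fin t) F,
        P * x * P⁻¹ ∈ Cfsg.Geo.specialLinear (Fin t) F ↔ x ∈ Cfsg.Geo.specialLinear (Fin t) F := by
      intro x
      show Matrix.GeneralLinearGroup.det _ = 1 ↔ Matrix.GeneralLinearGroup.det x = 1
      rw [map_mul, map_mul, map_inv, mul_inv_cancel_comm]
    set M' := M.comap (MulAut.conj P).toMonoidHom with hM'
    have hmem : ∀ x, x ∈ M' ↔ P * x * P⁻¹ ∈ M := fun x => Iff.rfl
    have hconj : ∀ x : GL (Fin t) F, P * (P⁻¹ * x * P) * P⁻¹ = x := fun x => by group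
    have hall := CfsgLib.SLThree90.Mono.specialLinear_le (M := M') (by rw [Fintype.card_fin]; exact hn) hq
      (fun x hx hmo => (hmem x).2 (hHM (Subgroup.mem_inf.2 ⟨key x hmo, (hdet x).2 hx⟩)))
      (fun x hx => (hdet x).1 (hMK ((hmem x).1 hx)))
      (g := P⁻¹ * g * P) ((hmem _).2 ((hconj g).symm ▸ hgM))
      (fun h => hgS (hconj g ▸ key _ h))
    intro s hs
    have := (hmem _).1 (hall ((hdet (P⁻¹ * s * P)).1 ((hconj s).symm ▸ hs)))
    rwa [hconj] at this)

end CfsgLib.SLThree90.Decomp

namespace CfsgLib.SLThree90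

/-- Clause (2) of S5774. -/
theorem decomp_maximal {F : Type*} [Field F] [Fintype F] (hq : 5 ≤ Fintype.card F)
    (D : Fin 3 → Submodule F (Fin 3 → F)) (hD : Cfsg.Geo.IsMDecomposition 1 D) :
    Cfsg.Geo.IsMaximalIn (Cfsg.Geo.specialLinear (Fin 3) F)
      (Cfsg.Geo.decompositionStabilizer D ⊓ Cfsg.Geo.specialLinear (Fin 3) F) :=
  Decomp.isMaximal 3 rfl D hD hq

end CfsgLib.SLThree90
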