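import Cfsg.Agent.Classical.MonoGLOvergroup
import Cfsg.Agent.SLFour90.MonoFour

/-!
The monomial matrices of determinant one form a maximal subgroup of SL in dimension three over at
least five elements (adapted from MonoGLOvergroup, with homologies of cube determinant).
-/

set_option autoImplicit false
set_option linter.unusedSectionVars false

namespace CfsgLib.SLThree90.Mono

open Matrix CfsgLib.TransvGL CfsgLib.MonoBasics CfsgLib.FullCentres CfsgLib.PseudoRefl
open CfsgLib.MonoGLOvergroup (scale scale_mulVec dual_ext apply_eq_sum sum_supp refl_mul_inv)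

variable {ι : Type} [Fintype ι] [DecidableEq ι] {F : Type*} [Field F]

local notation "ax" i:max => (Pi.single i (1 : F) : ι → F)
local notation "pr" i:max => (LinearMap.proj i : Module.Dual F (ι → F))

/-- The pseudo-reflections of cube determinant with eigenvector `u` and functional `v` lie in `N`. -/
def Cube (N : Subgroup (GL ι F)) (v : Module.Dual F (ι → F)) (u : ι → F) : Prop :=
  ∃ h : v u = 1, ∀ γ : Fˣ, refl v h (γ ^ 3) ∈ N

variable {N : Subgroup (GL ι F)} {v v' : Module.Dual F (ι → F)} {u u' : ι → F}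

theorem Cube.conj (h : Cube N v u) {g : GL ι F} (hg : g ∈ N)
    (hv : ∀ x, v' ((g : Matrix ι ι F) *ᵥ x) = v x) : Cube N v' ((g : Matrix ι ι F) *ᵥ u) := by
  obtain ⟨h1, h2⟩ := h
  refine ⟨by rw [hv, h1], fun γ => ?_⟩
  have : g * refl v h1 (γ ^ 3) * g⁻¹ = refl v' (show v' _ = 1 by rw [hv, h1]) (γ ^ 3) := by
    rw [mul_inv_eq_iff_eq_mul]
    refine ext_mulVec fun x => ?_
    simp only [Units.val_mul, ← mulVec_mulVec, refl_mulVec, mulVec_add, mulVec_smul, hv]
  rw [← this]
  exact N.mul_mem (N.mul_mem hg (h2 γ)) (N.inv_mem hg)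

theorem has_sub_centre (h : Cube N v u) (h' : Cube N v u') (γ : Fˣ) :
    Has N (u' - u) ((1 - ((γ ^ 3 : Fˣ) : F)⁻¹) • v) := by
  obtain ⟨h1, h2⟩ := h
  obtain ⟨h3, h4⟩ := h'
  have h0 : ((1 - ((γ ^ 3 : Fˣ) : F)⁻¹) • v) (u' - u) = 0 := by
    rw [LinearMap.smul_apply, map_sub, h1, h3, sub_self, smul_zero]
  refine ⟨h0, ?_⟩
  have : refl v h3 (γ ^ 3) * refl v h1 (γ ^ 3)⁻¹ = transv h0 := ext_mulVec fun x => by
    rw [Units.val_mul, ← mulVec_mulVec, refl_mulVec, refl_mulVec, transv_mulVec, map_add, map_smul, h1,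
      LinearMap.smul_apply, smul_eq_mul, mul_one, smul_eq_mul, Units.val_inv_eq_inv_val, smul_sub]
    have : (((γ ^ 3 : Fˣ) : F) - 1) * (v x + (((γ ^ 3 : Fˣ) : F)⁻¹ - 1) * v x) = (1 - ((γ ^ 3 : Fˣ) : F)⁻¹) * v x := by
      field_simp
      ring
    rw [this]
    module
  rw [← this]
  exact N.mul_mem (h4 γ) (by simpa [inv_pow] using h2 γ⁻¹)

theorem has_sub_funct (h : Cube N v u) (h' : Cube N v' u) (γ : Fˣ) :
    Has N u ((1 - ((γ ^ 3 : Fˣ) : F)⁻¹) • (v - v')) := by
  obtain ⟨h1, h2⟩ := h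
  obtain ⟨h3, h4⟩ := h'
  have h0 : ((1 - ((γ ^ 3 : Fˣ) : F)⁻¹) • (v - v')) u = 0 := by
    rw [LinearMap.smul_apply, LinearMap.sub_apply, h1, h3, sub_self, smul_zero]
  refine ⟨h0, ?_⟩
  have : refl v' h3 (γ ^ 3)⁻¹ * refl v h1 (γ ^ 3) = transv h0 := ext_mulVec fun x => by
    rw [Units.val_mul, ← mulVec_mulVec, refl_mulVec, refl_mulVec, transv_mulVec, map_add, map_smul, h3,
      LinearMap.smul_apply, LinearMap.sub_apply, smul_eq_mul, mul_one, smul_eq_mul,
      Units.val_inv_eq_inv_val, add_assoc, ← add_smul]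
    congr 2
    field_simp
    ring
  rw [← this]
  exact N.mul_mem (by simpa [inv_pow] using h4 γ⁻¹) (h2 γ)


/-- A monomial exchange of two axes is an involution. -/
theorem swap_sq {k l : ι} (hkl : k ≠ l) (c : ι → Fˣ)
    (hc : c k * c l = 1 ∧ ∀ i, i ≠ k → i ≠ l → c i = 1) :
    monoGL (Equiv.swap k l) c * monoGL (Equiv.swap k l) c = 1 := by
  refine ext_mulVec fun x => funext fun i => ?_
  have h' : (c k : F) * c l = 1 := by rw [← Units.val_mul, hc.1, Units.val_one]
  rw [Units.val_mul, ← mulVec_mulVec, monoGL_mulVec, monoGL_mulVec, Units.val_one, one_mulVec]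
  rcases eq_or_ne i k with rfl | hik
  · simp only [Equiv.symm_swap, Equiv.swap_apply_left, Equiv.swap_apply_right]
    linear_combination x i * h'
  rcases eq_or_ne i l with rfl | hil
  · simp only [Equiv.symm_swap, Equiv.swap_apply_left, Equiv.swap_apply_right]
    linear_combination x i * h'
  · simp [Equiv.swap_apply_of_ne_of_ne hik hil, hc.2 i hik hil]

variable [Fintype F] (hn : Fintype.card ι = 3) (hq : 5 ≤ Fintype.card F)
  (hS : ∀ (k : ι) (γ : Fˣ), dg (scale k (γ ^ 3)) ∈ N)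
  (hI : ∀ g : GL ι F, IsMono g → g * g = 1 → g ∈ N)

omit [DecidableEq ι] in
/-- A cube with cube different from one. -/
theorem exists_cube (hq : 5 ≤ Fintype.card F) :
    ∃ γ : Fˣ, ((γ ^ 3 : Fˣ) : F) ≠ 1 ∧ ((γ ^ 3 : Fˣ) : F)⁻¹ ≠ 1 ∧ ((γ ^ 3 : Fˣ) : F) ^ 3 ≠ 1 := by
  classical
  obtain ⟨γ, hγ⟩ := IsCyclic.exists_ofOrder_eq_natCard (α := Fˣ)
  have hc : Nat.card Fˣ = Fintype.card F - 1 := by
    rw [Nat.card_eq_fintype_card, Fintype.card_units]
  have h9 : ((γ ^ 3 : Fˣ) : F) ^ 3 ≠ 1 := by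
    intro e
    have h1 : γ ^ 9 = 1 := Units.ext (by
      rw [Units.val_one, ← e, Units.val_pow_eq_pow_val, Units.val_pow_eq_pow_val, ← pow_mul])
    have h2 := orderOf_dvd_of_pow_eq_one h1
    rw [hγ, hc] at h2
    have h3 := Nat.le_of_dvd (by norm_num) h2
    -- ten is not a prime power
    obtain ⟨p, n, hp, hpn⟩ : ∃ p n, Nat.Prime p ∧ Fintype.card F = p ^ n :=
      by
        obtain ⟨n, hn, hn'⟩ := FiniteField.card F (ringChar F)
        exact ⟨ringChar F, n, hn, hn'⟩
    have h10 : Fintype.card F = 10 := by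
      have : Fintype.card F ≤ 10 := by omega
      interval_cases h : Fintype.card F <;> first | rfl | norm_num at h2
    rw [h10] at hpn
    have hp2 : 2 ∣ p := Nat.prime_two.dvd_of_dvd_pow (n := n) (hpn ▸ by norm_num)
    have hp5 : 5 ∣ p := (by norm_num : Nat.Prime 5).dvd_of_dvd_pow (n := n) (hpn ▸ by norm_num)
    rw [Nat.prime_dvd_prime_iff_eq Nat.prime_two hp] at hp2
    omega
  have h1 : ((γ ^ 3 : Fˣ) : F) ≠ 1 := fun e => h9 (by rw [e, one_pow])
  exact ⟨γ, h1, fun e => h1 (inv_eq_one.1 e), h9⟩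

include hn hq hS hI

theorem elem_of_axis_centre {k : ι} {φ : Module.Dual F (ι → F)} (h : Has N (ax k) φ) (hφ : φ ≠ 0) :
    MonoGLOvergroup.Elem N := by
  obtain ⟨γ, hδ, hδ', -⟩ := exists_cube hq
  set δ := γ ^ 3 with hγ
  obtain ⟨l, hl⟩ : ∃ l, φ (ax l) ≠ 0 := by
    by_contra hc; push Not at hc
    exact hφ (dual_ext fun i => by rw [hc i]; rfl)
  have hkl : k ≠ l := fun e => hl (e ▸ h.apply_eq)
  set g := dg (scale l δ)
  set ψ := φ + (((δ : F)⁻¹ - 1) * φ (ax l)) • pr l with hψ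
  have h1 := h.conj (g := g) (hS _ γ) (ψ := ψ) fun x => by
    rw [scale_mulVec, hψ, LinearMap.add_apply, LinearMap.smul_apply, map_add, map_smul]
    simp only [smul_eq_mul, LinearMap.proj_apply, Pi.add_apply, Pi.smul_apply, Pi.single_eq_same]
    field_simp
    ring
  rw [scale_mulVec, Pi.single_eq_of_ne (Ne.symm hkl), mul_zero, zero_smul, add_zero] at h1
  refine ⟨k, l, hkl, ((δ : F)⁻¹ - 1) * φ (ax l), mul_ne_zero (sub_ne_zero.2 hδ') hl, ?_⟩
  simpa [hψ] using h1.sub h

theorem elem_of_axis_funct {k : ι} {a : ι → F} {c : F} (hc : c ≠ 0) (ha : a ≠ 0)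
    (h : Has N a (c • pr k)) : MonoGLOvergroup.Elem N := by
  obtain ⟨γ, hδ, -, -⟩ := exists_cube hq
  set δ := γ ^ 3 with hγ
  obtain ⟨l, hl⟩ := Function.ne_iff.1 ha
  have hak : a k = 0 := by simpa [hc] using h.apply_eq
  have hlk : l ≠ k := fun e => hl (by rw [e]; exact hak)
  have h1 := h.conj (g := dg (scale l δ)) (hS _ γ) (ψ := c • pr k) fun x => by
    rw [scale_mulVec]; simp [Ne.symm hlk]
  rw [scale_mulVec] at h1
  have h2 := h1.sub_left h
  rw [add_sub_cancel_left, has_smul_swap (mul_ne_zero (sub_ne_zero.2 hδ) hl), smul_smul] at h2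
  exact ⟨l, k, hlk, _, mul_ne_zero (mul_ne_zero (sub_ne_zero.2 hδ) hl) hc, h2⟩

theorem elem_of_unequal (h : Cube N v u) {k : ι} (hk : ¬ (u k = 0 ↔ v (ax k) = 0)) : MonoGLOvergroup.Elem N := by
  obtain ⟨γ, hδ, hδ', -⟩ := exists_cube hq
  set δ := γ ^ 3 with hγ
  have hs : (1 - (δ : F)⁻¹) ≠ 0 := sub_ne_zero.2 (Ne.symm hδ')
  have hd := (hS k γ)
  by_cases hu : u k = 0
  · have hv : v (ax k) ≠ 0 := fun e => hk ⟨fun _ => e, fun _ => hu⟩
    set v' := v + (((δ : F)⁻¹ - 1) * v (ax k)) • pr k with hv'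
    have h1 := h.conj hd (v' := v') fun x => by
      rw [scale_mulVec, hv', LinearMap.add_apply, LinearMap.smul_apply, map_add, map_smul]
      simp only [smul_eq_mul, LinearMap.proj_apply, Pi.add_apply, Pi.smul_apply, Pi.single_eq_same]
      field_simp
      ring
    rw [scale_mulVec, hu, mul_zero, zero_smul, add_zero] at h1
    have h2 := has_sub_funct h1 h γ
    rw [hv', add_sub_cancel_left, smul_smul] at h2
    refine elem_of_axis_funct hn hq hS hI (mul_ne_zero hs (mul_ne_zero (sub_ne_zero.2 hδ') hv)) ?_ h2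
    intro e; have := h.1; rw [e, map_zero] at this; exact zero_ne_one this
  · have hv : v (ax k) = 0 := by
      by_contra e; exact hk ⟨fun h' => absurd h' hu, fun h' => absurd h' e⟩
    have h1 := h.conj hd (v' := v) fun x => by
      rw [scale_mulVec, map_add, map_smul, hv, smul_zero, add_zero]
    rw [scale_mulVec] at h1
    have h2 := has_sub_centre h h1 γ
    rw [add_sub_cancel_left, has_smul_swap (mul_ne_zero (sub_ne_zero.2 hδ) hu), smul_smul] at h2
    refine elem_of_axis_centre hn hq hS hI h2 fun e => ?_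
    have := LinearMap.congr_fun e u
    rw [LinearMap.smul_apply, h.1, LinearMap.zero_apply, smul_eq_mul, mul_one] at this
    exact mul_ne_zero (mul_ne_zero (sub_ne_zero.2 hδ) hu) hs this

theorem elem_of_distinct (h : Cube N v u) {k l p : ι} (hkl : k ≠ l) (hkp : k ≠ p) (hlp : l ≠ p)
    (hk : v (ax k) ≠ 0) (hl : v (ax l) ≠ 0) (hp : v (ax p) ≠ 0)
    (hne : u k * v (ax k) ≠ u l * v (ax l)) : MonoGLOvergroup.Elem N := by
  obtain ⟨γ, hδ, hδ', -⟩ := exists_cube hq
  set δ := γ ^ 3 with hγ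
  have hs : (1 - (δ : F)⁻¹) ≠ 0 := sub_ne_zero.2 (Ne.symm hδ')
  let ck : Fˣ := Units.mk0 (v (ax k) / v (ax l)) (div_ne_zero hk hl)
  let c : ι → Fˣ := fun i => if i = k then ck else if i = l then ck⁻¹ else 1
  set m := monoGL (Equiv.swap k l) c with hm
  have hvm : v.comp (Matrix.toLin' (m : Matrix ι ι F)) = v := dual_ext fun i => by
    rw [LinearMap.comp_apply, Matrix.toLin'_apply, hm, monoGL_mulVec_ax, map_smul, smul_eq_mul]
    rcases eq_or_ne i k with rfl | hik
    · simp [c, ck, div_mul_cancel₀ _ hl]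
    rcases eq_or_ne i l with rfl | hil
    · simp [c, ck, hkl.symm, div_mul_cancel₀ _ hk]
    · simp [c, hik, hil, Equiv.swap_apply_of_ne_of_ne hik hil]
  have hckl : c k * c l = 1 ∧ ∀ i, i ≠ k → i ≠ l → c i = 1 :=
    ⟨by simp [c, hkl.symm], fun i hi hi' => by simp [c, hi, hi']⟩
  have h1 := h.conj (g := m) (hI _ (isMono_monoGL _ _) (swap_sq hkl c hckl)) (v' := v) fun x => by
    conv_rhs => rw [← hvm]
    rw [LinearMap.comp_apply, Matrix.toLin'_apply]
  set a := (m : Matrix ι ι F) *ᵥ u - u with ha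
  have h2 : Has N a ((1 - (δ : F)⁻¹) • v) := has_sub_centre h h1 γ
  have hap : a p = 0 := by
    simp [ha, hm, monoGL_mulVec, Equiv.swap_apply_of_ne_of_ne hkp.symm hlp.symm, c, hkp.symm, hlp.symm]
  have hal : a l ≠ 0 := by
    have e : a l = v (ax k) / v (ax l) * u k - u l := by
      simp [ha, hm, monoGL_mulVec, c, ck]
    rw [e, sub_ne_zero]
    intro e
    exact hne (by rw [← e]; field_simp)
  obtain ⟨φ, hφ⟩ : ∃ φ : Module.Dual F (ι → F), φ = (1 - (δ : F)⁻¹) • v := ⟨_, rfl⟩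
  rw [← hφ] at h2
  set ψ := φ + (((δ : F)⁻¹ - 1) * φ (ax p)) • pr p with hψ
  have h3 := h2.conj (g := dg (scale p δ)) (hS _ γ) (ψ := ψ) fun x => by
    rw [scale_mulVec, hψ, LinearMap.add_apply, LinearMap.smul_apply, map_add, map_smul]
    simp only [smul_eq_mul, LinearMap.proj_apply, Pi.add_apply, Pi.smul_apply, Pi.single_eq_same]
    field_simp
    ring
  rw [scale_mulVec, hap, mul_zero, zero_smul, add_zero] at h3
  have h4 := h3.sub h2
  rw [hψ, add_sub_cancel_left] at h4
  refine elem_of_axis_funct hn hq hS hI (mul_ne_zero (sub_ne_zero.2 hδ') ?_) (fun e => hal (by rw [e]; rfl)) h4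
  rw [hφ, LinearMap.smul_apply, smul_eq_mul]; exact mul_ne_zero hs hp


theorem cube_scale (k : ι) : Cube N (pr k) (ax k) := by
  refine ⟨by simp, fun γ => ?_⟩
  have : refl (pr k) (show (pr k) (ax k) = 1 by simp) (γ ^ 3) = dg (scale k (γ ^ 3)) :=
    ext_mulVec fun x => by rw [refl_mulVec, scale_mulVec]; rfl
  rw [this]
  exact hS k γ

/-- A homology with full support. -/
theorem elem_of_three (h : Cube N v u) (hu : ∀ i, u i ≠ 0) : MonoGLOvergroup.Elem N := by
  classical
  by_cases hsupp : ∀ i, u i = 0 ↔ v (ax i) = 0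
  swap
  · push Not at hsupp
    obtain ⟨i, hi⟩ := hsupp
    exact elem_of_unequal hn hq hS hI h (k := i) fun e => by tauto
  have hv : ∀ i, v (ax i) ≠ 0 := fun i e => hu i ((hsupp i).2 e)
  obtain ⟨k⟩ : Nonempty ι := Fintype.card_pos_iff.1 (by omega)
  obtain ⟨l, hlk⟩ := Finset.exists_mem_notMem_of_card_lt_card (s := ({k} : Finset ι))
    (t := Finset.univ) (by rw [Finset.card_singleton, Finset.card_univ]; omega)
  obtain ⟨p, hp⟩ := Finset.exists_mem_notMem_of_card_lt_card (s := ({k, l} : Finset ι))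
    (t := Finset.univ)
    (by have := Finset.card_le_two (a := k) (b := l); rw [Finset.card_univ]; omega)
  simp only [Finset.mem_univ, Finset.mem_insert, Finset.mem_singleton, not_or, true_and] at hlk hp
  by_cases hconst : ∀ i, u i * v (ax i) = u k * v (ax k)
  swap
  · push Not at hconst
    obtain ⟨m, hm⟩ := hconst
    have hmk : m ≠ k := fun e => hm (by rw [e])
    by_cases hml : m = l
    · subst hml
      exact elem_of_distinct hn hq hS hI h hmk (Ne.symm hp.2) (Ne.symm hp.1) (hv m) (hv k) (hv p) hm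
    · exact elem_of_distinct hn hq hS hI h hmk hml (Ne.symm hlk) (hv m) (hv k) (hv l) hm
  set P := u k * v (ax k) with hP
  have h3P : (3 : F) * P = 1 := by
    have h1 := sum_supp h.1 (P := P) (fun i _ => hconst i)
    rw [Finset.filter_true_of_mem (fun i _ => hu i), Finset.card_univ, hn] at h1
    exact_mod_cast h1
  have hP0 : P ≠ 0 := mul_ne_zero (hu k) (hv k)
  obtain ⟨γ, hδ1, hδ1', hδ3⟩ := exists_cube hq
  set δ := γ ^ 3 with hγ
  obtain ⟨h1, h2⟩ := h
  set v₂ := pr k ∘ₗ Matrix.toLin' ((refl v h1 δ⁻¹ : GL ι F) : Matrix ι ι F) with hv₂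
  have h' : Cube N v₂ ((refl v h1 δ : Matrix ι ι F) *ᵥ ax k) :=
    (cube_scale hn hq hS hI k).conj (h2 γ) fun x => by
      rw [hv₂, LinearMap.comp_apply, Matrix.toLin'_apply, ← refl_mul_inv h1, inv_mulVec_mulVec]
  set u₂ := (refl v h1 δ : Matrix ι ι F) *ᵥ ax k with hu₂
  have huk : u₂ k = 1 + ((δ : F) - 1) * P := by
    rw [hu₂, refl_mulVec, Pi.add_apply, Pi.smul_apply, smul_eq_mul, Pi.single_eq_same, hP]; ring
  have hvk : v₂ (ax k) = 1 + ((δ : F)⁻¹ - 1) * P := by
    rw [hv₂, LinearMap.comp_apply, Matrix.toLin'_apply, refl_mulVec, LinearMap.proj_apply, Pi.add_apply,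
      Pi.smul_apply, smul_eq_mul, Pi.single_eq_same, Units.val_inv_eq_inv_val, hP]
    ring
  have hui : ∀ i, i ≠ k → u₂ i = ((δ : F) - 1) * v (ax k) * u i := fun i hi => by
    rw [hu₂, refl_mulVec, Pi.add_apply, Pi.smul_apply, smul_eq_mul, Pi.single_eq_of_ne hi, zero_add]
  have hvi : ∀ i, i ≠ k → v₂ (ax i) = ((δ : F)⁻¹ - 1) * u k * v (ax i) := fun i hi => by
    rw [hv₂, LinearMap.comp_apply, Matrix.toLin'_apply, refl_mulVec, LinearMap.proj_apply, Pi.add_apply,
      Pi.smul_apply, smul_eq_mul, Pi.single_eq_of_ne (Ne.symm hi), zero_add, Units.val_inv_eq_inv_val]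
    ring
  by_cases hu0 : u₂ k = 0
  · refine elem_of_unequal hn hq hS hI h' (k := k) fun hiff => ?_
    have hv0 := hiff.1 hu0
    rw [huk] at hu0; rw [hvk] at hv0
    have e : ((δ : F) - (δ : F)⁻¹) * P = 0 := by linear_combination hu0 - hv0
    have e2 := sub_eq_zero.1 ((mul_eq_zero.1 e).resolve_right hP0)
    have e3 : (δ : F) = -1 := by
      have : (δ : F) * δ = 1 := by nth_rewrite 2 [e2]; exact mul_inv_cancel₀ δ.ne_zero
      rcases mul_self_eq_one_iff.1 this with h | h
      · exact absurd h hδ1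
      · exact h
    rw [e3] at hu0
    exact hP0 (by linear_combination h3P + hu0)
  by_cases hv0 : v₂ (ax k) = 0
  · exact elem_of_unequal hn hq hS hI h' (k := k) fun hiff => hu0 (hiff.2 hv0)
  have hnz : ∀ i, i ≠ k → v₂ (ax i) ≠ 0 := fun i hi => by
    rw [hvi i hi]; exact mul_ne_zero (mul_ne_zero (sub_ne_zero.2 hδ1') (hu k)) (hv i)
  refine elem_of_distinct hn hq hS hI h' (Ne.symm hlk) (Ne.symm hp.1) (Ne.symm hp.2) hv0 (hnz l hlk)
    (hnz p hp.1) ?_
  rw [huk, hvk, hui l hlk, hvi l hlk]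
  intro e
  have e' : (1 + ((δ : F) - 1) * P) * (1 + ((δ : F)⁻¹ - 1) * P) =
      ((δ : F) - 1) * ((δ : F)⁻¹ - 1) * P * P := by
    linear_combination e + ((δ : F) - 1) * ((δ : F)⁻¹ - 1) * P * (hconst l)
  field_simp at e'
  have e5 : (δ : F) ^ 2 + δ + 1 = 0 := by
    linear_combination 3 * e' + (-(δ : F) ^ 2 + 2 * δ - 1) * h3P
  exact hδ3 (by linear_combination ((δ : F) - 1) * e5)

/-- An element outside the monomial group gives an elementary transvection. -/
theorem exists_elem (hA : ∀ g : GL ι F, IsMono g → g ∈ Cfsg.Geo.specialLinear ι F → g ∈ N)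
    {g : GL ι F} (hgN : g ∈ N) (hg : ¬ IsMono g) : MonoGLOvergroup.Elem N := by
  classical
  obtain ⟨r, hr⟩ : ∃ r, ∀ i, (g : Matrix ι ι F) *ᵥ ax r ∉ Submodule.span F {ax i} := by
    by_contra hc
    push Not at hc
    exact hg hc
  have col : ∀ x ∈ N, Cube N (pr r ∘ₗ Matrix.toLin' ((x⁻¹ : GL ι F) : Matrix ι ι F))
      ((x : Matrix ι ι F) *ᵥ ax r) := fun x hx => (cube_scale hn hq hS hI r).conj hx fun y => by
    rw [LinearMap.comp_apply, Matrix.toLin'_apply, inv_mulVec_mulVec]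
  set v := pr r ∘ₗ Matrix.toLin' ((g⁻¹ : GL ι F) : Matrix ι ι F) with hvdef
  set u := (g : Matrix ι ι F) *ᵥ ax r with hudef
  by_cases hsupp : ∀ i, u i = 0 ↔ v (ax i) = 0
  swap
  · push Not at hsupp
    obtain ⟨i, hi⟩ := hsupp
    exact elem_of_unequal hn hq hS hI (col g hgN) (k := i) fun e => by tauto
  by_cases hS3 : ∀ i, u i ≠ 0
  · exact elem_of_three hn hq hS hI (col g hgN) hS3
  push Not at hS3
  obtain ⟨p, hup⟩ := hS3
  -- the support is a pair `k, l`
  obtain ⟨k, hk⟩ : ∃ k, u k ≠ 0 := by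
    by_contra hc; push Not at hc
    exact hr r (by rw [show u = 0 from funext hc]; exact Submodule.zero_mem _)
  obtain ⟨l, hlk, hl⟩ : ∃ l, l ≠ k ∧ u l ≠ 0 := by
    by_contra hc; push Not at hc
    exact hr k (mem_axis_iff.2 hc)
  have hkp : k ≠ p := fun e => hk (e ▸ hup)
  have hlp : l ≠ p := fun e => hl (e ▸ hup)
  have huniv : ∀ i, i = k ∨ i = l ∨ i = p := by
    intro i
    by_contra hc; push Not at hc
    have : ({i, k, l, p} : Finset ι).card = 4 := by
      rw [Finset.card_insert_of_notMem (by simp [hc.1, hc.2.1, hc.2.2]),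
        Finset.card_eq_three.2 ⟨k, l, p, hlk.symm, hkp, hlp, rfl⟩]
    have h4 := Finset.card_le_univ ({i, k, l, p} : Finset ι)
    omega
  obtain ⟨a, ha⟩ := Finset.exists_mem_notMem_of_card_lt_card (s := ({r} : Finset ι))
    (t := Finset.univ) (by rw [Finset.card_singleton, Finset.card_univ]; omega)
  obtain ⟨b, hb⟩ := Finset.exists_mem_notMem_of_card_lt_card (s := ({r, a} : Finset ι))
    (t := Finset.univ)
    (by have := Finset.card_le_two (a := r) (b := a); rw [Finset.card_univ]; omega)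
  simp only [Finset.mem_univ, Finset.mem_insert, Finset.mem_singleton, not_or, true_and] at ha hb
  -- monomial elements carrying `u` to `e_a + c e_b`
  have move : ∀ c : Fˣ, ∃ m ∈ N, (m : Matrix ι ι F) *ᵥ u = ax a + (c : F) • ax b := by
    intro c
    obtain ⟨π, hπk, hπl⟩ : ∃ π : Equiv.Perm ι, π k = a ∧ π l = b := by
      set l1 := Equiv.swap k a l with hl1
      refine ⟨(Equiv.swap k a).trans (Equiv.swap l1 b), ?_, ?_⟩
      · rw [Equiv.trans_apply, Equiv.swap_apply_left]
        refine Equiv.swap_apply_of_ne_of_ne (fun e => hlk ?_) (Ne.symm hb.2)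
        apply (Equiv.swap k a).injective
        rw [Equiv.swap_apply_left]; exact e.symm
      · rw [Equiv.trans_apply, ← hl1, Equiv.swap_apply_left]
    set w : ι → Fˣ := fun i => if i = k then (Units.mk0 _ hk)⁻¹ else if i = l then c * (Units.mk0 _ hl)⁻¹
      else 1 with hw
    set d := Matrix.GeneralLinearGroup.det (monoGL π w) with hd
    refine ⟨monoGL π w * dg (scale p d⁻¹), hA _ ((isMono_monoGL _ _).mul (isMono_dg _)) ?_, ?_⟩
    · show Matrix.GeneralLinearGroup.det (monoGL π w * dg (scale p d⁻¹)) = 1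
      have : Matrix.GeneralLinearGroup.det (dg (scale p d⁻¹) : GL ι F) = d⁻¹ := by
        apply Units.ext
        show (Matrix.diagonal fun i => (scale p d⁻¹ i : F)).det = _
        rw [Matrix.det_diagonal, ← Units.coe_prod]
        simp [scale]
      rw [map_mul, this, mul_inv_cancel]
    · have e : u = u k • ax k + u l • ax l := funext fun i => by
        rcases huniv i with rfl | rfl | rfl
        · simp [hlk.symm]
        · simp [hlk]
        · simp [hup, Ne.symm hkp, Ne.symm hlp]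
      rw [Units.val_mul, ← mulVec_mulVec]
      conv_lhs => rw [e]
      simp only [mulVec_add, mulVec_smul, dg_mulVec_ax, monoGL_mulVec_ax, hπk, hπl]
      simp [scale, hkp, hlp, hw, hlk, smul_smul, hk, hl]
      congr 1
      field_simp
  -- three candidate points of the kernel
  obtain ⟨ε, hε⟩ := IsCyclic.exists_ofOrder_eq_natCard (α := Fˣ)
  have hord : 4 ≤ orderOf ε := by
    rw [hε, Nat.card_eq_fintype_card, Fintype.card_units]; omega
  set za := (g : Matrix ι ι F) *ᵥ ax a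
  set zb := (g : Matrix ι ι F) *ᵥ ax b
  have hvk : v (ax k) ≠ 0 := fun e => hk ((hsupp k).2 e)
  have hvl : v (ax l) ≠ 0 := fun e => hl ((hsupp l).2 e)
  have hvp : v (ax p) = 0 := (hsupp p).1 hup
  have hker : ∀ c : F, (v (za + c • zb)) = 0 := fun c => by
    rw [hvdef, LinearMap.comp_apply, Matrix.toLin'_apply, mulVec_add, mulVec_smul, inv_mulVec_mulVec,
      inv_mulVec_mulVec, LinearMap.proj_apply, Pi.add_apply, Pi.smul_apply,
      Pi.single_eq_of_ne (Ne.symm ha), Pi.single_eq_of_ne (Ne.symm hb.1)]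
    simp
  obtain ⟨c, hc⟩ : ∃ c : Fˣ, ∀ i, (za + (c : F) • zb) i ≠ 0 := by
    by_contra hall
    push Not at hall
    have hz : ∀ c : Fˣ, (za + (c : F) • zb) p = 0 ∨ (za + (c : F) • zb) k = 0 := by
      intro c
      obtain ⟨i, hi⟩ := hall c
      rcases huniv i with rfl | rfl | rfl
      · exact Or.inr hi
      · right
        have h0 := hker c
        rw [apply_eq_sum v, Finset.sum_eq_single k (fun j _ hj => ?_) (by simp)] at h0
        · exact (mul_eq_zero.1 h0).resolve_right hvk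
        · rcases huniv j with rfl | rfl | rfl
          · exact absurd rfl hj
          · rw [hi, zero_mul]
          · rw [hvp, mul_zero]
      · exact Or.inl hi
    -- two of three scalars share a zero
    have hne : ∀ i j : ℕ, i < j → j ≤ 2 → ε ^ i ≠ ε ^ j := fun i j hij hj e => by
      have := pow_injOn_Iio_orderOf (x := ε) (Set.mem_Iio.2 (by omega)) (Set.mem_Iio.2 (by omega)) e
      omega
    obtain ⟨c, c', hcc, i, hip, hc1, hc2⟩ : ∃ c c' : Fˣ, c ≠ c' ∧ ∃ i, (i = p ∨ i = k) ∧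
        (za + (c : F) • zb) i = 0 ∧ (za + (c' : F) • zb) i = 0 := by
      have h01 := hne 0 1 one_pos one_le_two
      have h02 := hne 0 2 two_pos le_rfl
      have h12 := hne 1 2 one_lt_two le_rfl
      rcases hz (ε ^ 0) with h0 | h0 <;> rcases hz (ε ^ 1) with h1 | h1 <;>
        rcases hz (ε ^ 2) with h2 | h2
      all_goals first
        | exact ⟨_, _, h01, _, Or.inl rfl, h0, h1⟩
        | exact ⟨_, _, h02, _, Or.inl rfl, h0, h2⟩
        | exact ⟨_, _, h12, _, Or.inl rfl, h1, h2⟩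
        | exact ⟨_, _, h01, _, Or.inr rfl, h0, h1⟩
        | exact ⟨_, _, h02, _, Or.inr rfl, h0, h2⟩
        | exact ⟨_, _, h12, _, Or.inr rfl, h1, h2⟩
    simp only [Pi.add_apply, Pi.smul_apply, smul_eq_mul] at hc1 hc2
    have hb0 : zb i = 0 := by
      have : ((c : F) - c') * zb i = 0 := by linear_combination hc1 - hc2
      exact (mul_eq_zero.1 this).resolve_left (sub_ne_zero.2 fun e => hcc (Units.ext e))
    have ha0 : za i = 0 := by rw [hb0, mul_zero, add_zero] at hc1; exact hc1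
    have hva : ∀ z, v z = 0 → z k = 0 → z l = 0 := by
      intro z h0 hzk
      rw [apply_eq_sum v, Finset.sum_eq_single l (fun j _ hj => ?_) (by simp)] at h0
      · exact (mul_eq_zero.1 h0).resolve_right hvl
      · rcases huniv j with rfl | rfl | rfl
        · rw [hzk, zero_mul]
        · exact absurd rfl hj
        · rw [hvp, mul_zero]
    have hva0 : v za = 0 := by simpa using hker 0
    have hvb0 : v zb = 0 := by
      have := hker 1
      rw [one_smul, map_add, hva0, zero_add] at this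
      exact this
    -- a functional killing all columns
    obtain ⟨φ, hφ0, hφu, hφa, hφb⟩ : ∃ φ : Module.Dual F (ι → F), φ ≠ 0 ∧ φ u = 0 ∧ φ za = 0 ∧ φ zb = 0 := by
      rcases hip with rfl | rfl
      · exact ⟨pr i, fun e => by simpa using LinearMap.congr_fun e (ax i), hup, ha0, hb0⟩
      · refine ⟨u l • pr i - u i • pr l, fun e => hl ?_, ?_, ?_, ?_⟩
        · simpa [Ne.symm hlk, hlk] using LinearMap.congr_fun e (ax i)
        · simp [mul_comm]
        · simp [ha0, hva za hva0 ha0]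
        · simp [hb0, hva zb hvb0 hb0]
    refine hφ0 (LinearMap.ext fun x => ?_)
    have hall' : ∀ j, φ ((g : Matrix ι ι F) *ᵥ ax j) = 0 := by
      intro j
      by_cases hjr : j = r
      · rw [hjr]; exact hφu
      by_cases hja : j = a
      · rw [hja]; exact hφa
      by_cases hjb : j = b
      · rw [hjb]; exact hφb
      exfalso
      have : ({j, r, a, b} : Finset ι).card = 4 := by
        rw [Finset.card_insert_of_notMem (by simp [hjr, hja, hjb]),
          Finset.card_eq_three.2 ⟨r, a, b, Ne.symm ha, Ne.symm hb.1, Ne.symm hb.2, rfl⟩]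
      have h4 := Finset.card_le_univ ({j, r, a, b} : Finset ι)
      omega
    have h5 : φ ∘ₗ Matrix.toLin' (g : Matrix ι ι F) = 0 := dual_ext fun j => by simpa using hall' j
    have h6 := LinearMap.congr_fun h5 (((g⁻¹ : GL ι F) : Matrix ι ι F) *ᵥ x)
    simpa [mulVec_inv_mulVec] using h6
  obtain ⟨m, hm, hmu⟩ := move c
  have h' := col _ (N.mul_mem (N.mul_mem hgN hm) hgN)
  rw [Units.val_mul, Units.val_mul, ← mulVec_mulVec, ← mulVec_mulVec, ← hudef, hmu, mulVec_add,
    mulVec_smul] at h'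
  exact elem_of_three hn hq hS hI h' hc

end CfsgLib.SLThree90.Mono
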