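import Cfsg.Agent.Classical.FullCentres

/-!
Two full shear families on the quotient by a point give every transvection with that centre
(dimension three, odd characteristic).
-/

set_option autoImplicit false

namespace CfsgLib.SLThree90.Std

open Matrix CfsgLib.TransvGL CfsgLib.FullCentres

variable {ι : Type} [Fintype ι] [DecidableEq ι] {F : Type*} [Field F]

/-- Congruence modulo the point. -/
def Cong (u x y : ι → F) : Prop := x - y ∈ Submodule.span F {u}

theorem Cong.refl (u x : ι → F) : Cong u x x := by simp [Cong]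

theorem Cong.trans {u x y z : ι → F} (h : Cong u x y) (h' : Cong u y z) : Cong u x z := by
  have := Submodule.add_mem _ h h'
  rwa [sub_add_sub_cancel] at this

theorem Cong.symm {u x y : ι → F} (h : Cong u x y) : Cong u y x := by
  have := Submodule.neg_mem _ h
  rwa [neg_sub] at this

theorem Cong.smul {u x y : ι → F} (h : Cong u x y) (r : F) : Cong u (r • x) (r • y) := by
  have := Submodule.smul_mem _ r h
  rwa [smul_sub] at this

theorem Cong.add {u x y x' y' : ι → F} (h : Cong u x y) (h' : Cong u x' y') :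
    Cong u (x + x') (y + y') := by
  have := Submodule.add_mem _ h h'
  unfold Cong
  rwa [add_sub_add_comm]

theorem Cong.map {u x y : ι → F} (h : Cong u x y) {g : GL ι F}
    (hg : (g : Matrix ι ι F) *ᵥ u = u) :
    Cong u ((g : Matrix ι ι F) *ᵥ x) ((g : Matrix ι ι F) *ᵥ y) := by
  obtain ⟨r, hr⟩ := Submodule.mem_span_singleton.1 h
  refine Submodule.mem_span_singleton.2 ⟨r, ?_⟩
  rw [← mulVec_sub, ← hr, mulVec_smul, hg]

/-- `M` contains a lift of every shear `x ↦ x + s ξ(x) a` of the quotient by `u`. -/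
def Shift (M : Subgroup (GL ι F)) (u a : ι → F) (ξ : Module.Dual F (ι → F)) : Prop :=
  ∀ s : F, ∃ g ∈ M, (g : Matrix ι ι F) *ᵥ u = u ∧
    ∀ x, Cong u ((g : Matrix ι ι F) *ᵥ x) (x + (s * ξ x) • a)

variable {M : Subgroup (GL ι F)}

theorem Shift.conj {u a : ι → F} {ξ : Module.Dual F (ι → F)} (h : Shift M u a ξ) {k : GL ι F}
    (hk : k ∈ M) {c : F} (hku : (k : Matrix ι ι F) *ᵥ u = c • u) :
    Shift M u ((k : Matrix ι ι F) *ᵥ a)
      (ξ ∘ₗ Matrix.toLin' ((k⁻¹ : GL ι F) : Matrix ι ι F)) := by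
  intro s
  obtain ⟨g, hg, hgu, hgx⟩ := h s
  have hmul : ∀ y, ((k * g * k⁻¹ : GL ι F) : Matrix ι ι F) *ᵥ y =
      (k : Matrix ι ι F) *ᵥ ((g : Matrix ι ι F) *ᵥ (((k⁻¹ : GL ι F) : Matrix ι ι F) *ᵥ y)) :=
    fun y => by rw [Units.val_mul, Units.val_mul, ← mulVec_mulVec, ← mulVec_mulVec]
  have hinv : ∀ y, (k : Matrix ι ι F) *ᵥ (((k⁻¹ : GL ι F) : Matrix ι ι F) *ᵥ y) = y := fun y => by
    rw [mulVec_mulVec, ← Units.val_mul, mul_inv_cancel, Units.val_one, one_mulVec]
  refine ⟨k * g * k⁻¹, M.mul_mem (M.mul_mem hk hg) (M.inv_mem hk), ?_, fun x => ?_⟩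
  · by_cases hc : c = 0
    · have h0 : u = 0 := by
        have := congrArg (((k⁻¹ : GL ι F) : Matrix ι ι F) *ᵥ ·) hku
        simpa [hc, mulVec_mulVec] using this
      rw [h0, mulVec_zero]
    · have h1 : ((k⁻¹ : GL ι F) : Matrix ι ι F) *ᵥ u = c⁻¹ • u := by
        have := congrArg (((k⁻¹ : GL ι F) : Matrix ι ι F) *ᵥ ·) hku
        simp only [mulVec_smul, mulVec_mulVec, ← Units.val_mul, inv_mul_cancel, Units.val_one,
          one_mulVec] at this
        rw [eq_inv_smul_iff₀ hc]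
        exact this.symm
      rw [hmul, h1, mulVec_smul, hgu, mulVec_smul, hku, smul_smul, inv_mul_cancel₀ hc, one_smul]
  · obtain ⟨r, hr⟩ := Submodule.mem_span_singleton.1 (hgx (((k⁻¹ : GL ι F) : Matrix ι ι F) *ᵥ x))
    refine Submodule.mem_span_singleton.2 ⟨r * c, ?_⟩
    rw [hmul, LinearMap.comp_apply, Matrix.toLin'_apply]
    have e := eq_add_of_sub_eq hr.symm
    rw [e, mulVec_add, mulVec_add, mulVec_smul, mulVec_smul, hinv, hku, smul_smul]
    abel

/-- Two shears with different axes at `u`: every transvection with centre `u` is in `M`. -/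
theorem full_of_two_shifts (h2F : (2 : F) ≠ 0) {u a b : ι → F} {ξ η : Module.Dual F (ι → F)}
    (hX : Shift M u a ξ) (hY : Shift M u b η) (hξu : ξ u = 0) (hηu : η u = 0) (hξa : ξ a = 0)
    (hηb : η b = 0) (hξb : ξ b ≠ 0) (hηa : η a ≠ 0)
    (hdec : ∀ x, ∃ α β γ : F, x = α • a + β • b + γ • u)
    {g : GL ι F} (hgM : g ∈ M) (hgu : (g : Matrix ι ι F) *ᵥ u = u)
    (hgx : ∀ x, Cong u ((g : Matrix ι ι F) *ᵥ x) (x + ξ x • a))
    {c : F} (hc : c ≠ 0) (hga : (g : Matrix ι ι F) *ᵥ a = a + c • u) (hu : u ≠ 0) : Full M u := by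
  classical
  -- an element acting as `-1` on the quotient
  obtain ⟨X, hXM, hXu, hXx⟩ := hX 1
  obtain ⟨Y, hYM, hYu, hYx⟩ := hY (-(ξ b * η a)⁻¹)
  set w := X * Y * X with hw
  have hwM : w ∈ M := M.mul_mem (M.mul_mem hXM hYM) hXM
  have hwu : (w : Matrix ι ι F) *ᵥ u = u := by
    rw [hw, Units.val_mul, Units.val_mul, ← mulVec_mulVec, ← mulVec_mulVec, hXu, hYu, hXu]
  have hwstep : ∀ x y, Cong u x y → Cong u ((w : Matrix ι ι F) *ᵥ x)
      (y + (1 * ξ y) • a + (-(ξ b * η a)⁻¹ * η (y + (1 * ξ y) • a)) • b +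
        (1 * ξ (y + (1 * ξ y) • a + (-(ξ b * η a)⁻¹ * η (y + (1 * ξ y) • a)) • b)) • a) := by
    intro x y hxy
    refine (hxy.map hwu).trans ?_
    rw [hw, Units.val_mul, Units.val_mul, ← mulVec_mulVec, ← mulVec_mulVec]
    exact ((((hXx y).map hYu).trans (hYx _)).map hXu).trans (hXx _)
  set τ := w * w with hτ
  have hτM : τ ∈ M := M.mul_mem hwM hwM
  have hτu : (τ : Matrix ι ι F) *ᵥ u = u := by rw [hτ, Units.val_mul, ← mulVec_mulVec, hwu, hwu]
  have hτx : ∀ x, Cong u ((τ : Matrix ι ι F) *ᵥ x) (-x) := by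
    intro x
    obtain ⟨α, β, γ, rfl⟩ := hdec x
    have h1 : Cong u ((w : Matrix ι ι F) *ᵥ (α • a + β • b + γ • u))
        ((β * ξ b) • a + (-α * (ξ b)⁻¹) • b) := by
      refine (hwstep _ (α • a + β • b) ?_).trans ?_
      · exact Submodule.mem_span_singleton.2 ⟨γ, by abel⟩
      convert Cong.refl u _ using 1
      simp only [map_add, map_smul, smul_eq_mul, hξa, hηb, mul_zero, add_zero, zero_add, one_mul]
      match_scalars <;> field_simp <;> ring
    have h2 : Cong u ((τ : Matrix ι ι F) *ᵥ (α • a + β • b + γ • u)) (-α • a + -β • b) := by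
      rw [hτ, Units.val_mul, ← mulVec_mulVec]
      refine (hwstep _ _ h1).trans ?_
      convert Cong.refl u _ using 1
      simp only [map_add, map_smul, smul_eq_mul, hξa, hηb, mul_zero, add_zero, zero_add, one_mul]
      match_scalars <;> field_simp <;> ring
    refine h2.trans ?_
    exact Submodule.mem_span_singleton.2 ⟨γ, by module⟩
  -- the commutator with the shear is a transvection with centre `u`
  set h := τ * g * τ⁻¹ * g⁻¹ with hh
  have hhM : h ∈ M := M.mul_mem (M.mul_mem (M.mul_mem hτM hgM) (M.inv_mem hτM)) (M.inv_mem hgM)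
  have hinv : ∀ (m : GL ι F) y, (m : Matrix ι ι F) *ᵥ (((m⁻¹ : GL ι F) : Matrix ι ι F) *ᵥ y) = y :=
    fun m y => by rw [mulVec_mulVec, ← Units.val_mul, mul_inv_cancel, Units.val_one, one_mulVec]
  have hinv' : ∀ (m : GL ι F) y, ((m⁻¹ : GL ι F) : Matrix ι ι F) *ᵥ ((m : Matrix ι ι F) *ᵥ y) = y :=
    fun m y => by rw [mulVec_mulVec, ← Units.val_mul, inv_mul_cancel, Units.val_one, one_mulVec]
  have hhu : (h : Matrix ι ι F) *ᵥ u = u := by
    have e1 : ((g⁻¹ : GL ι F) : Matrix ι ι F) *ᵥ u = u := by conv_lhs => rw [← hgu, hinv']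
    have e2 : ((τ⁻¹ : GL ι F) : Matrix ι ι F) *ᵥ u = u := by conv_lhs => rw [← hτu, hinv']
    rw [hh, Units.val_mul, Units.val_mul, Units.val_mul, ← mulVec_mulVec, ← mulVec_mulVec,
      ← mulVec_mulVec, e1, e2, hgu, hτu]
  have hhx : ∀ x, (h : Matrix ι ι F) *ᵥ x - x ∈ Submodule.span F {u} := by
    intro x
    obtain ⟨y, rfl⟩ : ∃ y, x = (g : Matrix ι ι F) *ᵥ ((τ : Matrix ι ι F) *ᵥ y) :=
      ⟨((τ⁻¹ : GL ι F) : Matrix ι ι F) *ᵥ (((g⁻¹ : GL ι F) : Matrix ι ι F) *ᵥ x), by rw [hinv, hinv]⟩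
    rw [hh, Units.val_mul, Units.val_mul, Units.val_mul, ← mulVec_mulVec, ← mulVec_mulVec,
      ← mulVec_mulVec, hinv', hinv']
    show Cong u ((τ : Matrix ι ι F) *ᵥ ((g : Matrix ι ι F) *ᵥ y)) _
    refine (((hgx y).map hτu).trans (hτx _)).trans (Cong.symm ?_)
    refine (((hτx y).map hgu).trans (hgx _)).trans ?_
    convert Cong.refl u _ using 1
    rw [map_neg]
    module
  -- its functional
  obtain ⟨i, hi⟩ : ∃ i, u i ≠ 0 := Function.ne_iff.1 hu
  set φ : Module.Dual F (ι → F) :=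
    (u i)⁻¹ • ((LinearMap.proj i : Module.Dual F (ι → F)) ∘ₗ
      (Matrix.toLin' (h : Matrix ι ι F) - LinearMap.id)) with hφdef
  have hφx : ∀ x, (h : Matrix ι ι F) *ᵥ x = x + φ x • u := by
    intro x
    obtain ⟨r, hr⟩ := Submodule.mem_span_singleton.1 (hhx x)
    have : φ x = r := by
      rw [hφdef, LinearMap.smul_apply, LinearMap.comp_apply, LinearMap.sub_apply, Matrix.toLin'_apply,
        LinearMap.id_apply, LinearMap.proj_apply, ← hr, Pi.smul_apply, smul_eq_mul, smul_eq_mul]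
      field_simp
    rw [this, hr]; abel
  have hφu : φ u = 0 := by
    have := hφx u
    rw [hhu] at this
    exact (smul_eq_zero.1 (left_eq_add.1 this)).resolve_right hu
  have hHas : Has M u φ := by
    refine ⟨hφu, ?_⟩
    rw [show transv hφu = h from ext_mulVec fun x => by rw [transv_mulVec, hφx]]
    exact hhM
  have hφ0 : ¬ (φ a = 0 ∧ φ b = 0) := by
    rintro ⟨h1, h2⟩
    have hz : ∀ x, (h : Matrix ι ι F) *ᵥ x = x := fun x => by
      obtain ⟨α, β, γ, rfl⟩ := hdec x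
      rw [hφx]
      simp [h1, h2, hφu]
    have h3 : (τ : Matrix ι ι F) *ᵥ ((g : Matrix ι ι F) *ᵥ a) =
        (g : Matrix ι ι F) *ᵥ ((τ : Matrix ι ι F) *ᵥ a) := by
      have := hz ((g : Matrix ι ι F) *ᵥ ((τ : Matrix ι ι F) *ᵥ a))
      rwa [hh, Units.val_mul, Units.val_mul, Units.val_mul, ← mulVec_mulVec, ← mulVec_mulVec,
        ← mulVec_mulVec, hinv', hinv'] at this
    obtain ⟨r, hr⟩ := Submodule.mem_span_singleton.1 (hτx a)
    have hτa : (τ : Matrix ι ι F) *ᵥ a = -a + r • u := by rw [hr]; abel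
    rw [hga, mulVec_add, mulVec_smul, hτu, hτa, mulVec_add, mulVec_neg, mulVec_smul, hga, hgu] at h3
    have h4 : (2 * c) • u = 0 := by linear_combination (norm := module) h3
    exact mul_ne_zero h2F hc ((smul_eq_zero.1 h4).resolve_right hu)
  -- spreading
  have spread : ∀ {a' : ι → F} {ξ' : Module.Dual F (ι → F)}, Shift M u a' ξ' → ξ' a' = 0 →
      ∀ {ψ : Module.Dual F (ι → F)}, Has M u ψ → ψ a' ≠ 0 → ∀ r : F, Has M u (r • ξ') := by
    intro a' ξ' hS hξa' ψ hψ hne r
    obtain ⟨m, hm, hmu, hmx⟩ := hS (r / ψ a')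
    have hmM := hψ.conj hm (ψ := ψ - r • ξ') fun x => by
      obtain ⟨l, hl⟩ := Submodule.mem_span_singleton.1 (hmx x)
      have h0 := hψ.apply_eq
      have hu0 : ξ' u = 0 ∨ r = 0 := by
        obtain ⟨l', hl'⟩ := Submodule.mem_span_singleton.1 (hmx u)
        rw [hmu] at hl'
        have := congrArg ψ hl'
        simp only [map_smul, map_sub, map_add, smul_eq_mul, h0, mul_zero, zero_add, zero_sub] at this
        have h5 : r * ξ' u = 0 := by
          rw [div_mul_eq_mul_div, div_mul_cancel₀ _ hne] at this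
          linear_combination this
        exact (mul_eq_zero.1 h5).symm
      rw [eq_add_of_sub_eq hl.symm]
      simp only [map_add, map_smul, LinearMap.sub_apply, LinearMap.smul_apply, smul_eq_mul, h0, hξa']
      rcases hu0 with h5 | h5 <;> rw [h5] <;> field_simp <;> ring
    rw [hmu] at hmM
    simpa using hψ.sub hmM
  have both : (∀ r : F, Has M u (r • ξ)) ∧ ∀ r : F, Has M u (r • η) := by
    by_cases ha : φ a = 0
    · have hb := spread hY hηb hHas (fun hb => hφ0 ⟨ha, hb⟩)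
      refine ⟨spread hX hξa (hb 1) ?_, hb⟩
      simpa using hηa
    · have ha' := spread hX hξa hHas ha
      refine ⟨ha', spread hY hηb (ha' 1) ?_⟩
      simpa using hξb
  intro ψ hψu
  have e : ψ = (ψ b / ξ b) • ξ + (ψ a / η a) • η := by
    refine LinearMap.ext fun x => ?_
    obtain ⟨α, β, γ, rfl⟩ := hdec x
    simp [hξu, hηu, hξa, hηb, hψu]
    field_simp
    ring
  rw [e]
  exact (both.1 _).add (both.2 _)

end CfsgLib.SLThree90.Std
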