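import Cfsg.Agent.SLFour90.OrthFourBase
import Cfsg.Agent.SLThree90.StdPointFull

/-!
The similarities of a quadratic form on a three-space, odd characteristic, are maximal in the
special linear group.
-/

set_option autoImplicit false
set_option linter.unusedSectionVars false

namespace CfsgLib.SLThree90.Orth

open Cfsg.Geo Module CfsgLib.OrthGeo CfsgLib.TransvGL CfsgLib.FullCentres CfsgLib.SLThree90.Std
open scoped Matrix MatrixGroups

attribute [-simp] bform_apply

variable {ι : Type} [Fintype ι] [DecidableEq ι] {F : Type*} [Field F] [Finite F]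
variable {Q : (ι → F) → F} (hQ : IsNondegenerateQuadraticForm Q)
include hQ

/-- A hyperbolic pair and a vector orthogonal to it. -/
theorem exists_frame (hn : Fintype.card ι = 3) (h2F : (2 : F) ≠ 0) :
    ∃ u v w, u ≠ 0 ∧ Q u = 0 ∧ Q v = 0 ∧ bform hQ u v = 1 ∧ bform hQ u w = 0 ∧ bform hQ v w = 0 ∧
      Q w ≠ 0 := by
  obtain ⟨u, -, hu0, hu⟩ := exists_singular hQ (S := ⊤) (by
    rw [finrank_top, finrank_fintype_fun_eq_card]; omega)
  obtain ⟨v, hv, huv⟩ := exists_partner hQ hu hu0
  have hvu : bform hQ v u = 1 := by rw [b_symm hQ, huv]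
  obtain ⟨w, hw, hw0⟩ : ∃ w ∈ perp hQ (Submodule.span F {u} ⊔ Submodule.span F {v}), w ≠ 0 := by
    refine Submodule.exists_mem_ne_zero_of_ne_bot fun h => ?_
    have h1 := finrank_perp_add hQ (Submodule.span F {u} ⊔ Submodule.span F {v})
    have h2 := finrank_span_pair_le hQ u v
    rw [h, finrank_bot] at h1
    omega
  obtain ⟨huw, hvw⟩ := (mem_perp_pair hQ).1 hw
  refine ⟨u, v, w, hu0, hu, hv, huv, huw, hvw, fun hw' => ?_⟩
  -- otherwise a totally singular plane
  have hts : IsTotallySingularQuad Q (Submodule.span F {u} ⊔ Submodule.span F {w}) := by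
    intro x hx
    obtain ⟨_, h1, _, h2, rfl⟩ := Submodule.mem_sup.1 hx
    obtain ⟨r, rfl⟩ := Submodule.mem_span_singleton.1 h1
    obtain ⟨s, rfl⟩ := Submodule.mem_span_singleton.1 h2
    simp [q_add hQ, q_smul hQ, hu, hw', huw]
  have h1 := two_mul_finrank_le hQ hts
  have hind : Submodule.span F {u} < Submodule.span F {u} ⊔ Submodule.span F {w} := by
    refine lt_of_le_of_ne le_sup_left fun e => ?_
    have hm : w ∈ Submodule.span F {u} :=
      e.symm ▸ Submodule.mem_sup_right (Submodule.mem_span_singleton_self w)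
    obtain ⟨r, rfl⟩ := Submodule.mem_span_singleton.1 hm
    rw [map_smul, hvu, smul_eq_mul, mul_one] at hvw
    rw [hvw, zero_smul] at hw0
    exact hw0 rfl
  have h2 := Submodule.finrank_lt_finrank_of_lt hind
  rw [finrank_span_singleton hu0] at h2
  omega

theorem decompose {u v w : ι → F} (hn : Fintype.card ι = 3) (h2F : (2 : F) ≠ 0) (hu : Q u = 0)
    (hv : Q v = 0) (huv : bform hQ u v = 1) (huw : bform hQ u w = 0) (hvw : bform hQ v w = 0)
    (hw : Q w ≠ 0) (x : ι → F) :
    x = bform hQ v x • u + bform hQ u x • v + (bform hQ w x / bform hQ w w) • w := by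
  have hvu : bform hQ v u = 1 := by rw [b_symm hQ, huv]
  have hwu : bform hQ w u = 0 := by rw [b_symm hQ, huw]
  have hwv : bform hQ w v = 0 := by rw [b_symm hQ, hvw]
  have hww : bform hQ w w ≠ 0 := by rw [b_self hQ]; exact mul_ne_zero h2F hw
  have hli : LinearIndependent F ![u, v, w] := by
    rw [Fintype.linearIndependent_iff]
    intro c hc
    simp only [Fin.sum_univ_three, Matrix.cons_val_zero, Matrix.cons_val_one, Matrix.cons_val_two,
      Matrix.tail_cons, Matrix.head_cons] at hc
    have e1 := congrArg (bform hQ v) hc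
    have e2 := congrArg (bform hQ u) hc
    have e3 := congrArg (bform hQ w) hc
    simp [b_self_eq_zero hQ hu, b_self_eq_zero hQ hv, huv, hvu, huw, hvw, hwu, hwv] at e1 e2 e3
    intro i
    fin_cases i <;> simp_all
  have hspan := hli.span_eq_top_of_card_eq_finrank (by rw [finrank_fintype_fun_eq_card, hn]; rfl)
  have hx : x ∈ Submodule.span F (Set.range ![u, v, w]) := hspan ▸ Submodule.mem_top
  rw [Submodule.mem_span_range_iff_exists_fun] at hx
  obtain ⟨c, rfl⟩ := hx
  simp only [Fin.sum_univ_three, Matrix.cons_val_zero, Matrix.cons_val_one, Matrix.cons_val_two,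
      Matrix.tail_cons, Matrix.head_cons, map_add, map_smul, smul_eq_mul, b_self_eq_zero hQ hu,
    b_self_eq_zero hQ hv, huv, hvu, huw, hvw, hwu, hwv, mul_zero, mul_one, add_zero, zero_add,
    mul_div_cancel_right₀ _ hww]

/-- An element preserving the singular vectors is a similarity. -/
theorem similarity_of_singular (hn : Fintype.card ι = 3) (h2F : (2 : F) ≠ 0) {g : GL ι F}
    (hg : ∀ u, Q u = 0 → Q ((g : Matrix ι ι F) *ᵥ u) = 0) : g ∈ quadSimilarityGroup Q := by
  classical
  obtain ⟨e, f, x, -, he, hf, hef, hex, hfx, hx⟩ := exists_frame hQ hn h2F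
  have hdec := decompose hQ hn h2F he hf hef hex hfx hx
  have hfe : bform hQ f e = 1 := by rw [b_symm hQ, hef]
  set G : (ι → F) → (ι → F) := fun z => (g : Matrix ι ι F) *ᵥ z with hG
  set k := bform hQ (G e) (G f) with hk
  set A := bform hQ (G e) (G x) with hA
  set B := bform hQ (G f) (G x) with hB
  have base : ∀ r, r ≠ 0 → -(Q x) * k + Q (G x) + r * A - Q x / r * B = 0 := by
    intro r hr
    obtain ⟨s, hs⟩ : ∃ s, r * s = Q x := ⟨Q x / r, mul_div_cancel₀ _ hr⟩
    rw [show Q x / r = s by rw [← hs, mul_div_cancel_left₀ _ hr]]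
    have h1 : Q (r • e + (-s) • f + x) = 0 := by
      simp only [q_add hQ, q_smul hQ, map_add, map_smul, LinearMap.add_apply, LinearMap.smul_apply,
        smul_eq_mul, he, hf, hef, hex, hfx]
      linear_combination -hs
    have h2 := hg _ h1
    simp only [Matrix.mulVec_add, Matrix.mulVec_smul, q_add hQ, q_smul hQ, map_add, map_smul,
      LinearMap.add_apply, LinearMap.smul_apply, smul_eq_mul, hg e he, hg f hf] at h2
    simp only [hk, hA, hB, hG]
    linear_combination h2 + bform hQ ((g : Matrix ι ι F) *ᵥ e) ((g : Matrix ι ι F) *ᵥ f) * hs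
  have h1 := base 1 one_ne_zero
  have h2 := base (-1) (neg_ne_zero.2 one_ne_zero)
  rw [one_mul, div_one] at h1
  rw [div_neg, div_one] at h2
  have hAB : A = Q x * B := mul_left_cancel₀ h2F (by linear_combination h1 - h2)
  have hQx : Q (G x) = k * Q x := mul_left_cancel₀ h2F (by linear_combination h1 + h2)
  have hGsurj : ∀ z, G (((g⁻¹ : GL ι F) : Matrix ι ι F) *ᵥ z) = z := fun z => mulVec_inv_cancel g z
  have nondeg : ∀ α β γ : F, (γ ≠ 0 ∨ α ≠ 0 ∨ β ≠ 0) → β * k + γ * A = 0 → α * k + γ * B = 0 →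
      α * A + β * B + γ * (2 * (k * Q x)) = 0 → False := by
    intro α β γ hne r1 r2 r3
    have hz : G (α • e + β • f + γ • x) = 0 := by
      refine (b_nondeg hQ).1 _ fun z => ?_
      rw [← hGsurj z, hdec (((g⁻¹ : GL ι F) : Matrix ι ι F) *ᵥ z)]
      simp only [hG, Matrix.mulVec_add, Matrix.mulVec_smul, map_add, map_smul, LinearMap.add_apply,
        LinearMap.smul_apply, smul_eq_mul]
      simp only [hk, hA, hB, hG] at r1 r2 r3
      rw [b_self_eq_zero hQ (hg e he), b_self_eq_zero hQ (hg f hf),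
        b_symm hQ ((g : Matrix ι ι F) *ᵥ f) ((g : Matrix ι ι F) *ᵥ e),
        b_symm hQ ((g : Matrix ι ι F) *ᵥ x) ((g : Matrix ι ι F) *ᵥ e),
        b_symm hQ ((g : Matrix ι ι F) *ᵥ x) ((g : Matrix ι ι F) *ᵥ f),
        b_self hQ ((g : Matrix ι ι F) *ᵥ x)]
      simp only [hG] at hQx
      rw [hQx, hk, hG]
      set p := bform hQ f (((g⁻¹ : GL ι F) : Matrix ι ι F) *ᵥ z)
      set q := bform hQ e (((g⁻¹ : GL ι F) : Matrix ι ι F) *ᵥ z)
      set r := bform hQ x (((g⁻¹ : GL ι F) : Matrix ι ι F) *ᵥ z) / bform hQ x x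
      linear_combination p * r1 + q * r2 + r * r3
    have h0 : α • e + β • f + γ • x = 0 := by
      rw [← inv_mulVec_cancel g (α • e + β • f + γ • x)]
      simp only [hG] at hz
      rw [hz, Matrix.mulVec_zero]
    have e1 := congrArg (bform hQ f) h0
    have e2 := congrArg (bform hQ e) h0
    have e3 := congrArg (bform hQ x) h0
    simp only [map_add, map_smul, map_zero, smul_eq_mul, hfe, hfx, hef, hex, b_self_eq_zero hQ he,
      b_self_eq_zero hQ hf, b_symm hQ x e, b_symm hQ x f, b_self hQ x, mul_zero, mul_one,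
      add_zero, zero_add] at e1 e2 e3
    rcases hne with h | h | h
    · exact h ((mul_eq_zero.1 e3).resolve_right (mul_ne_zero h2F hx))
    · exact h e1
    · exact h e2
  have hk0 : k ≠ 0 := by
    intro h0
    by_cases hB0 : B = 0
    · exact nondeg 1 0 0 (Or.inr (Or.inl one_ne_zero)) (by simp) (by simp [h0]) (by simp [hAB, hB0])
    · exact nondeg B (-A) 0 (Or.inr (Or.inl hB0)) (by simp [h0]) (by simp [h0]) (by simp; ring)
  have hB0 : B = 0 := by
    by_contra hB0
    by_cases hex3 : ∃ r : F, r ≠ 0 ∧ r ^ 2 ≠ 1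
    · obtain ⟨r, hr, hr1⟩ := hex3
      have h3 := base r hr
      rw [hQx, hAB] at h3
      field_simp at h3
      have : (r ^ 2 - 1) * (Q x * B) = 0 := by linear_combination h3
      rcases mul_eq_zero.1 this with h | h
      · exact hr1 (sub_eq_zero.1 h)
      · exact hB0 ((mul_eq_zero.1 h).resolve_left hx)
    push Not at hex3
    set ε := B / k with hε
    have hε2 : ε ^ 2 = 1 := hex3 ε (div_ne_zero hB0 hk0)
    have hBk : B = ε * k := by rw [hε, div_mul_cancel₀ _ hk0]
    refine nondeg (-ε) (-ε * Q x) 1 (Or.inl one_ne_zero) ?_ ?_ ?_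
    · rw [hAB, hBk]; ring
    · rw [hBk]; ring
    · rw [hAB, hBk]; linear_combination -2 * k * Q x * hε2
  have hA0 : A = 0 := by rw [hAB, hB0, mul_zero]
  refine ⟨Units.mk0 k hk0, fun z => ?_⟩
  rw [hdec z, Units.val_mk0]
  simp only [hk, hA, hB, hG] at hA0 hB0 hQx
  simp only [Matrix.mulVec_add, Matrix.mulVec_smul, q_add hQ, q_smul hQ, map_add, map_smul,
    LinearMap.add_apply, LinearMap.smul_apply, smul_eq_mul, hg e he, hg f hf, he, hf, hef, hex, hfx,
    hA0, hB0, hQx, hk, hG]
  ring

variable (hn : Fintype.card ι = 3) (h2F : (2 : F) ≠ 0) {M : Subgroup (GL ι F)}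
  (hI : ∀ k, k ∈ Cfsg.isometryGroup F Q → k ∈ Cfsg.Geo.specialLinear ι F → k ∈ M)
include hn h2F hI

theorem neg_reflection_mem {b : ι → F} (hb : Q b ≠ 0) : -(reflection hQ hb) ∈ M := by
  refine hI _ (mem_isometryGroup.2 fun x => ?_) ?_
  · rw [Units.val_neg, Matrix.neg_mulVec, q_neg hQ]
    exact mem_isometryGroup.1 (reflection_mem hQ hb) x
  · rw [CfsgLib.PseudoRefl.mem_specialLinear_iff, Units.val_neg, Matrix.det_neg,
      CfsgLib.SLFour90.OrthFour.det_reflection hQ h2F hb, hn]
    norm_num

/-- Two vectors of one nonzero norm are conjugate up to sign. -/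
theorem exists_map_norm {z z' : ι → F} (hz : Q z ≠ 0) (h : Q z' = Q z) :
    ∃ s ∈ M, (s : Matrix ι ι F) *ᵥ z = z' ∨ (s : Matrix ι ι F) *ᵥ z = -z' := by
  have hzz : bform hQ z z = 2 * Q z := b_self hQ z
  by_cases h1 : Q (z - z') = 0
  · have h2 : Q (z + z') ≠ 0 := by
      intro h2
      rw [q_sub hQ] at h1
      rw [q_add hQ] at h2
      exact mul_ne_zero (mul_ne_zero h2F h2F) hz (by linear_combination h1 + h2 - 2 * h)
    refine ⟨_, neg_reflection_mem hQ hn h2F hI h2, Or.inl ?_⟩
    rw [Units.val_neg, Matrix.neg_mulVec, reflection_mulVec hQ]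
    have e : bform hQ (z + z') z = Q (z + z') := by
      rw [q_add hQ, map_add, LinearMap.add_apply, hzz, b_symm hQ z' z, h]; ring
    rw [e, inv_mul_cancel₀ h2, one_smul]
    abel
  · refine ⟨_, neg_reflection_mem hQ hn h2F hI h1, Or.inr ?_⟩
    rw [Units.val_neg, Matrix.neg_mulVec, reflection_mulVec hQ]
    have e : bform hQ (z - z') z = Q (z - z') := by
      rw [q_sub hQ, map_sub, LinearMap.sub_apply, hzz, b_symm hQ z' z, h]; ring
    rw [e, inv_mul_cancel₀ h1, one_smul]
    abel

/-- The shears at a singular point. -/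
theorem shift_eichler {u w : ι → F} (hu : Q u = 0) (hw : bform hQ u w = 0) :
    Shift M u w (-bform hQ u) := by
  intro s
  have hsw : bform hQ u (s • w) = 0 := by rw [map_smul, hw, smul_zero]
  refine ⟨eichler hQ hu hsw, hI _ (eichler_mem_isometryGroup hQ hu hsw)
    (CfsgLib.SLFour90.OrthFour.eichler_specialLinear hQ hu hsw), ?_, fun x => ?_⟩
  · rw [eichler_mulVec hQ, b_self_eq_zero hQ hu, b_symm hQ (s • w) u, hsw]; simp
  · refine Submodule.mem_span_singleton.2 ⟨bform hQ (s • w) x - Q (s • w) * bform hQ u x, ?_⟩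
    rw [eichler_mulVec hQ, LinearMap.neg_apply]
    module

/-- An element fixing a singular point and moving its tangent gives everything. -/
theorem specialLinear_le_of_move {u v w : ι → F} (hu0 : u ≠ 0) (hu : Q u = 0) (hv : Q v = 0)
    (huv : bform hQ u v = 1) (huw : bform hQ u w = 0) (hvw : bform hQ v w = 0) (hw : Q w ≠ 0)
    {k : GL ι F} (hk : k ∈ M) {c : F} (hku : (k : Matrix ι ι F) *ᵥ u = c • u)
    (hkw : bform hQ u ((k : Matrix ι ι F) *ᵥ w) ≠ 0) :
    Cfsg.Geo.specialLinear ι F ≤ M := by
  have hdec := decompose hQ hn h2F hu hv huv huw hvw hw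
  have hwu : bform hQ w u = 0 := by rw [b_symm hQ, huw]
  have hww : bform hQ w w = 2 * Q w := b_self hQ w
  set η : Module.Dual F (ι → F) :=
    (-bform hQ u) ∘ₗ Matrix.toLin' ((k⁻¹ : GL ι F) : Matrix ι ι F) with hη
  set b := (k : Matrix ι ι F) *ᵥ w with hb
  have hξ : Shift M u w (-bform hQ u) := shift_eichler hQ hn h2F hI hu huw
  have hη' : Shift M u b η := hξ.conj hk hku
  have hηx : ∀ x, η ((k : Matrix ι ι F) *ᵥ x) = -bform hQ u x := fun x => by
    rw [hη, LinearMap.comp_apply, Matrix.toLin'_apply, inv_mulVec_cancel, LinearMap.neg_apply]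
  have hc : c ≠ 0 := by
    intro h0
    apply hu0
    rw [← inv_mulVec_cancel k u, hku, h0, zero_smul, Matrix.mulVec_zero]
  have hηu : η u = 0 := by
    have := hηx u
    rw [hku, map_smul, b_self_eq_zero hQ hu, neg_zero, smul_eq_mul] at this
    exact (mul_eq_zero.1 this).resolve_left hc
  have hηb : η b = 0 := by rw [hb, hηx, huw, neg_zero]
  -- coordinates in the basis `w, b, u`
  have hbdec := hdec b
  set q := bform hQ u b with hq
  have hq0 : q ≠ 0 := hkw
  have hdec' : ∀ x, ∃ α β γ : F, x = α • w + β • b + γ • u := fun x => by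
    refine ⟨bform hQ w x / bform hQ w w - bform hQ u x / q * (bform hQ w b / bform hQ w w),
      bform hQ u x / q, bform hQ v x - bform hQ u x / q * bform hQ v b, ?_⟩
    obtain ⟨p1, hp1⟩ : ∃ r, r = bform hQ v b := ⟨_, rfl⟩
    obtain ⟨p3, hp3⟩ : ∃ r, r = bform hQ w b := ⟨_, rfl⟩
    rw [← hp1, ← hp3] at hbdec ⊢
    conv_lhs => rw [hdec x]
    conv_rhs => rw [hbdec]
    match_scalars <;> field_simp <;> ring
  have hηw : η w ≠ 0 := by
    intro h0
    have hall : ∀ x, η x = 0 := fun x => by
      obtain ⟨α, β, γ, rfl⟩ := hdec' x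
      simp [h0, hηb, hηu]
    have := hall ((k : Matrix ι ι F) *ᵥ v)
    rw [hηx, huv] at this
    exact one_ne_zero (neg_eq_zero.1 this)
  obtain ⟨m, hmM, hmu, hmx⟩ := hξ 1
  have hfull : Full M u := by
    have hw1 : bform hQ u ((1 : F) • w) = 0 := by rw [one_smul, huw]
    refine full_of_two_shifts h2F hξ hη' (by simp [b_self_eq_zero hQ hu]) hηu (by simp [huw]) hηb
      (by simpa using hkw) hηw hdec' (g := eichler hQ hu hw1)
      (hI _ (eichler_mem_isometryGroup hQ hu hw1)
        (CfsgLib.SLFour90.OrthFour.eichler_specialLinear hQ hu hw1)) ?_ (fun x => ?_)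
      (c := 2 * Q w) (mul_ne_zero h2F hw) ?_ hu0
    · rw [eichler_mulVec hQ, b_self_eq_zero hQ hu, one_smul, hwu]; simp
    · refine Submodule.mem_span_singleton.2 ⟨bform hQ w x - Q w * bform hQ u x, ?_⟩
      rw [eichler_mulVec hQ, LinearMap.neg_apply, one_smul]
      module
    · rw [eichler_mulVec hQ, one_smul, hww, huw]; simp
  -- three translates of `u` span
  have hvu : bform hQ v u = 1 := by rw [b_symm hQ, huv]
  have him : ∀ s : F, Full M (u - s • w - (s ^ 2 * Q w) • v) := by
    intro s
    have hvs : bform hQ v (s • w) = 0 := by rw [map_smul, hvw, smul_zero]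
    have h1 := hfull.image (hI _ (eichler_mem_isometryGroup hQ hv hvs)
      (CfsgLib.SLFour90.OrthFour.eichler_specialLinear hQ hv hvs))
    rw [eichler_mulVec hQ, hvu, q_smul hQ, map_smul, LinearMap.smul_apply, hwu, smul_zero, zero_smul,
      add_zero, one_smul, mul_one] at h1
    exact h1
  refine specialLinear_le_of_full (S := {u, u - (1 : F) • w - ((1 : F) ^ 2 * Q w) • v,
    u - (-1 : F) • w - ((-1 : F) ^ 2 * Q w) • v}) ?_ ?_
  · refine Submodule.eq_top_iff'.2 fun x => ?_
    set S : Set (ι → F) := {u, u - (1 : F) • w - ((1 : F) ^ 2 * Q w) • v,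
      u - (-1 : F) • w - ((-1 : F) ^ 2 * Q w) • v}
    have hu' : u ∈ Submodule.span F S := Submodule.subset_span (by simp [S])
    have h1 : u - (1 : F) • w - ((1 : F) ^ 2 * Q w) • v ∈ Submodule.span F S :=
      Submodule.subset_span (by simp [S])
    have h2 : u - (-1 : F) • w - ((-1 : F) ^ 2 * Q w) • v ∈ Submodule.span F S :=
      Submodule.subset_span (by simp [S])
    have hwS : w ∈ Submodule.span F S := by
      have := Submodule.smul_mem _ (2 : F)⁻¹ (Submodule.sub_mem _ h2 h1)
      convert this using 1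
      match_scalars <;> field_simp <;> ring
    have hvS : v ∈ Submodule.span F S := by
      have := Submodule.smul_mem _ (Q w)⁻¹
        (Submodule.sub_mem _ (Submodule.sub_mem _ hu' h1) hwS)
      convert this using 1
      match_scalars <;> field_simp <;> ring
    rw [hdec x]
    exact Submodule.add_mem _ (Submodule.add_mem _ (Submodule.smul_mem _ _ hu')
      (Submodule.smul_mem _ _ hvS)) (Submodule.smul_mem _ _ hwS)
  · rintro a (rfl | rfl | rfl)
    exacts [hfull, him 1, him (-1)]

omit hI in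
/-- The complement of the conic in a three element field: a frame of equal values. -/
theorem frame_of_three (h3 : ∀ r : F, r ≠ 0 → r ^ 2 = 1) {z a a' : ι → F} {ε : F} (hε : ε ≠ 0)
    (hz : Q z = ε) (ha : Q a = ε) (ha' : Q a' = -ε) (hza : bform hQ z a = 0)
    (hza' : bform hQ z a' = 0) (haa' : bform hQ a a' = 0) :
    ∃ b : Fin 3 → ι → F, (∀ i, Q (b i) = -ε) ∧ (∀ i j, i ≠ j → bform hQ (b i) (b j) = 0) ∧
      ∀ x, ∃ c : Fin 3 → F, x = ∑ i, c i • b i := by
  have h20 : (3 : F) = 0 := by
    have h := h3 2 h2F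
    linear_combination h
  refine ⟨![z + a, z - a, a'], ?_, ?_, ?_⟩
  · intro i
    fin_cases i
    · show Q (z + a) = _
      rw [q_add hQ, hz, ha, hza]; linear_combination ε * h20
    · show Q (z - a) = _
      rw [q_sub hQ, hz, ha, hza]; linear_combination ε * h20
    · exact ha'
  · intro i j hij
    have haz : bform hQ a z = 0 := by rw [b_symm hQ, hza]
    have ha'z : bform hQ a' z = 0 := by rw [b_symm hQ, hza']
    have ha'a : bform hQ a' a = 0 := by rw [b_symm hQ, haa']
    fin_cases i <;> fin_cases j <;> first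
      | exact absurd rfl hij
      | simp [b_self hQ, hz, ha, hza, haz, hza', ha'z, haa', ha'a]
  · have hb : ∀ c : Fin 3 → F, ∑ i, c i • (![z + a, z - a, a'] : Fin 3 → ι → F) i = 0 → c = 0 := by
      intro c hc
      simp only [Fin.sum_univ_three, Matrix.cons_val_zero, Matrix.cons_val_one, Matrix.cons_val_two,
        Matrix.tail_cons, Matrix.head_cons] at hc
      have e1 := congrArg (bform hQ z) hc
      have e2 := congrArg (bform hQ a) hc
      have e3 := congrArg (bform hQ a') hc
      have haz : bform hQ a z = 0 := by rw [b_symm hQ, hza]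
      have ha'z : bform hQ a' z = 0 := by rw [b_symm hQ, hza']
      have ha'a : bform hQ a' a = 0 := by rw [b_symm hQ, haa']
      simp only [map_add, map_sub, map_smul, map_zero, smul_eq_mul, b_self hQ, hz, ha, ha', hza, haz,
        hza', ha'z, haa', ha'a] at e1 e2 e3
      have k3 : c 2 = 0 := by
        have : c 2 * (2 * -ε) = 0 := by linear_combination e3
        exact (mul_eq_zero.1 this).resolve_right (mul_ne_zero h2F (neg_ne_zero.2 hε))
      have k1 : c 0 = 0 := by
        have : c 0 * (2 * (2 * ε)) = 0 := by linear_combination e1 + e2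
        exact (mul_eq_zero.1 this).resolve_right (mul_ne_zero h2F (mul_ne_zero h2F hε))
      have k2 : c 1 = 0 := by
        have : c 1 * (2 * (2 * ε)) = 0 := by linear_combination e1 - e2
        exact (mul_eq_zero.1 this).resolve_right (mul_ne_zero h2F (mul_ne_zero h2F hε))
      funext i
      fin_cases i <;> assumption
    intro x
    have hli : LinearIndependent F (![z + a, z - a, a'] : Fin 3 → ι → F) :=
      Fintype.linearIndependent_iff.2 fun c hc i => congrFun (hb c hc) i
    have hspan := hli.span_eq_top_of_card_eq_finrank (by rw [finrank_fintype_fun_eq_card, hn]; rfl)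
    have hx : x ∈ Submodule.span F (Set.range (![z + a, z - a, a'] : Fin 3 → ι → F)) :=
      hspan ▸ Submodule.mem_top
    rw [Submodule.mem_span_range_iff_exists_fun] at hx
    obtain ⟨c, hc⟩ := hx
    exact ⟨c, hc.symm⟩

set_option maxHeartbeats 1600000 in
/-- A point off the conic in the image gives everything. -/
theorem specialLinear_le {g : GL ι F} (hgM : g ∈ M) (hg : g ∉ quadSimilarityGroup Q) :
    Cfsg.Geo.specialLinear ι F ≤ M := by
  classical
  by_contra hno
  -- every bad image forces a bad frame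
  have key : ∀ g ∈ M, ∀ u, Q u = 0 → ∀ z, (g : Matrix ι ι F) *ᵥ u = z → Q z ≠ 0 →
      (∀ r : F, r ≠ 0 → r ^ 2 = 1) ∧ ∃ a a', bform hQ z a = 0 ∧ bform hQ z a' = 0 ∧
        bform hQ a a' = 0 ∧ Q a ≠ 0 ∧ Q a' = -Q a := by
    intro g hgM u hu z hgz hz
    have hu0 : u ≠ 0 := by
      rintro rfl
      exact hz (by rw [← hgz, Matrix.mulVec_zero, q_zero hQ])
    obtain ⟨v, hv, huv⟩ := exists_partner hQ hu hu0
    have hvu : bform hQ v u = 1 := by rw [b_symm hQ, huv]
    obtain ⟨w, hw, hw0⟩ : ∃ w ∈ perp hQ (Submodule.span F {u} ⊔ Submodule.span F {v}), w ≠ 0 := by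
      refine Submodule.exists_mem_ne_zero_of_ne_bot fun h => ?_
      have h1 := finrank_perp_add hQ (Submodule.span F {u} ⊔ Submodule.span F {v})
      have h2 := finrank_span_pair_le hQ u v
      rw [h, finrank_bot] at h1
      omega
    obtain ⟨huw, hvw⟩ := (mem_perp_pair hQ).1 hw
    have hwQ : Q w ≠ 0 := by
      intro hw'
      have hts : IsTotallySingularQuad Q (Submodule.span F {u} ⊔ Submodule.span F {w}) := by
        intro x hx
        obtain ⟨_, h1, _, h2, rfl⟩ := Submodule.mem_sup.1 hx
        obtain ⟨r, rfl⟩ := Submodule.mem_span_singleton.1 h1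
        obtain ⟨s, rfl⟩ := Submodule.mem_span_singleton.1 h2
        simp [q_add hQ, q_smul hQ, hu, hw', huw]
      have h1 := two_mul_finrank_le hQ hts
      have hlt : Submodule.span F {u} < Submodule.span F {u} ⊔ Submodule.span F {w} := by
        refine lt_of_le_of_ne le_sup_left fun e => ?_
        have hm : w ∈ Submodule.span F {u} :=
          e.symm ▸ Submodule.mem_sup_right (Submodule.mem_span_singleton_self w)
        obtain ⟨r, rfl⟩ := Submodule.mem_span_singleton.1 hm
        rw [map_smul, hvu, smul_eq_mul, mul_one] at hvw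
        rw [hvw, zero_smul] at hw0
        exact hw0 rfl
      have h2 := Submodule.finrank_lt_finrank_of_lt hlt
      rw [finrank_span_singleton hu0] at h2
      omega
    -- the image of the tangent meets the polar of `z` in the point `a`
    have hzz : bform hQ z z ≠ 0 := by rw [b_self hQ]; exact mul_ne_zero h2F hz
    set a := (g : Matrix ι ι F) *ᵥ w - (bform hQ z ((g : Matrix ι ι F) *ᵥ w) / bform hQ z z) • z
      with ha
    have hza : bform hQ z a = 0 := by
      rw [ha, map_sub, map_smul, smul_eq_mul, div_mul_cancel₀ _ hzz, sub_self]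
    have hgw : (g : Matrix ι ι F) *ᵥ w = a + (bform hQ z ((g : Matrix ι ι F) *ᵥ w) / bform hQ z z) • z := by
      rw [ha, sub_add_cancel]
    have hnotspan : ∀ r : F, a ≠ r • z := by
      intro r hr
      obtain ⟨κ, hκ⟩ : ∃ κ, κ = bform hQ z ((g : Matrix ι ι F) *ᵥ w) / bform hQ z z := ⟨_, rfl⟩
      rw [← hκ] at hgw
      have h1 : w = (r + κ) • u := by
        rw [← inv_mulVec_cancel g w, hgw, hr, ← add_smul, ← hgz, ← Matrix.mulVec_smul, inv_mulVec_cancel]
      rw [h1, map_smul, hvu, smul_eq_mul, mul_one] at hvw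
      rw [hvw, zero_smul] at h1
      exact hw0 h1
    have ha0 : a ≠ 0 := fun h => hnotspan 0 (by rw [h, zero_smul])
    -- the reflections fixing `z` that move the tangent do not exist
    have hb : ∀ b, bform hQ z b = 0 → Q b ≠ 0 → bform hQ a b ≠ 0 → ∃ r : F, b = r • a := by
      intro b hzb hbQ hab
      by_contra hne
      push Not at hne
      set h := -(reflection hQ hbQ) with hh
      have hhM : h ∈ M := neg_reflection_mem hQ hn h2F hI hbQ
      have hhz : (h : Matrix ι ι F) *ᵥ z = -z := by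
        rw [hh, Units.val_neg, Matrix.neg_mulVec, reflection_mulVec hQ, b_symm hQ b z, hzb]; simp
      set k := g⁻¹ * h * g with hk
      have hkx : ∀ x, (k : Matrix ι ι F) *ᵥ x =
          ((g⁻¹ : GL ι F) : Matrix ι ι F) *ᵥ ((h : Matrix ι ι F) *ᵥ ((g : Matrix ι ι F) *ᵥ x)) :=
        fun x => by rw [hk, Units.val_mul, Units.val_mul, ← Matrix.mulVec_mulVec, ← Matrix.mulVec_mulVec]
      refine hno (specialLinear_le_of_move hQ hn h2F hI hu0 hu hv huv huw hvw hwQ (k := k)
        (M.mul_mem (M.mul_mem (M.inv_mem hgM) hhM) hgM) (c := -1) ?_ ?_)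
      · rw [hkx, hgz, hhz, ← neg_one_smul F z, Matrix.mulVec_smul, ← hgz, inv_mulVec_cancel]
      · intro h0
        have hdecw := decompose hQ hn h2F hu hv huv huw hvw hwQ ((k : Matrix ι ι F) *ᵥ w)
        rw [h0, zero_smul, add_zero] at hdecw
        set p := bform hQ v ((k : Matrix ι ι F) *ᵥ w)
        set s := bform hQ w ((k : Matrix ι ι F) *ᵥ w) / bform hQ w w
        have h1 := congrArg ((g : Matrix ι ι F) *ᵥ ·) hdecw
        simp only [hkx, mulVec_inv_cancel, Matrix.mulVec_add, Matrix.mulVec_smul, hgz] at h1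
        rw [hgw, Matrix.mulVec_add, Matrix.mulVec_smul, hhz, hh, Units.val_neg, Matrix.neg_mulVec,
          reflection_mulVec hQ] at h1
        set κ := bform hQ z ((g : Matrix ι ι F) *ᵥ w) / bform hQ z z
        set β := (Q b)⁻¹ * bform hQ b a with hβ
        have hβ0 : β ≠ 0 := mul_ne_zero (inv_ne_zero hbQ) (by rwa [b_symm hQ])
        have h2 := congrArg (bform hQ z) h1
        simp only [map_add, map_neg, map_sub, map_smul, smul_eq_mul, hza, hzb] at h2
        have hp : p + s * κ + κ = 0 :=
          (mul_eq_zero.1 (show (p + s * κ + κ) * bform hQ z z = 0 by linear_combination -h2)).resolve_right hzz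
        refine hne ((1 + s) / β) ?_
        rw [div_eq_inv_mul, mul_smul, eq_inv_smul_iff₀ hβ0]
        linear_combination (norm := module) h1 + hp • z
    obtain ⟨a₁, ha₁z, ha₁⟩ : ∃ a₁, bform hQ z a₁ = 0 ∧ ∀ r : F, a₁ ≠ r • a := by
      by_contra hall
      push Not at hall
      have hle : perp hQ (Submodule.span F {z}) ≤ Submodule.span F {a} := fun x hx => by
        obtain ⟨r, rfl⟩ := hall x ((mem_perp_span_singleton hQ).1 hx)
        exact Submodule.smul_mem _ _ (Submodule.mem_span_singleton_self a)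
      have h1 := finrank_perp_add hQ (Submodule.span F {z})
      have h2 := Submodule.finrank_mono hle
      have h3 : finrank F (Submodule.span F ({z} : Set (ι → F))) ≤ 1 :=
        (finrank_span_le_card _).trans (by simp)
      rw [finrank_span_singleton ha0] at h2
      omega
    have hbad : ∀ t : F, Q (a₁ + t • a) = 0 ∨ bform hQ a (a₁ + t • a) = 0 := by
      intro t
      by_contra hh
      push Not at hh
      obtain ⟨r, hr⟩ := hb _ (by rw [map_add, map_smul, ha₁z, hza, smul_zero, add_zero]) hh.1 hh.2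
      exact ha₁ (r - t) (by rw [sub_smul, ← hr, add_sub_cancel_right])
    by_cases haQ : Q a = 0
    · exfalso
      have haa := b_self_eq_zero hQ haQ
      have hβ : bform hQ a a₁ ≠ 0 := by
        intro h0
        have hmem : a ∈ perp hQ (⊤ : Submodule F (ι → F)) := (mem_perp hQ).2 fun x _ => by
          have hx' : x - (bform hQ z x / bform hQ z z) • z ∈ Submodule.span F {a} ⊔ Submodule.span F {a₁} := by
            have hle : Submodule.span F {a} ⊔ Submodule.span F {a₁} ≤ perp hQ (Submodule.span F {z}) :=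
              sup_le ((Submodule.span_singleton_le_iff_mem _ _).2 ((mem_perp_span_singleton hQ).2 hza))
                ((Submodule.span_singleton_le_iff_mem _ _).2 ((mem_perp_span_singleton hQ).2 ha₁z))
            have hfr : 2 ≤ finrank F ↥(Submodule.span F {a} ⊔ Submodule.span F {a₁}) := by
              have hlt : Submodule.span F {a} < Submodule.span F {a} ⊔ Submodule.span F {a₁} :=
                lt_of_le_of_ne le_sup_left fun e => by
                  obtain ⟨r, hr⟩ := Submodule.mem_span_singleton.1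
                    (e.symm ▸ Submodule.mem_sup_right (Submodule.mem_span_singleton_self a₁) :
                      a₁ ∈ Submodule.span F {a})
                  exact ha₁ r hr.symm
              have := Submodule.finrank_lt_finrank_of_lt hlt
              rw [finrank_span_singleton ha0] at this
              omega
            rw [Submodule.eq_of_le_of_finrank_le hle (by
              have h1 := finrank_perp_add hQ (Submodule.span F {z})
              rw [finrank_span_singleton (fun h0 => hz (by rw [h0, q_zero hQ]))] at h1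
              omega), mem_perp_span_singleton hQ, map_sub, map_smul, smul_eq_mul,
              div_mul_cancel₀ _ hzz, sub_self]
          obtain ⟨_, k1, _, k2, e⟩ := Submodule.mem_sup.1 hx'
          obtain ⟨r1, rfl⟩ := Submodule.mem_span_singleton.1 k1
          obtain ⟨r2, rfl⟩ := Submodule.mem_span_singleton.1 k2
          rw [eq_add_of_sub_eq e.symm, b_symm hQ]
          simp [b_symm hQ a z, hza, haa, h0]
        exact ha0 ((b_nondeg hQ).1 a fun x => by
          rw [b_symm hQ]; exact (mem_perp hQ).1 hmem x Submodule.mem_top)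
      have h1 := (hbad ((1 - Q a₁) / bform hQ a a₁)).resolve_right (by
        rw [map_add, map_smul, haa, smul_zero, add_zero]; exact hβ)
      rw [q_add hQ, q_smul hQ, haQ, map_smul, b_symm hQ a₁ a, smul_eq_mul, mul_zero, add_zero,
        div_mul_cancel₀ _ hβ] at h1
      exact one_ne_zero (by linear_combination h1)
    -- orthogonalise
    set a' := a₁ - (bform hQ a a₁ / bform hQ a a) • a with ha'def
    have haa : bform hQ a a ≠ 0 := by rw [b_self hQ]; exact mul_ne_zero h2F haQ
    have haa' : bform hQ a a' = 0 := by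
      rw [ha'def, map_sub, map_smul, smul_eq_mul, div_mul_cancel₀ _ haa, sub_self]
    have hza' : bform hQ z a' = 0 := by rw [ha'def, map_sub, map_smul, ha₁z, hza, smul_zero, sub_zero]
    have hbad' : ∀ t : F, t ≠ 0 → Q a' + t ^ 2 * Q a = 0 := by
      intro t ht
      have e : a' + t • a = a₁ + (t - bform hQ a a₁ / bform hQ a a) • a := by
        rw [ha'def, sub_smul]; abel
      rcases hbad (t - bform hQ a a₁ / bform hQ a a) with h | h <;> rw [← e] at h
      · rw [q_add hQ, q_smul hQ, map_smul, b_symm hQ a' a, haa', smul_zero, add_zero] at h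
        linear_combination h
      · rw [map_add, map_smul, haa', smul_eq_mul, zero_add] at h
        exact absurd h (mul_ne_zero ht haa)
    have hneg : Q a' = -Q a := by linear_combination hbad' 1 one_ne_zero
    refine ⟨fun r hr => ?_, a, a', hza, hza', haa', haQ, hneg⟩
    have := hbad' r hr
    rw [hneg] at this
    exact mul_right_cancel₀ haQ (by linear_combination this)
  -- some singular vector leaves the conic
  obtain ⟨u, hu, hgu⟩ : ∃ u, Q u = 0 ∧ Q ((g : Matrix ι ι F) *ᵥ u) ≠ 0 := by
    by_contra hall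
    push Not at hall
    exact hg (similarity_of_singular hQ hn h2F hall)
  obtain ⟨h3, a, a', hza, hza', haa', haQ, hneg⟩ := key g hgM u hu _ rfl hgu
  set z := (g : Matrix ι ι F) *ᵥ u with hz
  set ε := Q z with hε
  have hpm : ∀ x : F, x ≠ 0 → x = ε ∨ x = -ε := by
    intro x hx
    have h1 := h3 (x / ε) (div_ne_zero hx hgu)
    rcases sq_eq_one_iff.1 h1 with h | h
    · exact Or.inl ((div_eq_one_iff_eq hgu).1 h)
    · exact Or.inr (by rw [← div_mul_cancel₀ x hgu, h, neg_one_mul])
  obtain ⟨b, hbQ, hborth, hbdec⟩ : ∃ b : Fin 3 → ι → F, (∀ i, Q (b i) = -ε) ∧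
      (∀ i j, i ≠ j → bform hQ (b i) (b j) = 0) ∧ ∀ x, ∃ c : Fin 3 → F, x = ∑ i, c i • b i := by
    rcases hpm (Q a) haQ with h | h
    · exact frame_of_three hQ hn h2F h3 hgu rfl h (by rw [hneg, h]) hza hza' haa'
    · exact frame_of_three hQ hn h2F h3 hgu rfl (by rw [hneg, h, neg_neg]) h hza' hza
        (by rw [b_symm hQ, haa'])
  have hQb : ∀ c : Fin 3 → F, Q (∑ i, c i • b i) = -ε * ∑ i, c i ^ 2 := fun c => by
    simp only [Fin.sum_univ_three, q_add hQ, q_smul hQ, map_add, map_smul, LinearMap.add_apply,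
      LinearMap.smul_apply, smul_eq_mul, hbQ, hborth 0 1 (by decide), hborth 0 2 (by decide),
      hborth 1 2 (by decide)]
    ring
  -- images of the conic avoid the value `-ε`
  have havoid : ∀ m ∈ M, ∀ y, Q y = 0 → Q ((m : Matrix ι ι F) *ᵥ y) ≠ -ε := by
    intro m hm y hy hmy
    obtain ⟨-, c, c', hc1, hc2, hc3, hcQ, hcneg⟩ := key m hm y hy _ rfl (by rw [hmy]; exact neg_ne_zero.2 hgu)
    set y' := (m : Matrix ι ι F) *ᵥ y
    have hsingle : ∀ x, Q x = -ε → ∃ i, ∀ j, j ≠ i → ∀ d : Fin 3 → F, x = ∑ l, d l • b l → d j = 0 := by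
      intro x hx
      obtain ⟨d, hd⟩ := hbdec x
      have huniq : ∀ d' : Fin 3 → F, x = ∑ l, d' l • b l → ∀ l, d' l = d l := fun d' hd' l => by
        have e := congrArg (bform hQ (b l)) (hd'.symm.trans hd)
        simp only [map_sum, map_smul, smul_eq_mul] at e
        rw [Finset.sum_eq_single l, Finset.sum_eq_single l] at e
        · exact mul_right_cancel₀ (by rw [b_self hQ, hbQ]; exact mul_ne_zero h2F (neg_ne_zero.2 hgu)) e
        all_goals first
          | (intro i _ hi; rw [hborth l i (Ne.symm hi), mul_zero])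
          | simp
      rw [hd, hQb] at hx
      have hsum : ∑ i, d i ^ 2 = 1 :=
        mul_left_cancel₀ (neg_ne_zero.2 hgu) (by rw [hx, mul_one])
      rw [Fin.sum_univ_three] at hsum
      have hsq : ∀ i, d i = 0 ∨ d i ^ 2 = 1 := fun i => (em (d i = 0)).imp_right (h3 _)
      have h20 : (3 : F) = 0 := by linear_combination h3 2 h2F
      have hone : ∀ p q : F, p ^ 2 = 1 → q ^ 2 = 1 → p ^ 2 + q ^ 2 ≠ 1 := fun p q hp hq e => by
        rw [hp, hq] at e
        exact one_ne_zero (by linear_combination e : (1 : F) = 0)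
      by_cases h0 : d 0 = 0
      · by_cases h1 : d 1 = 0
        · refine ⟨2, fun j hj d' hd' => ?_⟩
          rw [huniq d' hd']
          fin_cases j <;> first | assumption | exact absurd rfl hj
        · refine ⟨1, fun j hj d' hd' => ?_⟩
          rw [huniq d' hd']
          have h2' : d 2 = 0 := by
            by_contra h2'
            rw [h0] at hsum
            exact hone _ _ (h3 _ h1) (h3 _ h2') (by linear_combination hsum)
          fin_cases j <;> first | assumption | exact absurd rfl hj
      · refine ⟨0, fun j hj d' hd' => ?_⟩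
        rw [huniq d' hd']
        have h12 : d 1 = 0 ∧ d 2 = 0 := by
          have e0 := h3 _ h0
          rcases hsq 1 with h1 | h1 <;> rcases hsq 2 with h2' | h2'
          · exact ⟨h1, h2'⟩
          · rw [h1] at hsum; exact absurd (by linear_combination hsum) (hone _ _ e0 h2')
          · rw [h2'] at hsum; exact absurd (by linear_combination hsum) (hone _ _ e0 h1)
          · exfalso
            rw [e0, h1, h2'] at hsum
            exact h2F (by linear_combination hsum)
        fin_cases j <;> first | exact h12.1 | exact h12.2 | exact absurd rfl hj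
    obtain ⟨c₁, hc₁Q, hc₁y, c₂, hc₂Q, hc₂y, hc12⟩ : ∃ c₁, Q c₁ = -ε ∧ bform hQ y' c₁ = 0 ∧
        ∃ c₂, Q c₂ = ε ∧ bform hQ y' c₂ = 0 ∧ bform hQ c₁ c₂ = 0 := by
      rcases hpm (Q c) hcQ with h | h
      · exact ⟨c', by rw [hcneg, h], hc2, c, h, hc1, by rw [b_symm hQ, hc3]⟩
      · exact ⟨c, h, hc1, c', by rw [hcneg, h, neg_neg], hc2, hc3⟩
    obtain ⟨i, hi⟩ := hsingle y' hmy
    obtain ⟨j, hj⟩ := hsingle c₁ hc₁Q
    obtain ⟨dy, hdy⟩ := hbdec y'
    obtain ⟨d₁, hd₁⟩ := hbdec c₁
    obtain ⟨d₂, hd₂⟩ := hbdec c₂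
    have hy0 : dy i ≠ 0 := fun h0 => by
      have : y' = 0 := by
        rw [hdy]
        exact Finset.sum_eq_zero fun l _ => by
          by_cases hl : l = i
          · rw [hl, h0, zero_smul]
          · rw [hi l hl dy hdy, zero_smul]
      rw [this, q_zero hQ] at hmy
      exact neg_ne_zero.2 hgu hmy.symm
    have h10 : d₁ j ≠ 0 := fun h0 => by
      have : c₁ = 0 := by
        rw [hd₁]
        exact Finset.sum_eq_zero fun l _ => by
          by_cases hl : l = j
          · rw [hl, h0, zero_smul]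
          · rw [hj l hl d₁ hd₁, zero_smul]
      rw [this, q_zero hQ] at hc₁Q
      exact neg_ne_zero.2 hgu hc₁Q.symm
    have hbb : ∀ l, bform hQ (b l) (b l) ≠ 0 := fun l => by
      rw [b_self hQ, hbQ]; exact mul_ne_zero h2F (neg_ne_zero.2 hgu)
    have hy' : y' = dy i • b i := by
      rw [hdy, Finset.sum_eq_single i]
      · intro l _ hl; rw [hi l hl dy hdy, zero_smul]
      · simp
    have hc₁' : c₁ = d₁ j • b j := by
      rw [hd₁, Finset.sum_eq_single j]
      · intro l _ hl; rw [hj l hl d₁ hd₁, zero_smul]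
      · simp
    have hij : i ≠ j := by
      intro e
      rw [hy', hc₁', e] at hc₁y
      simp only [map_smul, LinearMap.smul_apply, smul_eq_mul] at hc₁y
      exact mul_ne_zero h10 (mul_ne_zero (e ▸ hy0) (hbb j)) (by linear_combination hc₁y)
    have hcoord : ∀ l (r : F) x, r ≠ 0 → x = r • b l → bform hQ x c₂ = 0 → d₂ l = 0 := by
      intro l r x hr hx h0
      rw [hx, hd₂] at h0
      simp only [map_sum, map_smul, LinearMap.smul_apply, smul_eq_mul] at h0
      rw [Finset.sum_eq_single l] at h0
      · rcases mul_eq_zero.1 h0 with h | h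
        · exact h
        · exact absurd ((mul_eq_zero.1 h).resolve_left hr) (hbb l)
      · intro p _ hp; rw [hborth l p (Ne.symm hp)]; ring
      · simp
    have hi2 := hcoord i _ y' hy0 hy' hc₂y
    have hj2 := hcoord j _ c₁ h10 hc₁' hc12
    rw [hd₂, hQb, Fin.sum_univ_three] at hc₂Q
    obtain ⟨l, hl⟩ : ∃ l : Fin 3, d₂ 0 ^ 2 + d₂ 1 ^ 2 + d₂ 2 ^ 2 = d₂ l ^ 2 := by
      fin_cases i <;> fin_cases j <;> first
        | exact absurd rfl hij
        | (refine ⟨2, ?_⟩; simp_all; done)
        | (refine ⟨1, ?_⟩; simp_all; done)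
        | (refine ⟨0, ?_⟩; simp_all; done)
    rw [hl] at hc₂Q
    by_cases h0 : d₂ l = 0
    · rw [h0] at hc₂Q; exact hgu (by linear_combination -hc₂Q)
    · rw [h3 _ h0] at hc₂Q
      exact mul_ne_zero h2F hgu (by linear_combination -hc₂Q)
  -- hence `M` permutes the frame up to sign
  have hinv : ∀ m ∈ M, ∀ y, Q y ≠ -ε → Q ((m : Matrix ι ι F) *ᵥ y) ≠ -ε := by
    intro m hm y hy
    by_cases hy0 : Q y = 0
    · exact havoid m hm y hy0
    have hyε : Q y = ε := (hpm _ hy0).resolve_right hy
    obtain ⟨s, hs, h⟩ := exists_map_norm hQ hn h2F hI (z := z) (z' := y) hgu hyε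
    have h' := havoid (m * s * g) (M.mul_mem (M.mul_mem hm hs) hgM) u hu
    rw [Units.val_mul, Units.val_mul, ← Matrix.mulVec_mulVec, ← Matrix.mulVec_mulVec, ← hz] at h'
    rcases h with h | h <;> rw [h] at h'
    · exact h'
    · rwa [Matrix.mulVec_neg, q_neg hQ] at h'
  have hpres : ∀ y, Q y = -ε → Q ((g : Matrix ι ι F) *ᵥ y) = -ε := by
    intro y hy
    by_contra hne
    have := hinv g⁻¹ (M.inv_mem hgM) _ hne
    rw [inv_mulVec_cancel] at this
    exact this hy
  apply hg
  refine ⟨1, fun x => ?_⟩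
  obtain ⟨d, rfl⟩ := hbdec x
  have hoff : ∀ i j, i ≠ j →
      bform hQ ((g : Matrix ι ι F) *ᵥ b i) ((g : Matrix ι ι F) *ᵥ b j) = 0 := by
    intro i j hij
    have h20 : (3 : F) = 0 := by linear_combination h3 2 h2F
    have hp := hinv g hgM (b i + b j) (by
      rw [q_add hQ, hbQ, hbQ, hborth i j hij]; intro e; exact hgu (by linear_combination -e))
    have hm := hinv g hgM (b i - b j) (by
      rw [q_sub hQ, hbQ, hbQ, hborth i j hij]; intro e; exact hgu (by linear_combination -e))
    rw [Matrix.mulVec_add, q_add hQ, hpres _ (hbQ i), hpres _ (hbQ j)] at hp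
    rw [Matrix.mulVec_sub, q_sub hQ, hpres _ (hbQ i), hpres _ (hbQ j)] at hm
    by_contra hB
    rcases hpm _ hB with h | h <;> rw [h] at hp hm
    · exact hp (by ring)
    · exact hm (by ring)
  rw [hQb, Units.val_one, one_mul]
  simp only [Fin.sum_univ_three, Matrix.mulVec_add, Matrix.mulVec_smul, q_add hQ, q_smul hQ, map_add,
    map_smul, LinearMap.add_apply, LinearMap.smul_apply, smul_eq_mul, hpres _ (hbQ _),
    hoff 0 1 (by decide), hoff 0 2 (by decide), hoff 1 2 (by decide)]
  ring

omit hI hn h2F in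
/-- The similarities are a maximal subgroup. -/
theorem isMaximal (hn : Fintype.card ι = 3) (h2F : (2 : F) ≠ 0) :
    IsMaximalIn (Cfsg.Geo.specialLinear ι F) (quadSimilarityGroup Q ⊓ Cfsg.Geo.specialLinear ι F) := by
  refine ⟨lt_of_le_not_ge inf_le_right fun hle => ?_, fun M hPM hMS => ?_⟩
  · obtain ⟨u, v, w, -, hu, hv, huv, huw, hvw, hw⟩ := exists_frame hQ hn h2F
    obtain ⟨c, hc⟩ := (hle.trans inf_le_left) (transv_mem_specialLinear (φ := bform hQ v) hvw)
    have h1 := hc u
    rw [transv_mulVec, b_symm hQ v u, huv, one_smul, q_add hQ, hu, huw, mul_zero, zero_add, add_zero] at h1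
    exact hw h1
  by_cases hMP : M ≤ quadSimilarityGroup Q
  · exact Or.inl (le_antisymm (le_inf hMP hMS) hPM)
  obtain ⟨g, hgM, hg⟩ := SetLike.not_le_iff_exists.1 hMP
  exact Or.inr (le_antisymm hMS (specialLinear_le hQ hn h2F
    (fun k hk1 hk2 => hPM (Subgroup.mem_inf.2 ⟨⟨1, fun x => by
      rw [mem_isometryGroup.1 hk1, Units.val_one, one_mul]⟩, hk2⟩)) hgM hg))

end CfsgLib.SLThree90.Orth

namespace CfsgLib.SLThree90

/-- Clause (6) of S5774. -/
theorem orth_maximal {F : Type*} [Field F] [Fintype F] (hodd : Odd (Fintype.card F))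
    (Q : (Fin 3 → F) → F) (hQ : Cfsg.Geo.IsNondegenerateQuadraticForm Q) :
    Cfsg.Geo.IsMaximalIn (Cfsg.Geo.specialLinear (Fin 3) F)
      (Cfsg.Geo.quadSimilarityGroup Q ⊓ Cfsg.Geo.specialLinear (Fin 3) F) := by
  refine Orth.isMaximal hQ (Fintype.card_fin 3) fun h => ?_
  have h1 : ringChar F = 2 := CharP.ringChar_of_prime_eq_zero Nat.prime_two (by exact_mod_cast h)
  have h2 := FiniteField.even_card_of_char_two h1
  obtain ⟨j, hj⟩ := hodd
  omega

end CfsgLib.SLThree90
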