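import Cfsg.Agent.Subfield54.SL

/-! Subfield subgroups of the three dimensional special linear group. -/

set_option autoImplicit false

namespace CfsgLib.SLThree90

/-- Clause (4) of S5774. -/
theorem subfield_maximal {F : Type*} [Field F] [Fintype F] (F₀ : Subfield F) (r : ℕ)
    (P : Matrix.GeneralLinearGroup (Fin 3) F) (hr : r.Prime) (hc : Fintype.card F = Nat.card F₀ ^ r) :
    Cfsg.Geo.IsMaximalIn (Cfsg.Geo.specialLinear (Fin 3) F)
      (Cfsg.Geo.subfieldSubgroup F₀ P ⊓ Cfsg.Geo.specialLinear (Fin 3) F) :=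
  Subfield54.subfield_maximal_specialLinear (by simp) hr hc P

end CfsgLib.SLThree90
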