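import Cfsg.Agent.Classical.FullCentres
import Cfsg.Agent.SLFour90.UnitFour

/-!
Unitary similarities are maximal in the special linear group of dimension three.
-/

set_option autoImplicit false
open Cfsg

namespace CfsgLib.SLThree90.Unit

section

open Matrix CfsgLib.TransvGL CfsgLib.UnitCentres CfsgLib.SLGeo91.UnitSim

variable {ι : Type} [Fintype ι] [DecidableEq ι] {F : Type*} [Field F]
variable {σ : F ≃+* F} {f : (ι → F) → (ι → F) → F}
variable {hf : Cfsg.Geo.IsUnitaryForm σ f} {M : Subgroup (GL ι F)}

/-- The commutator rule. -/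
theorem comm_rule {a b c d : ι → F} (h : Mem hf M a b) (h' : Mem hf M c d) (had : f a d = 0) :
    Mem hf M a (f b c • d) := by
  obtain ⟨h1, h2⟩ := h
  obtain ⟨h3, h4⟩ := h'
  refine ⟨by rw [upair_apply, smul_right hf, had, mul_zero], ?_⟩
  convert M.mul_mem (M.mul_mem (M.mul_mem h2 h4) (M.inv_mem h2)) (M.inv_mem h4) using 1
  refine ext_mulVec fun x => ?_
  rw [transv_inv, transv_inv]
  rw [upair_apply] at h1 h3
  simp only [Units.val_mul, ← mulVec_mulVec, transv_mulVec, upair_apply, LinearMap.neg_apply,
    hf.add_left, hf.smul_left, smul_right hf, h1, h3, had, ← hf.herm c b]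
  module

theorem swap_left {a b : ι → F} {s : F} (h : Mem hf M (s • a) b) (hs : s ≠ 0) :
    Mem hf M a (σ s • b) := by
  obtain ⟨h1, h2⟩ := h
  have h3 : f a b = 0 := by
    rw [upair_apply, hf.smul_left, mul_eq_zero] at h1
    exact h1.resolve_left hs
  refine ⟨by rw [upair_apply, smul_right hf, h3, mul_zero], ?_⟩
  convert h2 using 1
  refine transv_congr _ _ fun x => ?_
  rw [upair_apply, upair_apply, smul_right hf, hf.involutive, smul_smul, mul_comm]

theorem neg_centre {a b : ι → F} (h : Mem hf M a b) : Mem hf M (-a) b := by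
  have h1 : Mem hf M a (σ (-1) • b) := by rw [map_neg, map_one, neg_one_smul]; exact h.neg
  have := h1.smul_left (neg_ne_zero.2 one_ne_zero)
  rwa [neg_one_smul] at this

/-- The Eichler transformations at an isotropic point. -/
theorem exists_eichler (hf : Cfsg.Geo.IsUnitaryForm σ f) {e u : ι → F} (he : f e e = 0)
    (heu : f e u = 0) (hu : f u u = 1) (α : F) :
    ∃ g : GL ι F, Iso f g ∧ g ∈ Cfsg.Geo.specialLinear ι F ∧ (g : Matrix ι ι F) *ᵥ e = e ∧
      (g : Matrix ι ι F) *ᵥ u = u + α • e := by
  obtain ⟨ε, hε⟩ := exists_trace hf (r := -(α * σ α))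
    (by rw [map_neg, map_mul, hf.involutive, mul_comm])
  have hue : f u e = 0 := orth_comm hf heu
  have h1 : (upair hf u) (α • e) = 0 := by rw [upair_apply, hf.smul_left, heu, mul_zero]
  have h2 : (upair hf e) ((-σ α) • u + ε • e) = 0 := by
    rw [upair_apply, hf.add_left, hf.smul_left, hf.smul_left, hue, he, mul_zero, mul_zero, add_zero]
  have hg : ∀ x, ((transv h2 * transv h1 : GL ι F) : Matrix ι ι F) *ᵥ x =
      x + f x u • α • e + f x e • ((-σ α) • u + ε • e) := fun x => by
    rw [Units.val_mul, ← mulVec_mulVec, transv_mulVec, transv_mulVec, upair_apply, upair_apply,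
      hf.add_left, hf.smul_left, hf.smul_left, he, mul_zero, mul_zero, add_zero]
  refine ⟨transv h2 * transv h1, fun x y => ?_,
    mul_mem (transv_mem_specialLinear _) (transv_mem_specialLinear _), ?_, ?_⟩
  · rw [hg, hg]
    simp only [hf.add_left, hf.smul_left, add_right hf, smul_right hf, he, heu, hue, hu, map_add,
      map_mul, map_neg, hf.involutive, ← hf.herm u y, ← hf.herm e y]
    linear_combination (f x e * f e y) * hε
  · rw [hg, he, heu, zero_smul, zero_smul, add_zero, add_zero]
  · rw [hg, hu, hue, one_smul, zero_smul, add_zero]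

section Generate

variable [Finite F] (hn : Fintype.card ι = 3)
include hn

omit [Finite F] in
theorem span_three {x y z : ι → F} (h : LinearIndependent F ![x, y, z]) :
    Submodule.span F ({x, y, z} : Set (ι → F)) = ⊤ := by
  have := h.span_eq_top_of_card_eq_finrank
    (by rw [Module.finrank_fintype_fun_eq_card, hn]; rfl)
  rw [← top_le_iff, ← this]
  refine Submodule.span_mono ?_
  rintro _ ⟨i, rfl⟩
  fin_cases i <;> simp

omit [Finite F] in
/-- A vector of norm one orthogonal to two orthogonal anisotropic vectors. -/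
theorem exists_unit_cross [Finite F] (hf : Cfsg.Geo.IsUnitaryForm σ f) {a b : ι → F} (ha : f a a ≠ 0)
    (hb : f b b ≠ 0) (hab : f a b = 0) : ∃ w, f w a = 0 ∧ f w b = 0 ∧ f w w = 1 := by
  obtain ⟨x, hx⟩ : ∃ x, x ∉ Submodule.span F ({a, b} : Set (ι → F)) := by
    by_contra hall
    push Not at hall
    classical
    have h1 := finrank_span_finset_le_card (R := F) ({a, b} : Finset (ι → F))
    rw [Set.finrank, Finset.coe_pair, show Submodule.span F ({a, b} : Set (ι → F)) = ⊤ from
      Submodule.eq_top_iff'.2 hall, finrank_top, Module.finrank_fintype_fun_eq_card, hn] at h1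
    have := Finset.card_le_two (a := a) (b := b)
    omega
  set w := x - (f x a / f a a) • a - (f x b / f b b) • b with hw
  have hwa : f w a = 0 := by
    rw [hw, sub_left hf, sub_left hf, hf.smul_left, hf.smul_left, div_mul_cancel₀ _ ha,
      orth_comm hf hab, mul_zero, sub_self, sub_zero]
  have hwb : f w b = 0 := by
    rw [hw, sub_left hf, sub_left hf, hf.smul_left, hf.smul_left, div_mul_cancel₀ _ hb,
      hab, mul_zero, sub_zero, sub_self]
  have hww : f w w ≠ 0 := by
    intro h0
    have hw0 : w ≠ 0 := fun e => hx (by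
      rw [hw, sub_eq_zero, sub_eq_iff_eq_add] at e
      rw [e]
      exact Submodule.add_mem _ (Submodule.smul_mem _ _ (Submodule.subset_span (by simp)))
        (Submodule.smul_mem _ _ (Submodule.subset_span (by simp))))
    have hli : LinearIndependent F ![a, b, w] := by
      rw [Fintype.linearIndependent_iff]
      intro c hc
      simp only [Fin.sum_univ_three, Matrix.cons_val_zero, Matrix.cons_val_one, Matrix.cons_val_two,
        Matrix.tail_cons, Matrix.head_cons] at hc
      have e1 := congrArg (fun z => f z a) hc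
      have e2 := congrArg (fun z => f z b) hc
      simp only [hf.add_left, hf.smul_left, zero_left hf, hab, orth_comm hf hab, hwa, hwb, mul_zero,
        add_zero, zero_add] at e1 e2
      have k0 := (mul_eq_zero.1 e1).resolve_right ha
      have k1 := (mul_eq_zero.1 e2).resolve_right hb
      rw [k0, k1, zero_smul, zero_smul, zero_add, zero_add, smul_eq_zero] at hc
      intro i
      fin_cases i <;> first | exact k0 | exact k1 | exact hc.resolve_right hw0
    obtain ⟨⟨y, hy⟩, -⟩ := hf.nondegenerate w hw0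
    refine hy ?_
    have hle : Submodule.span F ({a, b, w} : Set (ι → F)) ≤ LinearMap.ker (upair hf w) := by
      rw [Submodule.span_le]
      rintro z (rfl | rfl | rfl) <;> simp [orth_comm hf hwa, orth_comm hf hwb, h0]
    rw [span_three hn hli] at hle
    exact hle (Submodule.mem_top (x := y))
  obtain ⟨l, hl⟩ := exists_norm hf (r := (f w w)⁻¹) (by rw [map_inv₀, norm_fixed hf])
  refine ⟨l • w, by rw [hf.smul_left, hwa, mul_zero], by rw [hf.smul_left, hwb, mul_zero], ?_⟩
  rw [hf.smul_left, smul_right hf, ← mul_assoc, hl, inv_mul_cancel₀ hww]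

/-- An isotropic vector not orthogonal to two given ones. -/
theorem exists_isotropic_nonorth (hf : Cfsg.Geo.IsUnitaryForm σ f) {v w : ι → F} (hv : v ≠ 0)
    (hw : w ≠ 0) : ∃ e, f e e = 0 ∧ f e v ≠ 0 ∧ f e w ≠ 0 := by
  classical
  have one : ∀ x : ι → F, x ≠ 0 → ∃ e, f e e = 0 ∧ f x e ≠ 0 := by
    intro x hx
    by_cases hxx : f x x = 0
    · obtain ⟨⟨y, hy⟩, -⟩ := hf.nondegenerate x hx
      obtain ⟨t, ht⟩ := exists_isotropic_shift hf hxx (d := y) (fun h => hy (orth_comm hf h))
      refine ⟨_, ht, ?_⟩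
      rw [add_right hf, smul_right hf, hxx, mul_zero, add_zero]
      exact fun h => hy (orth_comm hf h)
    · obtain ⟨b, hb, hbb⟩ := exists_unit_orth hf {x} (by simp [hn])
      obtain ⟨l, hl⟩ := exists_norm hf (r := -f x x) (by rw [map_neg, norm_fixed hf])
      have hbx := hb x (by simp)
      refine ⟨x + l • b, ?_, ?_⟩
      · rw [norm_add_smul hf, hbb, hbx, orth_comm hf hbx]
        linear_combination hl
      · rw [add_right hf, smul_right hf, orth_comm hf hbx, mul_zero, add_zero]; exact hxx
  obtain ⟨e1, h11, hv1⟩ := one v hv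
  obtain ⟨e2, h22, hw2⟩ := one w hw
  obtain ⟨e, -, he, h1, h2⟩ := CfsgLib.SLFour90.UnitFour.exists_combine hf (S := ⊤) (by trivial)
    (by trivial) h11 h22 hv1 hw2
  exact ⟨e, he, fun h => h1 (orth_comm hf h), fun h => h2 (orth_comm hf h)⟩

/-- A totally isotropic subspace is at most a line. -/
theorem mem_span_of_iso (hf : Cfsg.Geo.IsUnitaryForm σ f) {a b : ι → F} (ha : a ≠ 0) (haa : f a a = 0)
    (hbb : f b b = 0) (hab : f a b = 0) : b ∈ Submodule.span F {a} := by
  by_contra hb
  classical
  obtain ⟨d, hd, hbd⟩ := exists_orth_sep hf hb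
  have had : f a d = 0 := hd a (Submodule.mem_span_singleton_self a)
  obtain ⟨⟨y, hy⟩, -⟩ := hf.nondegenerate a ha
  have hli : LinearIndependent F ![a, b, d] := by
    rw [Fintype.linearIndependent_iff]
    intro c hc
    simp only [Fin.sum_univ_three, Matrix.cons_val_zero, Matrix.cons_val_one, Matrix.cons_val_two,
      Matrix.tail_cons, Matrix.head_cons] at hc
    have e1 := congrArg (fun z => f z b) hc
    simp only [hf.add_left, hf.smul_left, zero_left hf, hab, hbb, mul_zero, zero_add] at e1
    have k2 := (mul_eq_zero.1 e1).resolve_right (fun h => hbd (orth_comm hf h))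
    rw [k2, zero_smul, add_zero] at hc
    have k1 : c 1 = 0 := by
      by_contra k1
      refine hb (Submodule.mem_span_singleton.2 ⟨-(c 0 / c 1), ?_⟩)
      calc -(c 0 / c 1) • a = -(c 0 / c 1) • a + (c 1)⁻¹ • (c 0 • a + c 1 • b) := by
            rw [hc, smul_zero, add_zero]
        _ = b := by match_scalars <;> field_simp <;> ring
    rw [k1, zero_smul, add_zero, smul_eq_zero] at hc
    intro i
    fin_cases i <;> first | exact k1 | exact k2 | exact hc.resolve_right ha
  have hle : Submodule.span F ({a, b, d} : Set (ι → F)) ≤ LinearMap.ker (upair hf a) := by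
    rw [Submodule.span_le]
    rintro z (rfl | rfl | rfl) <;> simp [haa, orth_comm hf hab, orth_comm hf had]
  rw [span_three hn hli] at hle
  exact hy (hle (Submodule.mem_top (x := y)))

variable (hH : ∀ g, Iso f g → g ∈ Cfsg.Geo.specialLinear ι F → g ∈ M)
include hH

/-- The isotropic partner of a point in the polar of an anisotropic vector, and an exchange. -/
theorem exists_partner (hf : Cfsg.Geo.IsUnitaryForm σ f) {e u : ι → F} (he0 : e ≠ 0)
    (he : f e e = 0) (heu : f e u = 0) (hu : f u u ≠ 0) :
    ∃ e', f e' e' = 0 ∧ f e' u = 0 ∧ f e e' ≠ 0 ∧ ∃ g ∈ M, Iso f g ∧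
      (g : Matrix ι ι F) *ᵥ u = u ∧ (g : Matrix ι ι F) *ᵥ e = e' := by
  obtain ⟨d, hd, hed⟩ := exists_orth_sep hf (U := Submodule.span F {u}) (x := e) fun h => by
    obtain ⟨k, rfl⟩ := Submodule.mem_span_singleton.1 h
    rw [hf.smul_left, mul_eq_zero] at heu
    exact he0 (by rw [heu.resolve_right hu, zero_smul])
  have hud : f u d = 0 := hd u (Submodule.mem_span_singleton_self u)
  obtain ⟨t, ht⟩ := exists_isotropic_shift hf he hed
  set z := d + t • e with hzdef
  have hez : f e z ≠ 0 := by rw [hzdef, add_right hf, smul_right hf, he, mul_zero, add_zero]; exact hed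
  have huz : f u z = 0 := by
    rw [hzdef, add_right hf, smul_right hf, hud, orth_comm hf heu, mul_zero, add_zero]
  have hze : f z e ≠ 0 := fun h => hez (orth_comm hf h)
  obtain ⟨c, hc0, hc⟩ := exists_traceZero hf
  set c' := -(c * (f e z * f z e))⁻¹ with hc'def
  have hc' : c' + σ c' = 0 := by
    have hσ : σ c = -c := by linear_combination hc
    rw [hc'def, map_neg, map_inv₀, map_mul, map_mul, ← hf.herm z e, ← hf.herm e z, hσ, neg_mul,
      mul_comm (f z e), inv_neg, neg_neg, neg_add_cancel]
  refine ⟨(c * f e z) • z, by rw [hf.smul_left, smul_right hf, ht, mul_zero, mul_zero],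
    by rw [hf.smul_left, orth_comm hf huz, mul_zero],
    by rw [smul_right hf]; exact mul_ne_zero (by simpa using mul_ne_zero hc0 hez) hez,
    uT hf he c' * uT hf ht c, ?_, (uT_iso hf he hc').mul (uT_iso hf ht hc), ?_, ?_⟩
  · exact M.mul_mem (hH _ (uT_iso hf he hc') (uT_mem_specialLinear hf he c'))
      (hH _ (uT_iso hf ht hc) (uT_mem_specialLinear hf ht c))
  · rw [Units.val_mul, ← mulVec_mulVec, uT_mulVec, uT_mulVec, huz, mul_zero, zero_smul, add_zero,
      orth_comm hf heu, mul_zero, zero_smul, add_zero]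
  · rw [Units.val_mul, ← mulVec_mulVec, uT_mulVec, uT_mulVec, hf.add_left, hf.smul_left, he, zero_add]
    have : c' * (c * f e z * f z e) = -1 := by
      rw [hc'def]; field_simp
    rw [this, neg_one_smul]
    abel

/-- A transvection with isotropic centre outside the group gives everything. -/
theorem specialLinear_le_of_iso_centre {a b : ι → F} (ha0 : a ≠ 0) (ha : f a a = 0)
    (h : Mem hf M a b) (hb : b ∉ Submodule.span F {a}) : Cfsg.Geo.specialLinear ι F ≤ M := by
  have hab : f a b = 0 := h.orth
  have hbb : f b b ≠ 0 := fun h0 => hb (mem_span_of_iso hn hf ha0 ha h0 hab)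
  obtain ⟨l, hl⟩ := exists_norm hf (r := (f b b)⁻¹) (by rw [map_inv₀, norm_fixed hf])
  have hl0 : l ≠ 0 := fun e => by
    rw [e, zero_mul] at hl; exact inv_ne_zero hbb hl.symm
  set u := l • b with hudef
  have hu : f u u = 1 := by rw [hudef, hf.smul_left, smul_right hf, ← mul_assoc, hl, inv_mul_cancel₀ hbb]
  have hau : f a u = 0 := by rw [hudef, smul_right hf, hab, mul_zero]
  -- the root group at the centre
  have hroot : ∀ s : F, Mem hf M a (s • a) := by
    intro s
    obtain ⟨g, hg, hgs, hga, hgu⟩ := exists_eichler hf ha hau hu (l * s)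
    have h1 := h.image (hH g hg hgs) hg
    have hgb : (g : Matrix ι ι F) *ᵥ b = b + s • a := by
      have : b = l⁻¹ • u := by rw [hudef, inv_smul_smul₀ hl0]
      rw [this, mulVec_smul, hgu, smul_add]
      congr 1
      rw [smul_smul, inv_mul_cancel_left₀ hl0]
    rw [hga, hgb] at h1
    simpa using h1.sub h
  obtain ⟨a', ha', ha'u, haa', w, hwM, hw, hwu, hwa⟩ := exists_partner hn hH hf ha0 ha hau
    (by rw [hu]; exact one_ne_zero)
  have hwb : (w : Matrix ι ι F) *ᵥ b = b := by
    have : b = l⁻¹ • u := by rw [hudef, inv_smul_smul₀ hl0]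
    rw [this, mulVec_smul, hwu]
  have h' : Mem hf M a' b := by
    have := h.image hwM hw
    rwa [hwa, hwb] at this
  -- all transvections at the centre
  have hline : ∀ s : F, Mem hf M a (s • b) := by
    intro s
    have h1 := comm_rule (hroot (s / f a a')) h' hab
    rwa [hf.smul_left, div_mul_cancel₀ _ haa'] at h1
  have hfull : Full hf M a := by
    intro x hx
    have hli : LinearIndependent F ![a, b, a'] := by
      rw [Fintype.linearIndependent_iff]
      intro c hc
      simp only [Fin.sum_univ_three, Matrix.cons_val_zero, Matrix.cons_val_one, Matrix.cons_val_two,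
        Matrix.tail_cons, Matrix.head_cons] at hc
      have e1 := congrArg (fun z => f z a) hc
      simp only [hf.add_left, hf.smul_left, zero_left hf, ha, orth_comm hf hab, mul_zero, zero_add] at e1
      have k2 := (mul_eq_zero.1 e1).resolve_right (fun e => haa' (orth_comm hf e))
      rw [k2, zero_smul, add_zero] at hc
      have e2 := congrArg (fun z => f z b) hc
      simp only [hf.add_left, hf.smul_left, zero_left hf, hab, mul_zero, zero_add] at e2
      have k1 := (mul_eq_zero.1 e2).resolve_right hbb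
      rw [k1, zero_smul, add_zero, smul_eq_zero] at hc
      intro i
      fin_cases i <;> first | exact k1 | exact k2 | exact hc.resolve_right ha0
    have hmem : x ∈ Submodule.span F ({a, b, a'} : Set (ι → F)) := span_three hn hli ▸ Submodule.mem_top
    obtain ⟨p, y, hy, rfl⟩ := Submodule.mem_span_insert.1 hmem
    obtain ⟨r, s, rfl⟩ := Submodule.mem_span_pair.1 hy
    rw [add_right hf, add_right hf, smul_right hf, smul_right hf, smul_right hf, ha, hab, mul_zero,
      mul_zero, zero_add, zero_add, mul_eq_zero] at hx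
    have hs : s = 0 := by simpa using hx.resolve_right haa'
    rw [hs, zero_smul, add_zero]
    exact (hroot p).add (hline r)
  have hfull' : Full hf M a' := hwa ▸ hfull.image hwM hw
  obtain ⟨g, hg, hgs, hga', hgu⟩ := exists_eichler hf ha' ha'u hu 1
  have hfull'' := hfull.image (hH g hg hgs) hg
  set z := (g : Matrix ι ι F) *ᵥ a with hz
  have hza' : f z a' = f a a' := by
    have h1 := hg a a'
    rwa [hga'] at h1
  have hzu : f z u = -f a a' := by
    have h1 := hg a u
    rw [hgu, one_smul, add_right hf, hau, hza'] at h1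
    linear_combination h1
  have hli : LinearIndependent F ![a, a', z] := by
    rw [Fintype.linearIndependent_iff]
    intro c hc
    simp only [Fin.sum_univ_three, Matrix.cons_val_zero, Matrix.cons_val_one, Matrix.cons_val_two,
      Matrix.tail_cons, Matrix.head_cons] at hc
    have e1 := congrArg (fun y => f y u) hc
    simp only [hf.add_left, hf.smul_left, zero_left hf, hau, ha'u, hzu, mul_zero, zero_add] at e1
    have k2 := (mul_eq_zero.1 e1).resolve_right (neg_ne_zero.2 haa')
    rw [k2, zero_smul, add_zero] at hc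
    have e2 := congrArg (fun y => f y a) hc
    simp only [hf.add_left, hf.smul_left, zero_left hf, ha, mul_zero, zero_add] at e2
    have k1 := (mul_eq_zero.1 e2).resolve_right (fun e => haa' (orth_comm hf e))
    rw [k1, zero_smul, add_zero, smul_eq_zero] at hc
    intro i
    fin_cases i <;> first | exact k1 | exact k2 | exact hc.resolve_right ha0
  refine CfsgLib.FullCentres.specialLinear_le_of_full (S := {a, a', z}) (span_three hn hli) ?_
  have conv : ∀ y, Full hf M y → CfsgLib.FullCentres.Full M y := fun y hy φ hφ => by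
    obtain ⟨b', rfl⟩ := exists_upair_eq hf φ
    exact hy b' hφ
  rintro y (rfl | rfl | rfl)
  exacts [conv _ hfull, conv _ hfull', conv _ hfull'']

/-- A transvection with anisotropic centre and anisotropic functional gives everything. -/
theorem specialLinear_le_of_aniso {a b : ι → F} (ha : f a a ≠ 0) (hb : f b b ≠ 0)
    (h : Mem hf M a b) : Cfsg.Geo.specialLinear ι F ≤ M := by
  obtain ⟨w, hwa, hwb, hww⟩ := exists_unit_cross hn hf ha hb h.orth
  obtain ⟨l, hl⟩ := exists_norm hf (r := -f a a) (by rw [map_neg, norm_fixed hf])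
  set d := a + l • w with hddef
  have hd : f d d = 0 := by
    rw [hddef, norm_add_smul hf, hww, hwa, orth_comm hf hwa]; linear_combination hl
  have hdb : f d b = 0 := by rw [hddef, hf.add_left, hf.smul_left, h.orth, hwb, mul_zero, add_zero]
  have had : f a d = f a a := by
    rw [hddef, add_right hf, smul_right hf, orth_comm hf hwa, mul_zero, add_zero]
  obtain ⟨c, hc0, hc⟩ := exists_traceZero hf
  have h1 := h.image (hH _ (uT_iso hf hd hc) (uT_mem_specialLinear hf hd c)) (uT_iso hf hd hc)
  rw [uT_mulVec, uT_mulVec, orth_comm hf hdb, mul_zero, zero_smul, add_zero, had] at h1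
  have h2 := h1.add_left (neg_centre h)
  rw [add_neg_cancel_comm] at h2
  have hd0 : d ≠ 0 := fun e => ha (by rw [← had, e, zero_right hf])
  have hk : (c * f a a) • d ≠ 0 := smul_ne_zero (mul_ne_zero hc0 ha) hd0
  refine specialLinear_le_of_iso_centre hn hH hk
    (by rw [hf.smul_left, smul_right hf, hd, mul_zero, mul_zero]) h2 fun hm => ?_
  obtain ⟨k, hk⟩ := Submodule.mem_span_singleton.1 hm
  refine hb ?_
  rw [← hk, hf.smul_left, smul_right hf, hf.smul_left, smul_right hf, hd]
  ring

/-- A transvection outside the group gives everything. -/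
theorem specialLinear_le_of_mem {a b : ι → F} (ha0 : a ≠ 0) (h : Mem hf M a b)
    (hb : b ∉ Submodule.span F {a}) : Cfsg.Geo.specialLinear ι F ≤ M := by
  by_cases ha : f a a = 0
  · exact specialLinear_le_of_iso_centre hn hH ha0 ha h hb
  by_cases hbb : f b b = 0
  swap
  · exact specialLinear_le_of_aniso hn hH ha hbb h
  have hab : f a b = 0 := h.orth
  have hba : f b a = 0 := orth_comm hf hab
  have hb0 : b ≠ 0 := fun e => hb (e ▸ Submodule.zero_mem _)
  obtain ⟨l, hl⟩ := exists_norm hf (r := (f a a)⁻¹) (by rw [map_inv₀, norm_fixed hf])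
  have hl0 : l ≠ 0 := fun e => by rw [e, zero_mul] at hl; exact inv_ne_zero ha hl.symm
  set u := l • a with hudef
  have hu : f u u = 1 := by rw [hudef, hf.smul_left, smul_right hf, ← mul_assoc, hl, inv_mul_cancel₀ ha]
  have hbu : f b u = 0 := by rw [hudef, smul_right hf, hba, mul_zero]
  -- the root group at the isotropic point
  have hroot : ∀ s : F, Mem hf M b (s • b) := by
    intro s
    by_cases hs : s = 0
    · obtain ⟨g, hg, hgs, hgb, hgu⟩ := exists_eichler hf hbb hbu hu 0
      obtain ⟨c, hc0, hc⟩ := exists_traceZero hf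
      have hU : Mem hf M b (σ c • b) := by
        refine ⟨by rw [upair_apply, smul_right hf, hbb, mul_zero], ?_⟩
        convert hH _ (uT_iso hf hbb hc) (uT_mem_specialLinear hf hbb c) using 1
        refine ext_mulVec fun x => ?_
        rw [transv_mulVec, uT_mulVec, upair_apply, smul_right hf, hf.involutive]
      rw [hs, zero_smul]
      exact hU.zero_right_of
    obtain ⟨g, hg, hgs, hgb, hgu⟩ := exists_eichler hf hbb hbu hu (l * σ s)
    have h1 := h.image (hH g hg hgs) hg
    have hga : (g : Matrix ι ι F) *ᵥ a = a + σ s • b := by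
      have : a = l⁻¹ • u := by rw [hudef, inv_smul_smul₀ hl0]
      rw [this, mulVec_smul, hgu, smul_add]
      congr 1
      rw [smul_smul, inv_mul_cancel_left₀ hl0]
    rw [hga, hgb] at h1
    have h2 := h1.add_left (neg_centre h)
    rw [add_neg_cancel_comm] at h2
    have h3 := swap_left h2 (by simpa using hs)
    rwa [hf.involutive] at h3
  obtain ⟨b', hb', hb'a, hbb', w, hwM, hw, hwa, hwb⟩ := exists_partner hn hH hf hb0 hbb hba ha
  have hline : ∀ s : F, Mem hf M a (s • b') := by
    intro s
    have h1 := (hroot (s / f b b')).image hwM hw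
    rw [hwb, mulVec_smul, hwb] at h1
    have h2 := comm_rule h h1 (by rw [smul_right hf, orth_comm hf hb'a, mul_zero])
    rwa [smul_smul, mul_div_cancel₀ _ hbb'] at h2
  -- an anisotropic functional vector
  obtain ⟨t, ht⟩ := exists_trace_one hf
  set s := σ (t / f b b') with hsdef
  refine specialLinear_le_of_aniso hn hH (b := b + s • b') ha ?_ (h.add (hline s))
  rw [norm_add_smul hf, hbb, hb', hf.herm b' b, ← map_mul, mul_zero, add_zero, zero_add, hsdef,
    hf.involutive, div_mul_cancel₀ _ hbb', ht]
  exact one_ne_zero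

/-- An element outside the similarity group gives a new transvection. -/
theorem exists_new (hU : ∀ v (hv : f v v = 0) c, c + σ c = 0 → uT hf hv c ∈ M) {g : GL ι F}
    (hgM : g ∈ M) (hg : g ∉ Cfsg.Geo.similarityGroup f) :
    ∃ a b, a ≠ 0 ∧ Mem hf M a b ∧ b ∉ Submodule.span F {a} := by
  classical
  by_contra hno
  push Not at hno
  obtain ⟨c, hc0, hc⟩ := exists_traceZero hf
  have hv : ∀ v, f v v = 0 → ∃ μ : F, ∀ y,
      f y v = μ * f ((g : Matrix ι ι F) *ᵥ y) ((g : Matrix ι ι F) *ᵥ v) := by
    intro v hv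
    by_cases hv0 : v = 0
    · exact ⟨0, fun y => by rw [hv0, zero_right hf, zero_mul]⟩
    obtain ⟨b, hb⟩ := exists_upair_eq hf
      ((c • upair hf v).comp (Matrix.toLin' ((g⁻¹ : GL ι F) : Matrix ι ι F)))
    have hbx : ∀ x, f x b = c * f (((g⁻¹ : GL ι F) : Matrix ι ι F) *ᵥ x) v := fun x => by
      have := LinearMap.congr_fun hb x
      simpa using this
    have h1 : upair hf b ((g : Matrix ι ι F) *ᵥ v) = 0 := by
      rw [upair_apply, hbx, inv_mulVec_mulVec, hv, mul_zero]
    have hmem : Mem hf M ((g : Matrix ι ι F) *ᵥ v) b := by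
      refine ⟨h1, ?_⟩
      rw [← conj_transv g (φ := c • upair hf v) (v := v) (by simp [hv]) h1 rfl (fun x => by
        rw [upair_apply, hbx, inv_mulVec_mulVec]; rfl)]
      exact M.mul_mem (M.mul_mem hgM (hU v hv c hc)) (M.inv_mem hgM)
    obtain ⟨k, hk⟩ := Submodule.mem_span_singleton.1 (hno _ _ (fun e => hv0 (by
      rw [← inv_mulVec_mulVec g v, e, mulVec_zero])) hmem)
    refine ⟨σ k / c, fun y => ?_⟩
    have h2 := hbx ((g : Matrix ι ι F) *ᵥ y)
    rw [inv_mulVec_mulVec, ← hk, smul_right hf] at h2
    field_simp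
    linear_combination -h2
  choose μ hμ using hv
  have swap : ∀ v w (hv : f v v = 0) (hw : f w w = 0), f v w ≠ 0 → μ w hw = σ (μ v hv) := by
    intro v w hv hw hvw
    have h1 := congrArg σ (hμ v hv w)
    rw [map_mul, ← hf.herm, ← hf.herm, hμ w hw v] at h1
    refine mul_right_cancel₀ ?_ h1
    intro e
    rw [hμ w hw v, e, mul_zero] at hvw
    exact hvw rfl
  have same : ∀ v w (hv : f v v = 0) (hw : f w w = 0), v ≠ 0 → w ≠ 0 → μ w hw = μ v hv := by
    intro v w hv hw hv0 hw0
    obtain ⟨e, he, hev, hew⟩ := exists_isotropic_nonorth hn hf hv0 hw0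
    rw [swap e w he hw hew, swap e v he hv hev]
  obtain ⟨e, e', -, -, hee, he'e', hee'⟩ := exists_hyperbolic_orth hf ∅ (by simp [hn])
  have hne : f e e' ≠ 0 := by rw [hee']; exact one_ne_zero
  have he0 : e ≠ 0 := fun h => hne (by rw [h, zero_left hf])
  have hμ0 : μ e hee ≠ 0 := fun h => by
    have := hμ e hee e'
    rw [h, zero_mul, hf.herm, hee', map_one] at this
    exact one_ne_zero this
  have hall : ∀ v, f v v = 0 → ∀ y,
      f y v = μ e hee * f ((g : Matrix ι ι F) *ᵥ y) ((g : Matrix ι ι F) *ᵥ v) := by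
    intro v hv y
    by_cases hv0 : v = 0
    · simp [hv0, zero_right hf]
    · rw [← same e v hee hv he0 hv0]; exact hμ v hv y
  refine hg ⟨Units.mk0 _ (inv_ne_zero hμ0), fun y x => ?_⟩
  rw [Units.val_mk0]
  have key : f y x = μ e hee * f ((g : Matrix ι ι F) *ᵥ y) ((g : Matrix ι ι F) *ᵥ x) := by
    by_cases hx0 : x = 0
    · simp [hx0, zero_right hf]
    obtain ⟨z, hz, hzx, -⟩ := exists_isotropic_nonorth hn hf hx0 hx0
    obtain ⟨t, ht⟩ := exists_isotropic_shift hf hz hzx
    have h1 := hall _ ht y
    have h2 := hall z hz y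
    rw [mulVec_add, mulVec_smul, add_right hf, add_right hf, smul_right hf, smul_right hf, h2] at h1
    linear_combination h1
  rw [key, inv_mul_cancel_left₀ hμ0]

end Generate

end

open CfsgLib.UnitCentres in
theorem isMaximal {ι : Type} [Fintype ι] [DecidableEq ι] {F : Type*} [Field F] [Finite F]
    (hn : Fintype.card ι = 3) (σ : F ≃+* F) (f : (ι → F) → (ι → F) → F)
    (hf : Cfsg.Geo.IsUnitaryForm σ f) :
    Cfsg.Geo.IsMaximalIn (Cfsg.Geo.specialLinear ι F)
      (Cfsg.Geo.similarityGroup f ⊓ Cfsg.Geo.specialLinear ι F) := by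
  classical
  have hsim : ∀ g, Iso f g → g ∈ Geo.similarityGroup f :=
    fun g hg => ⟨1, fun x y => by rw [hg x y, Units.val_one, one_mul]⟩
  refine ⟨lt_of_le_not_ge inf_le_right fun h => ?_, fun M hHM hMK => ?_⟩
  · obtain ⟨a, -, haa⟩ := exists_unit_orth hf ∅ (by simp [hn])
    obtain ⟨b, hb, hbb⟩ := exists_unit_orth hf {a} (by simp [hn])
    have hba : f b a = 0 := hb a (by simp)
    obtain ⟨k, hk⟩ := (h (CfsgLib.TransvGL.transv_mem_specialLinear
      (φ := upair hf a) (v := b) (show upair hf a b = 0 from hba))).1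
    have h1 := hk a b
    rw [CfsgLib.TransvGL.transv_mulVec, CfsgLib.TransvGL.transv_mulVec, upair_apply, upair_apply,
      haa, hba, one_smul, zero_smul, add_zero, hf.add_left, orth_comm hf hba, hbb, zero_add,
      mul_zero] at h1
    exact one_ne_zero h1
  · by_cases hle : M ≤ Geo.similarityGroup f ⊓ Geo.specialLinear ι F
    · exact Or.inl (le_antisymm hle hHM)
    obtain ⟨g, hgM, hgH⟩ := SetLike.not_le_iff_exists.1 hle
    have hH : ∀ k, Iso f k → k ∈ Geo.specialLinear ι F → k ∈ M :=
      fun k hk hks => hHM ⟨hsim k hk, hks⟩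
    have hU : ∀ v (hv : f v v = 0) c, c + σ c = 0 → uT hf hv c ∈ M :=
      fun v hv c hc => hH _ (uT_iso hf hv hc) (uT_mem_specialLinear hf hv c)
    obtain ⟨a, b, ha, hab, hb⟩ := exists_new (hf := hf) hn hH hU hgM fun hs => hgH ⟨hs, hMK hgM⟩
    exact Or.inr (le_antisymm hMK (specialLinear_le_of_mem hn hH ha hab hb))

end CfsgLib.SLThree90.Unit

namespace CfsgLib.SLThree90

/-- Clause (7) of S5774. -/
theorem unitary_maximal {F : Type*} [Field F] [Fintype F] (σ : F ≃+* F)
    (f : (Fin 3 → F) → (Fin 3 → F) → F) (hf : Cfsg.Geo.IsUnitaryForm σ f) :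
    Cfsg.Geo.IsMaximalIn (Cfsg.Geo.specialLinear (Fin 3) F)
      (Cfsg.Geo.similarityGroup f ⊓ Cfsg.Geo.specialLinear (Fin 3) F) :=
  Unit.isMaximal (Fintype.card_fin 3) σ f hf

end CfsgLib.SLThree90
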